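import Cfsg.Agent.H19.SeqInd
import Cfsg.Agent.H18.BG1

/-! The Brauer–Leonard theorem (`H23.BL.main`): Sylow subgroups all of whose non-identity elements have the same
centralizer; norm inequality on a TI-subset (`H23.ipr_lt_of_nti`). -/

set_option autoImplicit false
set_option linter.unusedSectionVars false
open H5 Cfsg H18 H19 Subgroup
open scoped ComplexConjugate commutatorElement

namespace H23

variable {G : Type*} [Group G] [Fintype G] {P V C N T : Subgroup G} {A : Set G} {α Φ η χ ψ : G → ℂ}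
  {a : (G → ℂ) → ℕ}

/-- the part of a class function on a TI-subset has smaller norm -/
theorem ipr_lt_of_nti (h : NTI A T N) (h1 : (1 : G) ∉ A) (hΦ : Φ ∈ cf T) (h0 : Φ 1 ≠ 0) (hα : α ∈ cf N)
    (hs : ∀ x, x ∉ A → α x = 0) (e : ∀ x ∈ A, α x = Φ x) : ipr N α α < ipr T Φ Φ := by
  have h2 : ipr T (ind N T α) Φ = ipr N α α := by
    rw [ipr, ip_ind_left _ _ hΦ.2, ip_congr N (φ := α) (ψ' := α) fun x hx => (e x (by_contra fun h => hx (hs x h))).symm,
      ipr]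
  have h3 : ipr T (ind N T α) (ind N T α) = ipr N α α := by rw [ipr, ip_ind_ind_of_nti h hs hα hs, ipr]
  have h4 := ipr_self_pos (K := T) (φ := ind N T α - Φ) fun e => h0 (by
    have := congrFun e 1
    rwa [Pi.sub_apply, ind_one h.le, hs 1 h1, mul_zero, zero_sub, Pi.zero_apply, neg_eq_zero] at this)
  rw [ipr_sub_left, ipr_sub_right, ipr_sub_right, ipr_comm _ Φ (ind N T α), h2, h3] at h4
  linarith

theorem exists_mult (C : Subgroup G) (hΦ : Φ ∈ chars ⊤) :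
    ∃ a : (G → ℂ) → ℕ, ∀ η ∈ irr C, ip C (res C Φ) η = a η := by
  have : ∀ η : G → ℂ, ∃ n : ℕ, η ∈ irr C → ip C (res C Φ) η = n := fun η => by
    by_cases e : η ∈ irr C
    · exact (ip_nat (res_mem_chars le_top hΦ) (chars_of_irr e)).imp fun _ h _ => h
    · exact ⟨0, fun h => (e h).elim⟩
  choose a ha using this
  exact ⟨a, ha⟩

theorem res_eq_sum (hΦ : Φ ∈ chars ⊤) (ha : ∀ η ∈ irr C, ip C (res C Φ) η = a η) :
    res C Φ = ∑ η ∈ irr C, (a η : ℂ) • η :=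
  (cf_eq_sum (cf_of_chars (res_mem_chars le_top hΦ))).trans (Finset.sum_congr rfl fun η hη => by rw [ha η hη])

theorem ipr_res_eq (hΦ : Φ ∈ chars ⊤) (ha : ∀ η ∈ irr C, ip C (res C Φ) η = a η) :
    ipr C (res C Φ) (res C Φ) = (∑ η ∈ irr C, a η ^ 2 : ℕ) := by
  rw [ipr_eq_sum_irr (vchar_of_chars (res_mem_chars le_top hΦ)), Nat.cast_sum]
  exact Finset.sum_congr rfl fun η hη => by rw [ipr_of_ip (c := a η) (by rw [ha η hη]; simp), Nat.cast_pow, sq]

theorem sum_le_dg (hΦ : Φ ∈ chars ⊤) (ha : ∀ η ∈ irr C, ip C (res C Φ) η = a η) :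
    ((∑ η ∈ irr C, a η : ℕ) : ℤ) ≤ dg Φ := by
  have h1 := congrFun (res_eq_sum hΦ ha) 1
  rw [res_one, chars_apply_one hΦ, Finset.sum_apply, Finset.sum_congr rfl (g := fun η => ((a η * dg η : ℤ) : ℂ))
    fun η hη => by simp [irr_apply_one hη], ← Int.cast_sum, Int.cast_inj] at h1
  rw [h1, Nat.cast_sum]
  exact Finset.sum_le_sum fun η hη => le_mul_of_one_le_right (Int.natCast_nonneg _) (irr_dg_pos hη)

theorem bl_arith {q w x y M c B : ℤ} (w2 : 2 ≤ w) (wx : w ≤ x) (xq : x ^ 2 + 1 < q) (hd : w ∣ q - 1) (c1 : 1 ≤ c)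
    (hB : M + c ^ 2 - c ≤ B) (hM : w + c ≤ M) (My : M ≤ y) (yx : y ≤ x ^ 2 - 1) (k1 : q * B < q * w + M ^ 2)
    (k2 : q * (1 + 2 * w * c + w ^ 2 * B) < q * w * (1 + w ^ 2) + (1 + w * M) ^ 2)
    (hr : x ^ 2 - 1 - y < w → w ≤ c + 1) : False := by
  have h1 : w ^ 2 + w + 1 ≤ q := by
    obtain ⟨t, ht⟩ := hd
    have : w < t := by nlinarith
    nlinarith
  have q0 : 0 < q := by nlinarith
  have h2 : q * (M + c ^ 2 - c) ≤ q * B := mul_le_mul_of_nonneg_left hB q0.le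
  by_cases h3 : M ≤ w + 1
  · obtain rfl : c = 1 := by omega
    obtain rfl : M = w + 1 := by omega
    have h4 : w ^ 2 * (q * (w + 1 + 1 ^ 2 - 1)) ≤ w ^ 2 * (q * B) := mul_le_mul_of_nonneg_left h2 (sq_nonneg _)
    have h5 : (w ^ 2 + w + 1) * (w ^ 2 + w + 1) ≤ q * (w ^ 2 + w + 1) := mul_le_mul_of_nonneg_right h1 (by positivity)
    nlinarith
  by_cases h4 : M ≤ q - w - 2
  · have h5 : 0 ≤ (M - (w + 2)) * (q - w - 2 - M) := mul_nonneg (by omega) (by omega)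
    have h6 : 0 ≤ q * (c ^ 2 - c) := mul_nonneg q0.le (by nlinarith)
    rcases w2.eq_or_lt with rfl | w3
    · have : 8 ≤ q := by omega
      nlinarith
    · nlinarith
  have h5 := hr (by omega)
  have h6 : 0 ≤ M * (q - 3 - M) := mul_nonneg (by omega) (by omega)
  have h7 : 3 * M + q * (c ^ 2 - c) < q * w := by nlinarith
  rcases w2.eq_or_lt with rfl | w3
  · have h8 : 0 ≤ q * (c ^ 2 - c) := mul_nonneg q0.le (by nlinarith)
    obtain rfl : q = 7 := by omega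
    obtain rfl : x = 2 := by nlinarith
    omega
  have h8 : q * ((w - 1) * (w - 2)) ≤ q * (c ^ 2 - c) := mul_le_mul_of_nonneg_left (by nlinarith) q0.le
  rcases (show w = 3 ∨ 4 ≤ w by omega) with rfl | w4
  · omega
  · have : q * w ≤ q * ((w - 1) * (w - 2)) := mul_le_mul_of_nonneg_left (by nlinarith) q0.le
    omega

structure BL (P V C N : Subgroup G) : Prop where
  dp : DP P V C
  abel : Abel P
  nml : C ⊴ N
  nP : N ≤ N(P)
  nV : N ≤ N(V)
  nti : NTI ((C : Set G) \ V) ⊤ N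
  fpf : ∀ g ∈ N, ∀ u ∈ P, u ≠ 1 → g * u = u * g → g ∈ C

theorem bl_of {p : ℕ} (hp : p.Prime) (hP : Hall {p} P ⊤) (h1 : P ≠ ⊥) (h : ∀ x ∈ P, x ≠ 1 → C1(x) = C(P)) :
    BL P O[{p}ᶜ](C(P)) C(P) N(P) := by
  have ha : Abel P := fun x hx => by
    by_cases e : x = 1
    · exact e ▸ one_mem _
    · exact h x hx e ▸ C1_self
  have h2 := hP.of_le ha le_top
  have h3 := Burnside_normal_complement hp h2 inf_le_left
  have hn : N(P) ≤ N(O[{p}ᶜ](C(P))) := norm_pcore (norm_C le_rfl)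
  have h4 : ∀ x ∈ C(P), piPart {p} x ∈ P := fun x hx => h2.mem_of_nml C_le_N (piPart_mem hx) piElt_piPart
  refine ⟨⟨cent_symm pcore_le, hP.pi.inf_eq_bot pcore_pi, h2.sup_compl h3⟩, ha, ⟨C_le_N, norm_C le_rfl⟩, le_rfl, hn,
    ⟨le_top, fun x hx => C_le_N hx.1, fun g hg x hx => ⟨conj_mem (norm_C le_rfl) hg hx.1, fun e => hx.2 (by
      simpa [mul_assoc] using conj_mem hn (inv_mem hg) e)⟩, fun g _ x hx hx' => ?_⟩,
    fun g _ u hu u1 e => h u hu u1 ▸ mem_C1.2 e⟩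
  have h5 : piPart {p} x ≠ 1 := fun e => hx.2 (h3.mem_of_nml pcore_nml.norm hx.1 (piPart_eq_one_iff.1 e))
  have h6 := h _ (h4 _ hx'.1) (by rw [piPart_conj]; simpa using h5)
  rw [piPart_conj, ← cj_C1, h _ (h4 _ hx.1) h5] at h6
  rw [mem_N_iff_cj]
  exact (hP.eq_of_le' (hP.cj_top g) ((h6 ▸ h2.cj g).le_of_nml (h6 ▸ cj_norm_iff.2 C_le_N) ha hP.pi)).symm

namespace BL
variable (h : BL P V C N)
include h

theorem split (hη : η ∈ irr C) : ∃ l ∈ irr P, ∃ θ ∈ irr V, l 1 = 1 ∧ res P η = θ 1 • l ∧ res V η = θ := by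
  obtain ⟨l, hl, θ, hθ, rfl⟩ := exists_cfDprod h.dp.cent h.dp.inf (h.dp.sup ▸ hη)
  have h1 := irr_apply_one_of_abel h.abel hl
  exact ⟨l, hl, θ, hθ, h1, res_cfDprod_left h.dp.cent h.dp.inf (irr_supp hl) (irr_supp hθ), by
    rw [res_cfDprod_right h.dp.cent h.dp.inf (irr_supp hl) (irr_supp hθ), h1, one_smul]⟩

theorem inertia_le (hη : η ∈ irr C) (hk : ¬ P ≤ cfker C η) : N ⊓ inertia C η ≤ C := fun g hg => by_contra fun hC => by
  obtain ⟨l, hl, θ, hθ, h1, h2, -⟩ := h.split hη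
  have h3 : ∀ u ∈ P, η u = θ 1 * l u := fun u hu => by simpa [hu] using congrFun h2 u
  have h4 : ∀ u ∈ P, g⁻¹ * u * g ∈ P := fun u hu => by simpa using conj_mem h.nP (inv_mem hg.1) hu
  have h5 : Function.Injective fun u : P => (⟨g⁻¹ * u * g * (u : G)⁻¹, mul_mem (h4 u u.2) (inv_mem u.2)⟩ : P) :=
    fun u v e => by_contra fun huv => hC (h.fpf g hg.1 _ (mul_mem (inv_mem v.2) u.2)
      (fun e => huv (Subtype.ext (inv_mul_eq_one.1 e).symm)) (by
        have e1 : g⁻¹ * u * g * (u : G)⁻¹ = g⁻¹ * v * g * (v : G)⁻¹ := congrArg Subtype.val e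
        calc g * ((v : G)⁻¹ * u) = (v : G)⁻¹ * g * (g⁻¹ * v * g * (v : G)⁻¹) * u := by group
          _ = _ := by rw [← e1]; group))
  refine hk ((le_cfker_iff (chars_of_irr hη) h.dp.le_left).2 fun y hy => ?_)
  obtain ⟨u, e⟩ := h5.surjective_of_finite (Equiv.refl _) ⟨y, hy⟩
  obtain rfl : g⁻¹ * u * g * (u : G)⁻¹ = y := congrArg Subtype.val e
  have h6 := congrFun hg.2.2 u
  rw [cfcj_apply, h3 _ (h4 u u.2), h3 _ u.2] at h6
  rw [h3 _ hy, h3 _ (one_mem _), lin_mul (chars_of_irr hl) h1 (h4 u u.2) (inv_mem u.2), ← mul_assoc, h6, mul_assoc,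
    ← lin_mul (chars_of_irr hl) h1 u.2 (inv_mem u.2), mul_inv_cancel]

theorem card_class (hη : η ∈ irr C) (hk : ¬ P ≤ cfker C η) : (cfclass N η).card = C.relIndex N := by
  rw [card_cfclass h.nml.norm, ← inf_relIndex_left,
    le_antisymm (h.inertia_le hη hk) (le_inf h.nml.le (le_inertia (cf_of_irr hη)))]

theorem dvd : C.relIndex N ∣ Nat.card P - 1 := by
  have h1 := card_seqInd_of_irr h.nml (irrKerD_subset (K := C) (H := P) (M := V))
    (fun g hg θ hθ => cfcj_mem_irrKerD (h.nml.norm hg) (h.nP hg) (h.nV hg) hθ) fun φ hφ => by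
      obtain ⟨θ, hθ, rfl⟩ := mem_seqInd.1 hφ
      obtain ⟨h1, -, h2⟩ := mem_irrKerD.1 hθ
      exact inertia_Ind_irr h.nml h1 (h.inertia_le h1 h2)
  rw [card_irrKerD_of_der_le h.dp.nml_right h.dp.nml_left (h.dp.sd'.abel_iff.1 h.abel), h.dp.sup, relIndex_self,
    h.dp.sd'.relIndex] at h1
  exact h1 ▸ dvd_mul_left _ _

theorem key (hΦ : Φ ∈ chars ⊤) (h0 : Φ 1 ≠ 0) (ha : ∀ η ∈ irr C, ip C (res C Φ) η = a η) :
    (Nat.card P : ℝ) * (∑ η ∈ irr C, a η ^ 2 : ℕ) <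
      Nat.card P * C.relIndex N * ipr ⊤ Φ Φ + ((∑ η ∈ irr C, a η : ℕ) : ℝ) ^ 2 := by
  have hc := cf_of_chars hΦ
  have h1 := ipr_lt_of_nti (α := res C Φ - res V Φ) h.nti (fun e => e.2 (one_mem _)) hc h0
    (mem_cf.2 ⟨fun x hx => by
      simp [show x ∉ C from fun e => hx (h.nml.le e), show x ∉ V from fun e => hx (h.nml.le (h.dp.le_right e))],
      fun g hg x => by
      have e1 := congrFun (cfcj_res_of_cf (K := C) hc (mem_top g⁻¹) (h.nml.norm (inv_mem hg))) x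
      have e2 := congrFun (cfcj_res_of_cf (K := V) hc (mem_top g⁻¹) (h.nV (inv_mem hg))) x
      rw [cfcj_apply, inv_inv] at e1 e2
      rw [Pi.sub_apply, Pi.sub_apply, e1, e2]⟩)
    (fun x hx => by
      by_cases e : x ∈ V
      · simp [e, h.dp.le_right e]
      · simp [e, show x ∉ C from fun e' => hx ⟨e', e⟩])
    fun x hx => by simp [show x ∈ C from hx.1, show x ∉ V from hx.2]
  have h2 : ipr V (res V Φ) (res V Φ) ≤ ((∑ η ∈ irr C, a η : ℕ) : ℝ) ^ 2 := by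
    rw [← res_res h.dp.le_right, res_eq_sum hΦ ha, map_sum, ipr_sum_left, sq, Nat.cast_sum, Finset.sum_mul_sum]
    refine Finset.sum_le_sum fun η hη => ?_
    rw [ipr_sum_right]
    refine Finset.sum_le_sum fun ξ hξ => ?_
    obtain ⟨-, -, θ, hθ, -, -, e⟩ := h.split hη
    obtain ⟨-, -, θ', hθ', -, -, e'⟩ := h.split hξ
    rw [map_smul, map_smul, ipr_natCast_smul_left, ipr_natCast_smul_right, e, e', ipr_irr' hθ hθ', ← mul_assoc]
    exact mul_le_of_le_one_right (by positivity) (by split_ifs <;> norm_num)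
  have h3 : ∑ x, ‖(res C Φ - res V Φ) x‖ ^ 2 = ∑ x, ‖res C Φ x‖ ^ 2 - ∑ x, ‖res V Φ x‖ ^ 2 := by
    rw [← Finset.sum_sub_distrib]
    refine Finset.sum_congr rfl fun x _ => ?_
    by_cases e : x ∈ V
    · simp [e, h.dp.le_right e]
    · simp [e]
  rw [← ipr_res_eq hΦ ha, ipr_self_eq]
  rw [ipr_self_eq, h3, card_eq_relIndex_mul h.nml.le] at h1
  rw [ipr_self_eq] at h2
  rw [h.dp.card] at h1 ⊢
  have h4 := card_posR P
  have h5 := card_posR V
  have h6 : (0 : ℝ) < C.relIndex N := Nat.cast_pos.2 (relIndex_pos' _ _)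
  push_cast at h1 h2 ⊢
  rw [inv_mul_lt_iff₀ (by positivity)] at h1
  rw [inv_mul_le_iff₀ h5] at h2
  rw [← mul_assoc, mul_inv, ← mul_assoc, mul_inv_cancel₀ h4.ne', one_mul, inv_mul_lt_iff₀ h5]
  linarith

theorem lower (hΦ : Φ ∈ chars ⊤) (hk : ¬ P ≤ cfker ⊤ Φ) (ha : ∀ η ∈ irr C, ip C (res C Φ) η = a η) :
    C.relIndex N + a (triv C) ≤ ∑ η ∈ irr C, a η := by
  classical
  obtain ⟨η, hη, h1, h2⟩ : ∃ η ∈ irr C, a η ≠ 0 ∧ ¬ P ≤ cfker C η := by
    by_contra! e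
    refine hk (le_trans (b := cfker C (res C Φ)) ?_ ((cfker_res_chars hΦ le_top).le.trans inf_le_right))
    rw [res_eq_sum hΦ ha]
    refine le_cfker_sum h.dp.le_left fun η hη => ?_
    by_cases e1 : a η = 0
    · exact fun x hx => mem_cfker_def.2 ⟨h.dp.le_left hx, by simp [e1]⟩
    · exact (e η hη e1).trans (le_cfker_smul _)
  have h3 : triv C ∉ cfclass N η := fun e => by
    obtain ⟨g, hg, e⟩ := mem_cfclass.1 e
    exact h2 (by rw [(cfcj_eq_triv_iff (h.nml.norm hg)).1 e, cfker_triv]; exact h.dp.le_left)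
  have h4 := cfclass_subset_irr h.nml.norm hη
  refine le_trans ?_ (Finset.sum_le_sum_of_subset (Finset.insert_subset (triv_mem_irr C) h4))
  rw [Finset.sum_insert h3, add_comm, ← h.card_class hη h2, Nat.add_le_add_iff_left, ← mul_one (Finset.card _)]
  refine Finset.card_nsmul_le_sum _ a 1 fun ξ hξ => ?_
  have h5 := ha ξ (h4 hξ)
  obtain ⟨g, hg, rfl⟩ := mem_cfclass.1 hξ
  rw [← cfcj_res_of_cf (cf_of_chars hΦ) (mem_top g) (h.nml.norm hg), ip_cfcj, ha η hη, Nat.cast_inj] at h5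
  omega

theorem main (hall : ∀ ψ ∈ irr ⊤, ψ ≠ triv ⊤ → ¬ P ≤ cfker ⊤ ψ) (hχ : χ ∈ irr ⊤) (h1 : χ ≠ triv ⊤)
    (hd : dg χ ^ 2 + 1 < Nat.card P) : C.relIndex N = 1 ∧ res C χ ∈ irr C := by
  classical
  have le_sq : ∀ a : (G → ℂ) → ℕ, ∑ η ∈ irr C, a η + a (triv C) ^ 2 ≤ ∑ η ∈ irr C, a η ^ 2 + a (triv C) := fun a => by
    rw [← Finset.add_sum_erase _ _ (triv_mem_irr C), ← Finset.add_sum_erase _ (fun η => a η ^ 2) (triv_mem_irr C)]
    have := Finset.sum_le_sum fun η (_ : η ∈ (irr C).erase (triv C)) => Nat.le_self_pow two_ne_zero (a η)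
    omega
  have hc := chars_of_irr hχ
  obtain ⟨b, hb⟩ := exists_mult C hc
  have b1 := h.lower hc (hall χ hχ h1) hb
  have b2 := sum_le_dg hc hb
  have b3 := le_sq b
  have b4 := Nat.le_self_pow two_ne_zero (b (triv C))
  have w0 := relIndex_pos' C N
  by_cases hw : C.relIndex N = 1
  · refine ⟨hw, irr_of_chars_of_ipr (res_mem_chars le_top hc) ?_⟩
    have k := h.key hc (irr_apply_one_ne_zero hχ) hb
    rw [ipr_irr_self hχ, hw] at k
    have k' : (Nat.card P : ℤ) * (∑ η ∈ irr C, b η ^ 2 : ℕ) < Nat.card P + ((∑ η ∈ irr C, b η : ℕ) : ℤ) ^ 2 := by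
      rw [Nat.cast_one, mul_one, mul_one] at k; exact_mod_cast k
    have : ((∑ η ∈ irr C, b η ^ 2 : ℕ) : ℤ) < 2 := by
      have := pow_le_pow_left₀ (Int.natCast_nonneg _) b2 2
      nlinarith [sq_nonneg (dg χ)]
    rw [ipr_res_eq hc hb, show ∑ η ∈ irr C, b η ^ 2 = 1 by omega, Nat.cast_one]
  exfalso
  have t1 : ip ⊤ (χ * star χ) (triv ⊤) = 1 := by
    rw [ip_mul_left, star_star, mul_triv, res_top, ip_irr_self hχ]
  have hΘ := chars_sub_irr (chars_mul hc (chars_star hc)) (triv_mem_irr ⊤) (t1 ▸ one_ne_zero)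
  set Θ := χ * star χ - triv ⊤ with hΘd
  have t2 : ip ⊤ Θ (triv ⊤) = 0 := by rw [ip_sub_left, t1, ip_triv_triv, sub_self]
  have t3 : ip C (res C Θ) (triv C) = (∑ η ∈ irr C, b η ^ 2 : ℕ) - 1 := by
    rw [map_sub, ip_sub_left, res_triv le_top, ip_triv_triv, res_mul, ip_mul_left, res_star, star_star, mul_triv,
      res_res le_rfl, ip_self_eq_ipr, ipr_res_eq hc hb, Complex.ofReal_natCast]
  have t4 : dg Θ = dg χ ^ 2 - 1 := dg_eq_of_eq (by
    rw [hΘd, Pi.sub_apply, Pi.mul_apply, vchar_star_apply_one (vchar_of_irr hχ), irr_apply_one hχ]; simp [sq])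
  obtain ⟨ψ, hψ, p1, p2⟩ := exists_common_constituent (cf_of_chars hΘ) (ψ := ind C ⊤ (triv C)) (by
    rw [ip_res_ind (triv_mem_cf C) (cf_of_chars hΘ), t3, sub_ne_zero, Ne, Nat.cast_eq_one]; omega)
  rw [ip_res_ind (triv_mem_cf C) (cf_of_irr hψ)] at p2
  have p3 : ψ ≠ triv ⊤ := fun e => p1 (e ▸ t2)
  have hc' := chars_of_irr hψ
  obtain ⟨a, ha⟩ := exists_mult C hc'
  have p4 : a (triv C) ≠ 0 := fun e => p2 (by rw [ha _ (triv_mem_irr C), e, Nat.cast_zero])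
  have k1 := h.key hc' (irr_apply_one_ne_zero hψ) ha
  have k2 := h.key (Φ := triv ⊤ + (C.relIndex N : ℂ) • ψ) (a := fun η => (if triv C = η then 1 else 0) +
    C.relIndex N * a η) (add_mem (triv_mem_chars _) (chars_smul_nat hc' _)) (by
      obtain ⟨n, -, e⟩ := irr_exists_apply_one hψ
      rw [Pi.add_apply, Pi.smul_apply, e, triv_one, smul_eq_mul]; norm_cast; omega) fun η hη => by
    rw [map_add, map_smul, ip_add_left, ip_smul_left, ha η hη, res_triv le_top, ip_irr' (triv_mem_irr C) hη]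
    split_ifs with e e' e' <;> simp_all
  have e1 : ∑ η ∈ irr C, ((if triv C = η then 1 else 0) + C.relIndex N * a η) ^ 2 =
      1 + 2 * C.relIndex N * a (triv C) + C.relIndex N ^ 2 * ∑ η ∈ irr C, a η ^ 2 := by
    simp [add_sq, Finset.sum_add_distrib, mul_pow, Finset.mul_sum, triv_mem_irr, mul_assoc]
  have e2 : ∑ η ∈ irr C, ((if triv C = η then 1 else 0) + C.relIndex N * a η) =
      1 + C.relIndex N * ∑ η ∈ irr C, a η := by simp [Finset.sum_add_distrib, Finset.mul_sum, triv_mem_irr]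
  rw [e1, e2] at k2
  simp only [ipr_add_left, ipr_add_right, ipr_natCast_smul_left, ipr_natCast_smul_right, ipr_irr_self hψ,
    ipr_irr_self (triv_mem_irr ⊤), ipr_irr_ne hψ (triv_mem_irr ⊤) p3, ipr_irr_ne (triv_mem_irr ⊤) hψ p3.symm,
    mul_zero, add_zero, zero_add, mul_one, ← sq] at k1 k2
  have p5 := h.lower hc' (hall ψ hψ p3) ha
  have p6 := le_sq a
  have hR := chars_sub_irr hΘ hψ p1
  refine bl_arith (q := Nat.card P) (w := C.relIndex N) (x := dg χ) (y := dg ψ) (M := (∑ η ∈ irr C, a η : ℕ))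
    (c := a (triv C)) (B := (∑ η ∈ irr C, a η ^ 2 : ℕ)) (by omega) (by omega) hd
    (by have := Int.natCast_dvd_natCast.2 h.dvd; rwa [Nat.cast_sub (H19.card_pos' P)] at this) (by omega)
    (by zify at p6 ⊢; linarith) (by omega) (sum_le_dg hc' ha) (t4 ▸ dg_le_of_ip_ne_zero hΘ hψ p1)
    (by exact_mod_cast k1) (by exact_mod_cast k2) fun hr => ?_
  by_cases e : Θ - ψ = 0
  · rw [sub_eq_zero.1 e, ha _ (triv_mem_irr C), eq_sub_iff_add_eq] at t3
    have : a (triv C) + 1 = ∑ η ∈ irr C, b η ^ 2 := by exact_mod_cast t3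
    omega
  obtain ⟨ξ, hξ, p7⟩ := exists_irr_ip_ne_zero (cf_of_chars hR) e
  have p8 : ξ ≠ triv ⊤ := fun e => p7 (by rw [e, ip_sub_left, t2, ip_irr_ne hψ (triv_mem_irr _) p3, sub_zero])
  obtain ⟨d, hd⟩ := exists_mult C (chars_of_irr hξ)
  have p9 := h.lower (chars_of_irr hξ) (hall ξ hξ p8) hd
  have p10 := sum_le_dg (chars_of_irr hξ) hd
  have p11 := dg_le_of_ip_ne_zero hR hξ p7
  rw [dg_sub (vchar_of_chars hΘ) (vchar_of_irr hψ), t4] at p11
  omega

end BL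

/-- **Brauer–Leonard** -/
theorem brauer_leonard {p : ℕ} (hp : p.Prime) (hP : Hall {p} P ⊤) (h : ∀ x ∈ P, x ≠ 1 → C1(x) = C(P))
    (hn : ∀ K : Subgroup G, K.Normal → P ≤ K → K = ⊤) (hχ : χ ∈ irr ⊤) (h1 : χ ≠ triv ⊤)
    (hd : dg χ ^ 2 + 1 < Nat.card P) : O[{p}ᶜ]((⊤ : Subgroup G)).index = Nat.card P ∧ χ 1 = 1 := by
  have hB := bl_of hp hP (fun e => by rw [e, card_bot, Nat.cast_one] at hd; linarith [sq_nonneg (dg χ)]) h
  obtain ⟨h2, h3⟩ := hB.main (fun ψ hψ h2 e => h2 ((irr_eq_triv_iff hψ).1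
    (hn _ (cfker_nml (cf_of_irr hψ)).normal e).ge)) hχ h1 hd
  have h4 := Burnside_normal_complement hp hP (inf_le_right.trans (relIndex_eq_one.1 h2))
  refine ⟨by rw [← relIndex_top_right, (sd_of_hall' h4 pcore_nml.norm hP).relIndex], ?_⟩
  have hc := mem_chars_top.1 (chars_of_irr hχ)
  obtain ⟨l, hl, θ, -, e1, e2, -⟩ := hB.split h3
  rw [res_res hB.dp.le_left] at e2
  have h5 := hn _ hc.normal_charCenter fun u hu => hc.mem_charCenter.2 (by
    have e3 := congrFun e2 u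
    have e4 := congrFun e2 1
    have e5 := congrArg norm (lin_norm (chars_of_irr hl) e1 hu)
    rw [norm_mul, RCLike.norm_conj, norm_one, mul_self_eq_one_iff, or_iff_left (by linarith [norm_nonneg (l u)])] at e5
    simp only [res_of_mem _ hu, res_one, Pi.smul_apply, smul_eq_mul, e1, mul_one] at e3 e4
    rw [e3, e4, norm_mul, e5, mul_one])
  have h6 := ipr_irr_self hχ
  obtain ⟨n, -, e⟩ := irr_exists_apply_one hχ
  rw [ipr_self_eq, Finset.sum_congr rfl fun x _ => by rw [hc.mem_charCenter.1 (h5 ▸ mem_top x)], Finset.sum_const,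
    card_top, Finset.card_univ, Nat.card_eq_fintype_card, nsmul_eq_mul, inv_mul_cancel_left₀ (by positivity), e,
    Complex.norm_natCast, pow_eq_one_iff_of_nonneg n.cast_nonneg two_ne_zero, Nat.cast_eq_one] at h6
  rw [e, h6, Nat.cast_one]

end H23
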