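import Mathlib.GroupTheory.GroupAction.CardCommute
import Mathlib.GroupTheory.Index
import Mathlib.GroupTheory.Subgroup.Centralizer
import Mathlib.GroupTheory.QuotientGroup.Basic
import Mathlib.Algebra.Order.BigOperators.Group.Finset
import Mathlib.Algebra.BigOperators.Ring.Finset
import Mathlib.Algebra.Group.Subgroup.Finite
import Mathlib.Tactic.Group
import Mathlib.Tactic.Ring
import Mathlib.Tactic.Linarith

/-! Class numbers `k(G) = Nat.card (ConjClasses G)`: `k(Y) ≤ m k(X)`, `k(X) ≤ m k(Y)` for a subgroup of index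
`m` (`classNum_subgroup_le`, `classNum_le_index_mul`, strict `classNum_lt_index_mul`), and
`k(X) ≤ k(N) k(X/N)` (`classNum_le_mul_quotient`); `exists_mul_of_relIndex_eq_index`. -/

namespace H23

open Subgroup

variable {G : Type*} [Group G]

/-- number of commuting pairs in `A × B` -/
noncomputable def cp (A B : Set G) : ℕ :=
  Nat.card {p : G × G // p.1 ∈ A ∧ p.2 ∈ B ∧ p.1 * p.2 = p.2 * p.1}

theorem cp_comm (A B : Set G) : cp A B = cp B A :=
  Nat.card_congr ((Equiv.prodComm G G).subtypeEquiv fun p => by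
    simp only [Equiv.prodComm_apply, Prod.fst_swap, Prod.snd_swap]
    exact ⟨fun h => ⟨h.2.1, h.1, h.2.2.symm⟩, fun h => ⟨h.2.1, h.1, h.2.2.symm⟩⟩)

theorem cp_eq_sum [Finite G] (A B : Set G) [Fintype A] :
    cp A B = ∑ a : A, Nat.card {b : G // b ∈ B ∧ a * b = b * a} := by
  rw [← Nat.card_sigma]
  exact Nat.card_congr
    { toFun := fun p => ⟨⟨p.1.1, p.2.1⟩, ⟨p.1.2, p.2.2⟩⟩
      invFun := fun s => ⟨(s.1.1, s.2.1), s.1.2, s.2.2⟩
      left_inv := fun _ => rfl
      right_inv := fun _ => rfl }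

theorem cp_self (Y : Subgroup G) : cp (Y : Set G) Y = Nat.card (ConjClasses Y) * Nat.card Y := by
  rw [← card_comm_eq_card_conjClasses_mul_card]
  exact Nat.card_congr
    { toFun := fun p => ⟨(⟨p.1.1, p.2.1⟩, ⟨p.1.2, p.2.2.1⟩), Subtype.ext p.2.2.2⟩
      invFun := fun s => ⟨(s.1.1, s.1.2), s.1.1.2, s.1.2.2, congrArg Subtype.val s.2⟩
      left_inv := fun _ => rfl
      right_inv := fun _ => rfl }

theorem cp_univ : cp (Set.univ : Set G) Set.univ = Nat.card (ConjClasses G) * Nat.card G := by
  rw [← card_comm_eq_card_conjClasses_mul_card]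
  exact Nat.card_congr (Equiv.subtypeEquivRight fun p => by simp [Commute, SemiconjBy])

theorem card_comm_subtype (B : Subgroup G) (a : G) :
    Nat.card {b : G // b ∈ (B : Set G) ∧ a * b = b * a} =
      Nat.card (B ⊓ centralizer ({a} : Set G) : Subgroup G) :=
  Nat.card_congr (Equiv.subtypeEquivRight fun b => by
    simp [mem_centralizer_singleton_iff, eq_comm])

theorem card_comm_univ (a : G) :
    Nat.card {b : G // b ∈ (Set.univ : Set G) ∧ a * b = b * a} =
      Nat.card (centralizer ({a} : Set G)) :=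
  Nat.card_congr (Equiv.subtypeEquivRight fun b => by
    simp [mem_centralizer_singleton_iff, eq_comm])

theorem card_inf_mul_relIndex (Y C : Subgroup G) :
    Nat.card (Y ⊓ C : Subgroup G) * Y.relIndex C = Nat.card C := by
  rw [← card_mul_index (Y.subgroupOf C), relIndex, ← inf_subgroupOf_right]
  congr 1
  exact (Nat.card_congr (subgroupOfEquivOfLe inf_le_right).toEquiv).symm

theorem relIndex_le_index [Finite G] (Y C : Subgroup G) : Y.relIndex C ≤ Y.index := by
  rw [← relIndex_top_right]
  exact relIndex_le_of_le_right le_top (by rw [relIndex_top_right]; exact index_ne_zero_of_finite)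

theorem exists_mul_of_relIndex_eq_index [Finite G] {Y C : Subgroup G} (h : Y.relIndex C = Y.index)
    (g : G) : ∃ c ∈ C, ∃ y ∈ Y, g = c * y := by
  have h1 : MulAction.stabilizer C ((1 : G) : G ⧸ Y) = Y.subgroupOf C := by
    ext c
    rw [MulAction.mem_stabilizer_iff, mem_subgroupOf]
    change ((((c : G) * 1 : G)) : G ⧸ Y) = _ ↔ _
    rw [QuotientGroup.eq]
    simp
  have h2 := MulAction.index_stabilizer C ((1 : G) : G ⧸ Y)
  rw [h1, ← relIndex, h, index_eq_card] at h2
  have h3 := Set.eq_of_subset_of_ncard_le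
    (Set.subset_univ (MulAction.orbit C ((1 : G) : G ⧸ Y))) (by rw [← h2, Set.ncard_univ])
  obtain ⟨c, hc⟩ : (g : G ⧸ Y) ∈ MulAction.orbit C ((1 : G) : G ⧸ Y) := h3 ▸ Set.mem_univ _
  change ((((c : G) * 1 : G)) : G ⧸ Y) = _ at hc
  rw [QuotientGroup.eq, mul_one] at hc
  exact ⟨c, c.2, _, hc, by simp⟩

theorem classNum_subgroup_le [Finite G] (Y : Subgroup G) :
    Nat.card (ConjClasses Y) ≤ Y.index * Nat.card (ConjClasses G) := by
  have h : cp (Y : Set G) Y ≤ cp (Set.univ : Set G) Set.univ := by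
    unfold cp
    exact Nat.card_le_card_of_injective
      (fun p => ⟨p.1, trivial, trivial, p.2.2.2⟩) fun p q h => Subtype.ext (by simpa using h)
  rw [cp_self, cp_univ, ← Y.card_mul_index] at h
  refine Nat.le_of_mul_le_mul_right (c := Nat.card Y) (h.trans_eq (by ring)) Nat.card_pos

theorem cp_univ_le [Finite G] (A : Set G) (Y : Subgroup G) :
    cp A Set.univ ≤ Y.index * cp A Y := by
  classical
  have := Fintype.ofFinite A
  rw [cp_eq_sum, cp_eq_sum, Finset.mul_sum]
  refine Finset.sum_le_sum fun a _ => ?_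
  rw [card_comm_subtype, card_comm_univ, ← card_inf_mul_relIndex Y, mul_comm]
  exact Nat.mul_le_mul_right _ (relIndex_le_index _ _)

theorem classNum_le_index_mul [Finite G] (Y : Subgroup G) :
    Nat.card (ConjClasses G) ≤ Y.index * Nat.card (ConjClasses Y) := by
  have h1 := cp_univ_le Set.univ Y
  have h2 := cp_univ_le (Y : Set G) Y
  rw [cp_comm] at h2
  have h := h1.trans (Nat.mul_le_mul_left _ h2)
  rw [cp_self, cp_univ, ← Y.card_mul_index] at h
  have h0 : 0 < Nat.card Y * Y.index :=
    Nat.mul_pos Nat.card_pos (Nat.pos_of_ne_zero index_ne_zero_of_finite)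
  exact Nat.le_of_mul_le_mul_right (h.trans_eq (by ring)) h0

theorem classNum_lt_index_mul [Finite G] (Y : Subgroup G) (hY : ¬ Y.Normal) :
    Nat.card (ConjClasses G) < Y.index * Nat.card (ConjClasses Y) := by
  classical
  have h1 := cp_univ_le Set.univ Y
  have h2 : cp (Y : Set G) Set.univ < Y.index * cp (Y : Set G) Y := by
    have := Fintype.ofFinite (Y : Set G)
    rw [cp_eq_sum, cp_eq_sum, Finset.mul_sum]
    refine Finset.sum_lt_sum (fun a _ => ?_) ?_
    · rw [card_comm_subtype, card_comm_univ, ← card_inf_mul_relIndex Y, mul_comm]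
      exact Nat.mul_le_mul_right _ (relIndex_le_index _ _)
    · by_contra hcon
      apply hY
      refine ⟨fun a ha g => ?_⟩
      have h3 : Y.relIndex (centralizer {a}) = Y.index := by
        refine le_antisymm (relIndex_le_index _ _) (not_lt.1 fun hlt => hcon ⟨⟨a, ha⟩, Finset.mem_univ _, ?_⟩)
        rw [card_comm_subtype, card_comm_univ, ← card_inf_mul_relIndex Y, mul_comm]
        exact Nat.mul_lt_mul_of_pos_right hlt Nat.card_pos
      obtain ⟨c, hc, y, hy, e⟩ := exists_mul_of_relIndex_eq_index h3 g⁻¹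
      rw [mem_centralizer_singleton_iff] at hc
      have e2 : g = y⁻¹ * c⁻¹ := by rw [← mul_inv_rev, ← e, inv_inv]
      have e3 : g * a * g⁻¹ = y⁻¹ * a * y := by
        rw [e, e2]
        calc y⁻¹ * c⁻¹ * a * (c * y) = y⁻¹ * c⁻¹ * (a * c) * y := by group
          _ = _ := by rw [← hc]; group
      rw [e3]
      exact Y.mul_mem (Y.mul_mem (Y.inv_mem hy) ha) hy
  rw [cp_comm] at h2
  have hi : 0 < Y.index := Nat.pos_of_ne_zero index_ne_zero_of_finite
  have h := h1.trans_lt (Nat.mul_lt_mul_of_pos_left h2 hi)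
  rw [cp_self, cp_univ, ← Y.card_mul_index] at h
  exact Nat.lt_of_mul_lt_mul_right (a := Nat.card Y * Y.index) (h.trans_eq (by ring))

theorem cp_fiber_le [Finite G] (N : Subgroup G) (q : G ⧸ N) :
    cp {x : G | (x : G ⧸ N) = q} N ≤ cp (N : Set G) N := by
  classical
  have := Fintype.ofFinite (N : Set G)
  rw [cp_comm, cp_eq_sum, cp_eq_sum]
  refine Finset.sum_le_sum fun a _ => ?_
  rcases isEmpty_or_nonempty {b : G // b ∈ {x : G | (x : G ⧸ N) = q} ∧ a * b = b * a} with h | ⟨⟨x, hx, hxa⟩⟩
  · rw [Nat.card_of_isEmpty]; exact Nat.zero_le _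
  · refine Nat.card_le_card_of_injective (fun b => ⟨x⁻¹ * b.1, ?_, ?_⟩) ?_
    · exact QuotientGroup.eq.1 (hx.trans b.2.1.symm)
    · have : Commute (a : G) (x⁻¹ * b.1) :=
        Commute.mul_right (Commute.inv_right hxa) b.2.2
      exact this
    · intro b c h
      exact Subtype.ext (mul_left_cancel (congrArg Subtype.val h))

theorem classNum_le_mul_quotient [Finite G] (N : Subgroup G) [N.Normal] :
    Nat.card (ConjClasses G) ≤ Nat.card (ConjClasses N) * Nat.card (ConjClasses (G ⧸ N)) := by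
  classical
  have := Fintype.ofFinite G
  have := Fintype.ofFinite (G ⧸ N)
  have hsum : ∀ (K : Type _) [Group K] [Fintype K], Nat.card (ConjClasses K) * Nat.card K =
      ∑ a : K, Nat.card (centralizer ({a} : Set K)) := by
    intro K _ _
    rw [← cp_univ, cp_eq_sum]
    simp only [card_comm_univ]
    exact Fintype.sum_equiv (Equiv.Set.univ K) _ _ fun _ => rfl
  have h1 : ∀ x : G, Nat.card (centralizer ({x} : Set G)) ≤
      Nat.card (centralizer ({(x : G ⧸ N)} : Set (G ⧸ N))) *
        Nat.card (N ⊓ centralizer ({x} : Set G) : Subgroup G) := by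
    intro x
    rw [← card_inf_mul_relIndex N, mul_comm]
    refine Nat.mul_le_mul_right _ ?_
    have := relIndex_ker (K := centralizer ({x} : Set G)) (QuotientGroup.mk' N)
    rw [QuotientGroup.ker_mk'] at this
    rw [this]
    refine card_le_of_le ?_
    rintro _ ⟨c, hc, rfl⟩
    rw [SetLike.mem_coe, mem_centralizer_singleton_iff] at hc
    rw [mem_centralizer_singleton_iff]
    exact congrArg (QuotientGroup.mk' N) hc
  have h2 : Nat.card (ConjClasses G) * Nat.card G ≤
      (Nat.card (ConjClasses (G ⧸ N)) * Nat.card (G ⧸ N)) * (Nat.card (ConjClasses N) * Nat.card N) := by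
    rw [hsum G, hsum (G ⧸ N), ← cp_self N, Finset.sum_mul]
    refine (Finset.sum_le_sum fun x _ => h1 x).trans ?_
    rw [← Finset.sum_fiberwise (s := Finset.univ) (g := fun x : G => (x : G ⧸ N))]
    refine Finset.sum_le_sum fun q _ => ?_
    refine le_trans (le_of_eq ?_) (Nat.mul_le_mul_left _ (cp_fiber_le N q))
    rw [cp_eq_sum, Finset.mul_sum]
    simp only [card_comm_subtype]
    rw [Finset.sum_subtype (p := fun x : G => x ∈ {x : G | (x : G ⧸ N) = q})]
    · refine Finset.sum_congr rfl fun x _ => ?_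
      rw [show ((x : G) : G ⧸ N) = q from x.2]
    · simp
  rw [card_eq_card_quotient_mul_card_subgroup N] at h2
  have h0 : 0 < Nat.card (G ⧸ N) * Nat.card N := Nat.mul_pos Nat.card_pos Nat.card_pos
  exact Nat.le_of_mul_le_mul_right (h2.trans_eq (by ring)) h0

end H23
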