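import Cfsg.Agent.H23.HallS
import Cfsg.Prelude.Def_HallClasses

/-! Hall subgroups of symmetric and alternating groups II: `hall_map_subtype`, `one_prime`, `hall_of_dpi`, `dpi_of`,
`hall_cases`, `hall_conj_sym`, `hall_ext`, `not_le_W`. -/

set_option autoImplicit false
set_option linter.unusedSectionVars false

namespace H23

open Subgroup Equiv Equiv.Perm H18 MulAction H29 H16
open scoped Pointwise

variable {Ω : Type*} [Fintype Ω] [DecidableEq Ω] {π : Set ℕ} {G H : Subgroup (Perm Ω)} {O S : Set Ω} {a b j n k : ℕ}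

section
variable {X : Type*} [Group X] [Finite X] {M K L : Subgroup X}

theorem hall_map_subtype {M : Subgroup K} : Hall π (M.map K.subtype) K ↔ Cfsg.IsPiHall π M := by
  have e : (M.map K.subtype).relIndex K = M.index := by
    rw [relIndex, subgroupOf, comap_map_eq_self_of_injective K.subtype_injective]
  exact ⟨fun h => ⟨fun p hp hd => h.pi p hp (by rwa [card_map_of_injective K.subtype_injective]),
    fun p hp hπ => (e ▸ h.idx).not_dvd' hp hπ⟩, fun h => ⟨map_subtype_le _, fun p hp hd => h.1 p hp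
      (by rwa [card_map_of_injective K.subtype_injective] at hd), fun p hp hd hπ => h.2 p hp hπ (e ▸ hd)⟩⟩

theorem one_prime (h : ∀ r s : ℕ, r.Prime → s.Prime → r ∈ π → s ∈ π → r ∣ Nat.card M → s ∣ Nat.card M → r = s) :
    ∃ P, Hall π P M ∧ ∀ K ≤ M, PiGrp π K → ∃ g ∈ M, K ≤ cj g P := by
  by_cases e : ∃ r : ℕ, r.Prime ∧ r ∈ π ∧ r ∣ Nat.card M
  · obtain ⟨r, h1, h2, h3⟩ := e
    obtain ⟨P, hP⟩ := exists_sylow h1 M
    exact ⟨P, hP.congr fun p hp hd => ⟨fun d => d ▸ h2, fun d => h p r hp h1 d h2 hd h3⟩, fun K a b =>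
      sylow_le_cj' h1 hP (fun p hp hd => h p r hp h1 (b p hp hd) h2 (hd.trans (card_dvd a)) h3) a⟩
  · have a : PiGrp πᶜ M := fun r hr hd d => e ⟨r, hr, d, hd⟩
    exact ⟨⊥, hall_bot a, fun K b c => ⟨1, one_mem _, ((hall_self c).eq_bot_of_compl (a.of_le b)).le.trans bot_le⟩⟩

theorem hall_of_dpi (h : Cfsg.IsDPiGroup π X) : ∃ P : Subgroup X, Hall π P ⊤ ∧ ∀ K, PiGrp π K → ∃ g, K ≤ cj g P := by
  obtain ⟨P, -, hP⟩ := Finite.exists_le_maximal (p := Cfsg.IsPiSubgroup π) (a := (⊥ : Subgroup X)) (PiGrp.bot (π := π))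
  have a : ∀ K, PiGrp π K → ∃ g, K ≤ cj g P := fun K hK => by
    obtain ⟨Q, b, hQ⟩ := Finite.exists_le_maximal (p := Cfsg.IsPiSubgroup π) hK
    obtain ⟨g, rfl⟩ := h P Q hP hQ
    exact ⟨g, b⟩
  refine ⟨P, hall_of_sylows le_top hP.1 fun p hp hπ _ => ?_, a⟩
  obtain ⟨Q, hQ⟩ := exists_sylow hp (⊤ : Subgroup X)
  obtain ⟨g, hg⟩ := a Q (hQ.pi.sub (by simpa))
  exact ⟨_, hQ.cj_top g⁻¹, by simpa using cj_mono (g := g⁻¹) hg⟩

theorem dpi_of (h : ∃ P : Subgroup X, PiGrp π P ∧ ∀ K, PiGrp π K → ∃ g, K ≤ cj g P) : Cfsg.IsDPiGroup π X := by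
  obtain ⟨P, h1, h2⟩ := h
  intro H K a b
  obtain ⟨g, c⟩ := h2 H a.1
  obtain ⟨k, d⟩ := h2 K b.1
  rw [a.eq_of_le (h1.cj g) c, b.eq_of_le (h1.cj k) d]
  exact ⟨k * g⁻¹, by rw [← cj_def, ← cj_mul]; simp⟩
end

theorem le_of_dvd_card {r : ℕ} (hr : r.Prime) (h : r ∣ Nat.card G) : r ≤ Fintype.card Ω :=
  Nat.card_eq_fintype_card (α := Ω) ▸ hr.dvd_factorial.1 (h.trans ((card_subgroup_dvd_card G).trans Nat.card_perm.dvd))

theorem Res.eq {k' : ℕ} (h : Res π n k) (h' : Res π n k') : k = k' := by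
  rcases h with ⟨a, rfl, -, b⟩ | ⟨a, b⟩ <;> rcases h' with ⟨c, rfl, -, d⟩ | ⟨c, d⟩
  · rfl
  · have := (d 5 Nat.prime_five (by omega)).1 ((b 5 Nat.prime_five (by omega)).2 (by omega)); omega
  · have := (b 5 Nat.prime_five (by omega)).1 ((d 5 Nat.prime_five (by omega)).2 (by omega)); omega
  · omega

theorem hall_cases (hG : alternatingGroup Ω ≤ G) (h : Hall π H G) :
    (∀ r s : ℕ, r.Prime → s.Prime → r ∈ π → s ∈ π → r ≤ Fintype.card Ω → s ≤ Fintype.card Ω → r = s) ∨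
    (∀ r, r.Prime → r ≤ Fintype.card Ω → r ∈ π) ∨
    ∃ O : Set Ω, Res π (Fintype.card Ω) O.ncard ∧ H = blockStab (· ∈ O) ⊓ G :=
  or_iff_not_imp_left.2 fun e => hall_class _ Ω G H rfl hG h (by_contra fun d => e fun r s a b c f g i =>
    by_contra fun j => d ⟨r, s, a, b, j, c, f, g, i⟩)

theorem hall_conj_sym {K : Subgroup (Perm Ω)} (hG : alternatingGroup Ω ≤ G) (h : Hall π H G) (h' : Hall π K G) :
    ∃ g ∈ G, K = cj g H := by
  rcases hall_cases hG h with a | a | ⟨O, a, rfl⟩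
  · obtain ⟨P, b, c⟩ := one_prime (M := G) fun r s d e f g i j => a r s d e f g (le_of_dvd_card d i) (le_of_dvd_card e j)
    obtain ⟨g, d, e⟩ := c H h.le h.pi
    obtain ⟨k, f, i⟩ := c K h'.le h'.pi
    rw [h.eq_of_le' (b.cj_mem d) e, h'.eq_of_le' (b.cj_mem f) i]
    exact ⟨k * g⁻¹, mul_mem f (inv_mem d), by rw [← cj_mul]; simp⟩
  · have b : PiGrp π G := fun r hr hd => a r hr (le_of_dvd_card hr hd)
    exact ⟨1, one_mem _, by rw [h.eq_self b, h'.eq_self b, cj_one]⟩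
  obtain ⟨b1, b2, b3, b4, -⟩ := a.mem
  rcases hall_cases hG h' with b | b | ⟨O', b, rfl⟩
  · exact absurd (b 2 3 Nat.prime_two Nat.prime_three (b1 2 Nat.prime_two (by omega)) (b1 3 Nat.prime_three (by omega))
      (by omega) (by omega)) (by omega)
  · rcases a with ⟨c, -, -, d⟩ | ⟨c, d⟩
    · exact absurd ((d _ c le_rfl).1 (b _ c le_rfl)) (lt_irrefl _)
    · have := (d 5 Nat.prime_five (by omega)).1 (b 5 Nat.prime_five (by omega)); omega
  obtain ⟨σ, c, d⟩ := exists_map_set (a.eq b) (by omega)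
  haveI : G.Normal := by rcases alt_le_cases hG with rfl | rfl <;> infer_instance
  exact ⟨σ, hG c, conj_W d⟩

theorem hall_ext (hG : alternatingGroup Ω ≤ G) (h : Hall π H G) : ∃ K, Hall π K ⊤ ∧ H = K ⊓ G := by
  haveI : G.Normal := by rcases alt_le_cases hG with rfl | rfl <;> infer_instance
  rcases hall_cases hG h with a | a | ⟨O, a, rfl⟩
  · obtain ⟨P, b, c⟩ := one_prime (M := (⊤ : Subgroup (Perm Ω))) fun r s d e f g i j =>
      a r s d e f g (le_of_dvd_card d i) (le_of_dvd_card e j)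
    obtain ⟨g, -, e⟩ := c H le_top h.pi
    exact ⟨_, b.cj_top g, h.eq_of_le' ((b.cj_top g).inf_nml nml_top) (le_inf e h.le)⟩
  · exact ⟨⊤, hall_self fun r hr hd => a r hr (le_of_dvd_card hr hd), by
      rw [top_inf_eq, h.eq_self fun r hr hd => a r hr (le_of_dvd_card hr hd)]⟩
  · exact ⟨_, hall_W a, rfl⟩

theorem mem_iff_of_fix {g : Perm Ω} {z : Ω} (h : g ∈ blockStab (· ∈ O)) (e : g z = z) (x : Ω) : g x ∈ O ↔ x ∈ O := by
  have := h x z
  simp only [e, eq_iff_iff] at this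
  tauto

theorem not_le_aux (h : ∀ r, r.Prime → r ≤ 3 → r ∈ π) (f : Ω → Fin 3) (l : List (Ω × Ω))
    (h0 : ∀ i, (Finset.univ.filter fun a => f a = i).card ≤ 3)
    (h1 : ∀ p ∈ l, ∃ g : Perm Ω, (∀ x y, f x = f y ↔ f (g x) = f (g y)) ∧ sign g = 1 ∧ (∃ z, g z = z) ∧ g p.1 = p.2)
    (h2 : ∀ O : Finset Ω, (∑ x, if x ∈ O then 1 else 0) = k → ¬ ∀ p ∈ l, p.2 ∈ O ↔ p.1 ∈ O) :
    ∃ K ≤ alternatingGroup Ω, PiGrp π K ∧ ∀ O : Set Ω, O.ncard = k → ¬ K ≤ blockStab (· ∈ O) := by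
  classical
  refine ⟨blockStab f ⊓ alternatingGroup _, inf_le_right, (pi_blockStab h (by simp) fun i => ?_).inf_left, fun O a b =>
    h2 O.toFinset (by rw [← a, Set.ncard_eq_toFinset_card']; simp) fun p hp => ?_⟩
  · rw [Set.ncard_eq_toFinset_card', Set.toFinset_ofPred]
    convert h0 i
  · obtain ⟨g, c1, c2, ⟨z, c3⟩, c4⟩ := h1 p hp
    simpa [c4] using mem_iff_of_fix (b ⟨c1, c2⟩) c3 p.1

theorem not_le_W (h : Res π n k) : ∃ K ≤ alternatingGroup (Fin n), PiGrp π K ∧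
    ∀ O : Set (Fin n), O.ncard = k → ¬ K ≤ blockStab (· ∈ O) := by
  rcases h with ⟨-, rfl, h1, h2⟩ | ⟨⟨rfl, rfl⟩ | ⟨rfl, rfl⟩, h2⟩
  · obtain ⟨m, rfl⟩ := Nat.exists_eq_add_of_le' h1
    refine ⟨blockStab (· ∈ ({0, 1} : Set (Fin (m + 5)))) ⊓ alternatingGroup _, inf_le_right,
      (pi_blockStab (n := m + 4) (fun r hr e => (h2 r hr (by omega)).2 (by omega)) (by simp) fun i => ?_).inf_left, fun O a b => ?_⟩
    · refine Nat.le_of_lt_succ ((Set.ncard_lt_card fun e => ?_).trans_eq (by simp))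
      have c : ∀ x : Fin (m + 5), (x ∈ ({0, 1} : Set (Fin (m + 5)))) = i := fun x => e.ge (Set.mem_univ x)
      simpa [Fin.ext_iff] using (c 0).trans (c (Fin.last _)).symm
    obtain ⟨x, rfl⟩ := Set.ncard_eq_one.1 a
    have c : 3 ≤ ({0, 1}ᶜ : Set (Fin (m + 5))).ncard := by rw [Set.ncard_compl, Set.ncard_pair (by simp)]; simp
    obtain ⟨u, c1, c2⟩ : ∃ u ∈ ({0, 1}ᶜ : Set (Fin (m + 5))), x = u ∨ x = 0 ∨ x = 1 := by
      by_cases e : x ∈ ({0, 1} : Set (Fin (m + 5)))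
      · exact (exists_third_mem c x x).imp fun u d => ⟨d.1, Or.inr e⟩
      · exact ⟨x, e, Or.inl rfl⟩
    obtain ⟨v, c3, c4, -⟩ := exists_third_mem c u u
    obtain ⟨w, c5, c6, c7⟩ := exists_third_mem c u v
    have c8 := b (x := swap 0 1 * swap u v) ⟨mul_mem (swap_mem_blockStab (by simp))
      (swap_mem_blockStab (propext (iff_of_false c1 c3))), Wr.swap_swap_mem (by simp) c4.symm⟩
    simp only [Set.mem_compl_iff, Set.mem_insert_iff, Set.mem_singleton_iff, not_or] at c1 c3 c5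
    have c9 := (mem_iff_of_fix (z := w) c8 (by simp [swap_apply_of_ne_of_ne, *]) x).2 rfl
    rcases c2 with rfl | rfl | rfl
    · exact c4 (by simpa [swap_apply_of_ne_of_ne c3.1 c3.2] using c9)
    · simp [swap_apply_of_ne_of_ne (Ne.symm c1.1) (Ne.symm c3.1)] at c9
    · simp [swap_apply_of_ne_of_ne (Ne.symm c1.2) (Ne.symm c3.2)] at c9
  · refine not_le_aux (fun r hr e => (h2 r hr (by omega)).2 (prime_le_four hr (by omega))) ![0, 0, 0, 1, 1, 1, 2]
      [(0, 2), (1, 0), (3, 5), (4, 3), (0, 3)] (by decide) ?_ fun O a b => ?_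
    · simp only [List.forall_mem_cons, List.not_mem_nil, IsEmpty.forall_iff, implies_true, and_true]
      exact ⟨⟨swap 0 1 * swap 0 2, by decide +kernel⟩, ⟨swap 0 1 * swap 0 2, by decide +kernel⟩,
        ⟨swap 3 4 * swap 3 5, by decide +kernel⟩, ⟨swap 3 4 * swap 3 5, by decide +kernel⟩,
        ⟨swap 0 3 * swap 1 4 * (swap 2 5 * swap 1 2), by decide +kernel⟩⟩
    · simp only [List.forall_mem_cons, Fin.sum_univ_seven] at a b
      by_cases (0 : Fin 7) ∈ O <;> by_cases (4 : Fin 7) ∈ O <;> by_cases (6 : Fin 7) ∈ O <;> simp_all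
  · refine not_le_aux (fun r hr e => (h2 r hr (by omega)).2 (prime_le_four hr (by omega))) ![0, 0, 0, 1, 1, 1, 2, 2]
      [(0, 2), (1, 0), (3, 5), (4, 3), (6, 7)] (by decide) ?_ fun O a b => ?_
    · simp only [List.forall_mem_cons, List.not_mem_nil, IsEmpty.forall_iff, implies_true, and_true]
      exact ⟨⟨swap 0 1 * swap 0 2, by decide +kernel⟩, ⟨swap 0 1 * swap 0 2, by decide +kernel⟩,
        ⟨swap 3 4 * swap 3 5, by decide +kernel⟩, ⟨swap 3 4 * swap 3 5, by decide +kernel⟩,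
        ⟨swap 0 1 * swap 6 7, by decide +kernel⟩⟩
    · simp only [List.forall_mem_cons, Fin.sum_univ_eight] at a b
      by_cases (0 : Fin 8) ∈ O <;> by_cases (3 : Fin 8) ∈ O <;> by_cases (6 : Fin 8) ∈ O <;> simp_all

end H23
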