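import Cfsg.Agent.H29.Ar
import Cfsg.Agent.H29.UFq

/-! Piece of S5778: an absolutely irreducible extraspecial group `3^{1+2}` of exponent 3 in `GU_3` is, in a suitable
orthonormal basis, generated by `diag(1,w,w²)` and the cyclic permutation matrix (`H23.Heis.heis`). -/

set_option autoImplicit false

namespace H23.Heis

open Matrix Cfsg.Geo H29

variable {F : Type*} [Field F] {σ : F →+* F}

theorem exists_fix (h3 : (3:F) ≠ 0) {w : F} (hw : w^2+w+1 = 0) {X Y : Matrix (Fin 3) (Fin 3) F}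
    (hX : X * X * X = 1) (hY : Y * Y * Y = 1) (hXY : X * Y = w • (Y * X)) :
    ∃ v : Fin 3 → F, v ≠ 0 ∧ X *ᵥ v = v := by
  have hX' : ∀ u : Fin 3 → F, X *ᵥ (X *ᵥ (X *ᵥ u)) = u := fun u => by
    rw [mulVec_mulVec, mulVec_mulVec, hX, one_mulVec]
  have hY' : ∀ u : Fin 3 → F, Y *ᵥ (Y *ᵥ (Y *ᵥ u)) = u := fun u => by
    rw [mulVec_mulVec, mulVec_mulVec, hY, one_mulVec]
  have hc : ∀ u : Fin 3 → F, X *ᵥ (Y *ᵥ u) = w • (Y *ᵥ (X *ᵥ u)) := fun u => by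
    rw [mulVec_mulVec, mulVec_mulVec, hXY, smul_mulVec]
  have hinj : ∀ u : Fin 3 → F, Y *ᵥ u = 0 → u = 0 := fun u hu => by
    rw [← hY' u, hu, mulVec_zero, mulVec_zero]
  by_contra hn
  have h0 : ∀ u : Fin 3 → F, u + X *ᵥ u + X *ᵥ (X *ᵥ u) = 0 := fun u => by
    by_contra h
    refine hn ⟨_, h, ?_⟩
    rw [mulVec_add, mulVec_add, hX']
    abel
  have h1 : ∀ u : Fin 3 → F, u + w • X *ᵥ u + (w * w) • X *ᵥ (X *ᵥ u) = 0 := fun u => by
    refine hinj _ ?_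
    have := h0 (Y *ᵥ u)
    rw [hc, mulVec_smul, hc, smul_smul] at this
    rw [mulVec_add, mulVec_add, mulVec_smul, mulVec_smul, this]
  have h2 : ∀ u : Fin 3 → F, u + (w * w) • X *ᵥ u + (w * w * (w * w)) • X *ᵥ (X *ᵥ u) = 0 := fun u => by
    refine hinj _ ?_
    have := h1 (Y *ᵥ u)
    rw [hc, mulVec_smul, hc, smul_smul, smul_smul, smul_smul] at this
    rw [mulVec_add, mulVec_add, mulVec_smul, mulVec_smul, ← this]
    congr 2
    ring
  have a0 := congrFun (h0 (Pi.single 0 1)) 0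
  have a1 := congrFun (h1 (Pi.single 0 1)) 0
  have a2 := congrFun (h2 (Pi.single 0 1)) 0
  simp only [Pi.add_apply, Pi.smul_apply, smul_eq_mul, Pi.single_eq_same, Pi.zero_apply] at a0 a1 a2
  apply h3
  linear_combination a0 + a1 + a2 - ((X *ᵥ Pi.single 0 1) 0 + (w^2 - w + 1) * (X *ᵥ X *ᵥ Pi.single 0 1) 0) * hw

theorem frame (hσ : ∀ a, σ (σ a) = a) (h3 : (3:F) ≠ 0) {w : F} (hw : w^2+w+1 = 0) {X Y : Matrix (Fin 3) (Fin 3) F}
    (hY : Y * Y * Y = 1) (hXY : X * Y = w • (Y * X))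
    (iX : ∀ a b, fm σ 1 (X *ᵥ a) (X *ᵥ b) = fm σ 1 a b) (iY : ∀ a b, fm σ 1 (Y *ᵥ a) (Y *ᵥ b) = fm σ 1 a b)
    {v : Fin 3 → F} (hv : v ≠ 0) (hXv : X *ᵥ v = v) :
    ∃ T : (Fin 3 → F) ≃ₗ[F] (Fin 3 → F), (∀ a b, fm σ 1 (T a) (T b) = fm σ 1 v v * fm σ 1 a b) ∧
      X = Φ T (diagonal ![1, w, w^2]) ∧ Y = Φ T !![0,0,1;1,0,0;0,1,0] := by
  have hY' : ∀ u : Fin 3 → F, Y *ᵥ (Y *ᵥ (Y *ᵥ u)) = u := fun u => by
    rw [mulVec_mulVec, mulVec_mulVec, hY, one_mulVec]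
  have hc : ∀ u : Fin 3 → F, X *ᵥ (Y *ᵥ u) = w • (Y *ᵥ (X *ᵥ u)) := fun u => by
    rw [mulVec_mulVec, mulVec_mulVec, hXY, smul_mulVec]
  have x1 : X *ᵥ (Y *ᵥ v) = w • (Y *ᵥ v) := by rw [hc, hXv]
  have x2 : X *ᵥ (Y *ᵥ (Y *ᵥ v)) = (w * w) • (Y *ᵥ (Y *ᵥ v)) := by rw [hc, x1, mulVec_smul, smul_smul]
  have hw1 : w ≠ 1 := fun e => h3 (by rw [e] at hw; linear_combination hw)
  have hw2 : w * w ≠ 1 := fun e => hw1 (by linear_combination (w - 1) * hw - w * e)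
  have s1 : ∀ c : F, c ≠ 1 → σ c - 1 ≠ 0 := fun c hc e => hc (by rw [← hσ c, sub_eq_zero.1 e, map_one])
  have k0 : ∀ a b c : F, a • v + b • (Y *ᵥ v) + c • (Y *ᵥ (Y *ᵥ v)) = 0 → a = 0 := fun a b c h => by
    have h1 := congrArg (X *ᵥ ·) h
    simp only [mulVec_add, mulVec_smul, hXv, x1, x2, mulVec_zero] at h1
    have h2 := congrArg (X *ᵥ ·) h1
    simp only [mulVec_add, mulVec_smul, hXv, x1, x2, mulVec_zero] at h2
    obtain ⟨i, hi⟩ := Function.ne_iff.1 hv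
    have a0 := congrFun h i
    have a1 := congrFun h1 i
    have a2 := congrFun h2 i
    simp only [Pi.add_apply, Pi.smul_apply, smul_eq_mul, Pi.zero_apply] at a0 a1 a2 hi
    have : 3 * a * v i = 0 := by
      linear_combination a0 + a1 + a2 - (b * (Y *ᵥ v) i + (w^2 - w + 1) * c * (Y *ᵥ Y *ᵥ v) i) * hw
    exact (mul_eq_zero.1 ((mul_eq_zero.1 this).resolve_right hi)).resolve_left h3
  let L : (Fin 3 → F) →ₗ[F] (Fin 3 → F) := Fintype.linearCombination F ![v, Y *ᵥ v, Y *ᵥ (Y *ᵥ v)]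
  have hL : ∀ a, L a = a 0 • v + a 1 • (Y *ᵥ v) + a 2 • (Y *ᵥ (Y *ᵥ v)) := fun a => by
    simp [L, Fintype.linearCombination_apply, Fin.sum_univ_three]
  have hinj : Function.Injective L := by
    rw [injective_iff_map_eq_zero]
    intro a ha
    rw [hL] at ha
    have e0 := k0 _ _ _ ha
    have h1 := congrArg (Y *ᵥ ·) ha
    simp only [mulVec_add, mulVec_smul, hY', mulVec_zero] at h1
    have e2 := k0 (a 2) (a 0) (a 1) (by rw [← h1]; abel)
    have h2 := congrArg (Y *ᵥ ·) h1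
    simp only [mulVec_add, mulVec_smul, hY', mulVec_zero] at h2
    have e1 := k0 (a 1) (a 2) (a 0) (by rw [← h2]; abel)
    ext i
    fin_cases i
    · exact e0
    · exact e1
    · exact e2
  have f01 : fm σ 1 v (Y *ᵥ v) = 0 := by
    have := iX v (Y *ᵥ v)
    rw [hXv, x1, fm_smul_right] at this
    exact (mul_eq_zero.1 (by linear_combination this : (σ w - 1) * fm σ 1 v (Y *ᵥ v) = 0)).resolve_left (s1 _ hw1)
  have f02 : fm σ 1 v (Y *ᵥ (Y *ᵥ v)) = 0 := by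
    have := iX v (Y *ᵥ (Y *ᵥ v))
    rw [hXv, x2, fm_smul_right] at this
    exact (mul_eq_zero.1 (by linear_combination this :
      (σ (w * w) - 1) * fm σ 1 v (Y *ᵥ (Y *ᵥ v)) = 0)).resolve_left (s1 _ hw2)
  have f12 : fm σ 1 (Y *ᵥ v) (Y *ᵥ (Y *ᵥ v)) = 0 := by rw [iY, f01]
  have f20 : fm σ 1 (Y *ᵥ (Y *ᵥ v)) v = 0 := by rw [← iY, hY', f01]
  have f10 : fm σ 1 (Y *ᵥ v) v = 0 := by rw [← iY, ← iY, hY', f02]
  have f21 : fm σ 1 (Y *ᵥ (Y *ᵥ v)) (Y *ᵥ v) = 0 := by rw [iY, f10]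
  have f11 : fm σ 1 (Y *ᵥ v) (Y *ᵥ v) = fm σ 1 v v := iY _ _
  have f22 : fm σ 1 (Y *ᵥ (Y *ᵥ v)) (Y *ᵥ (Y *ᵥ v)) = fm σ 1 v v := by rw [iY, iY]
  refine ⟨LinearEquiv.ofInjectiveEndo L hinj, fun a b => ?_, eq_Φ fun a => ?_, eq_Φ fun a => ?_⟩
  · rw [LinearEquiv.coe_ofInjectiveEndo, hL, hL]
    simp only [fm_add_left, fm_add_right, fm_smul_left, fm_smul_right, f01, f02, f12, f20, f10, f21, f11, f22]
    rw [fm_eq 1 a b, one_mulVec]
    simp only [dotProduct, Fin.sum_univ_three, Function.comp_apply]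
    ring
  · rw [LinearEquiv.coe_ofInjectiveEndo, hL, hL]
    simp only [mulVec_add, mulVec_smul, hXv, x1, x2, mulVec_diagonal, smul_smul]
    simp [mul_comm, pow_two]
  · rw [LinearEquiv.coe_ofInjectiveEndo, hL, hL]
    simp only [mulVec_add, mulVec_smul, hY']
    simp [mulVec, dotProduct, Fin.sum_univ_three]
    abel

theorem pair {E : Subgroup (GL (Fin 3) F)} (st : IsSymplecticTypeGroup 3 E)
    (ai : ActsAbsolutelyIrreducibly (matrixSet E)) (c27 : Nat.card E = 27)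
    (c3 : Nat.card (Subgroup.center E) = 3) {w : F} (hw : w^2+w+1 = 0) :
    ∃ x ∈ E, ∃ y ∈ E, x.1 * y.1 = w • (y.1 * x.1) := by
  have : Finite E := Nat.finite_of_card_ne_zero (by rw [c27]; norm_num)
  have : Fact (Nat.Prime 3) := ⟨Nat.prime_three⟩
  have hq : Nat.card (E ⧸ Subgroup.center E) = 3 ^ 2 := by
    have := Subgroup.card_eq_card_quotient_mul_card_subgroup (Subgroup.center E)
    rw [c27, c3] at this
    omega
  have hne : Subgroup.center E ≠ ⊤ := fun e => by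
    rw [e, Subgroup.card_top, c27] at c3
    omega
  obtain ⟨x, hx⟩ : ∃ x : E, x ∉ Subgroup.center E := by
    by_contra h
    push_neg at h
    exact hne (top_le_iff.1 fun x _ => h x)
  rw [Subgroup.mem_center_iff] at hx
  push_neg at hx
  obtain ⟨y, hy⟩ := hx
  have hz : x * y * (y * x)⁻¹ ∈ Subgroup.center E := by
    rw [← QuotientGroup.eq_one_iff, QuotientGroup.mk_mul, QuotientGroup.mk_inv, QuotientGroup.mk_mul,
      QuotientGroup.mk_mul, IsPGroup.commutative_of_card_eq_prime_sq hq (y : E ⧸ Subgroup.center E), mul_inv_cancel]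
  obtain ⟨c, hc⟩ := ai.2 (((x * y * (y * x)⁻¹ : E) : GL (Fin 3) F) : Matrix (Fin 3) (Fin 3) F) (by
    rintro _ ⟨s, hs, rfl⟩
    have := Subgroup.mem_center_iff.1 hz ⟨s, hs⟩
    exact (congrArg (fun g : E => ((g : GL (Fin 3) F) : Matrix (Fin 3) (Fin 3) F)) this).symm)
  have e3 : ∀ g : E, g ^ 3 = 1 := fun g => by
    have := Monoid.pow_exponent_eq_one g
    rwa [st.exponent_eq] at this
  have hc3 : c ^ 3 = 1 := by
    have := congrArg (fun g : E => ((g : GL (Fin 3) F) : Matrix (Fin 3) (Fin 3) F)) (e3 (x * y * (y * x)⁻¹))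
    simp only [SubmonoidClass.coe_pow, Units.val_pow_eq_pow_val] at this
    rw [hc, smul_pow, one_pow] at this
    simpa using congrFun (congrFun this 0) 0
  have hc1 : c ≠ 1 := fun e => hy (by
    rw [e, one_smul] at hc
    have : x * y * (y * x)⁻¹ = 1 := Subtype.ext (Units.ext hc)
    exact (mul_inv_eq_one.1 this).symm)
  have hxy : x.1.1 * y.1.1 = c • (y.1.1 * x.1.1) := by
    have : x * y = (x * y * (y * x)⁻¹) * (y * x) := by group
    have := congrArg (fun g : E => ((g : GL (Fin 3) F) : Matrix (Fin 3) (Fin 3) F)) this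
    rw [Subgroup.coe_mul _ (x * y * (y * x)⁻¹), Units.val_mul, hc, smul_mul_assoc, one_mul] at this
    exact this
  have hq2 : (c - w) * (c - w ^ 2) = 0 := by
    have : c ^ 2 + c + 1 = 0 := by
      refine (mul_eq_zero.1 (by linear_combination hc3 : (c - 1) * (c ^ 2 + c + 1) = 0)).resolve_left
        (sub_ne_zero.2 hc1)
    linear_combination this + (w - 1 - c) * hw
  rcases mul_eq_zero.1 hq2 with e | e
  · exact ⟨x, x.2, y, y.2, by rw [hxy, sub_eq_zero.1 e]⟩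
  · refine ⟨y, y.2, x, x.2, ?_⟩
    rw [hxy, sub_eq_zero.1 e, smul_smul, (by linear_combination (w - 1) * hw : w * w ^ 2 = 1), one_smul]

theorem heis {F : Type*} [Field F] [Fintype F] {σ : F →+* F} (hσ : ∀ a, σ (σ a) = a) (hne : σ ≠ RingHom.id F)
    (h3 : (3:F) ≠ 0) {E : Subgroup (GL (Fin 3) F)} (hE : E ≤ Iso σ 1) (st : IsSymplecticTypeGroup 3 E)
    (ai : ActsAbsolutelyIrreducibly (matrixSet E)) (c27 : Nat.card E = 27)
    (c3 : Nat.card (Subgroup.center E) = 3) {w : F} (hw : w^2+w+1 = 0) :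
    ∃ T : (Fin 3 → F) ≃ₗ[F] (Fin 3 → F), gT σ 1 T = 1 ∧ (∃ x ∈ E, x.1 = Φ T (diagonal ![1, w, w^2])) ∧
      ∃ y ∈ E, y.1 = Φ T !![0,0,1;1,0,0;0,1,0] := by
  obtain ⟨x, hx, y, hy, hxy⟩ := pair st ai c27 c3 hw
  have e3 : ∀ g ∈ E, g.1 * g.1 * g.1 = 1 := fun g hg => by
    have := Monoid.pow_exponent_eq_one (⟨g, hg⟩ : E)
    rw [st.exponent_eq] at this
    have := congrArg (fun g : E => ((g : GL (Fin 3) F) : Matrix (Fin 3) (Fin 3) F)) this
    simpa [pow_succ] using this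
  obtain ⟨v, hv, hXv⟩ := exists_fix h3 hw (e3 x hx) (e3 y hy) hxy
  obtain ⟨T, hT, -, -⟩ := frame hσ h3 hw (e3 y hy) hxy (hE hx) (hE hy) hv hXv
  have hd : fm σ 1 v v ≠ 0 := fun e => by
    have := hT (T.symm (Pi.single 0 1)) (T.symm (Pi.single 0 1))
    rw [e, zero_mul, T.apply_symm_apply, fm_single] at this
    simp at this
  have hs : σ (fm σ 1 v v)⁻¹ = (fm σ 1 v v)⁻¹ := by
    rw [map_inv₀, fm_eq, one_mulVec]
    simp only [dotProduct, Fin.sum_univ_three, Function.comp_apply, map_add, map_mul, hσ]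
    ring
  obtain ⟨s, hs⟩ := H11.exists_norm_eq hσ hne hs
  have hs0 : s ≠ 0 := fun e => by
    rw [e, mul_zero] at hs
    exact inv_ne_zero hd hs.symm
  obtain ⟨T', hT', h1, h2⟩ := frame hσ h3 hw (e3 y hy) hxy (hE hx) (hE hy) (smul_ne_zero hs0 hv)
    (by rw [mulVec_smul, hXv])
  refine ⟨T', congr_of_equiv T' fun a b => ?_, ⟨x, hx, h1⟩, y, hy, h2⟩
  rw [hT', fm_smul_left, fm_smul_right, ← mul_assoc s, mul_comm s, hs, inv_mul_cancel₀ hd, one_mul]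

end H23.Heis
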