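import Cfsg.Agent.H17.Std3
import Cfsg.Agent.S0215

/-! Intrinsic 2-components with a unique involution (`FS`, `FC`): covers, the pump-up dichotomy `FC.dich`, diagonal
components `FC.diag`, and the `Z*`-consequence `FS.zst` (an involution acting non-trivially has an anticommuting conjugate). -/

set_option autoImplicit false
set_option linter.unusedSectionVars false
set_option linter.unusedVariables false

namespace H17.IS23
open Subgroup Cfsg H18
open scoped commutatorElement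

variable {G : Type*} [Group G] [Finite G] {D H J K Q S : Subgroup G} {a b c d e g t u w x y z : G}

/-- `x` is a 2-element -/
def E2 (x : G) : Prop := ∃ k : ℕ, x ^ 2 ^ k = 1

theorem E2.of_mem (hS : IsPGroup 2 S) (hx : x ∈ S) : E2 x := isPGroup_iff_forall.1 hS x hx
theorem E2.pg (h : E2 x) : IsPGroup 2 (zpowers x) := let ⟨k, hk⟩ := h; isPGroup_zpowers_of_pow hk
theorem E2.eq_one (h : E2 x) (hx : x ∈ oQ 2 H) : x = 1 :=
  let ⟨k, hk⟩ := h; eq_one_of_pow_of_not_dvd hk fun e => oQ_not_dvd 2 H (e.trans (orderOf_dvd_card_of_mem hx))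
theorem E2.conj (h : E2 x) (g : G) : E2 (g * x * g⁻¹) :=
  let ⟨k, hk⟩ := h; ⟨k, by rw [conj_pow, hk]; group⟩
theorem E2.sq (h : E2 x) : E2 (x * x) :=
  let ⟨k, hk⟩ := h; ⟨k, by rw [← _root_.sq, ← pow_mul, mul_comm, pow_mul, hk, one_pow]⟩
theorem e2_of_sq (h : x * x = 1) : E2 x := ⟨1, by rw [pow_one, _root_.sq, h]⟩
theorem E2.of_sq (h : E2 (x * x)) : E2 x :=
  let ⟨k, hk⟩ := h; ⟨k + 1, by rw [pow_succ', pow_mul, _root_.sq, hk]⟩

theorem ord_two (h : x * x = 1) (h1 : x ≠ 1) : orderOf x = 2 := orderOf_eq_prime (by rw [_root_.sq, h]) h1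
theorem sq_of_ord (h : orderOf x = 2) : x * x = 1 := by rw [← _root_.sq]; exact pow_eq_one_of_orderOf h
theorem inv_of_sq (h : x * x = 1) : x⁻¹ = x := inv_eq_of_mul_eq_one_right h

/-- two involutions congruent modulo an odd-order subgroup are conjugate by it -/
theorem exists_conj (ha : a * a = 1) (hb : b * b = 1) (h : a * b ∈ oQ 2 H) : ∃ o ∈ oQ 2 H, o * a * o⁻¹ = b := by
  have od : Odd (orderOf (a * b)) := Nat.not_even_iff_odd.1 fun e =>
    oQ_not_dvd 2 H ((even_iff_two_dvd.1 e).trans (orderOf_dvd_card_of_mem h))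
  obtain ⟨k, hk⟩ := od
  have e1 : (a * b) ^ (2 * k + 1) = 1 := hk ▸ pow_orderOf_eq_one _
  have e2 : a * (a * b)⁻¹ * a⁻¹ = a * b := by rw [mul_inv_rev, inv_of_sq ha, inv_of_sq hb]; simp [mul_assoc, ha]
  have e3 : a * ((a * b) ^ k)⁻¹ * a⁻¹ = (a * b) ^ k := by rw [← inv_pow, ← conj_pow, e2]
  refine ⟨_, pow_mem h k, ?_⟩
  have e4 : (a * b) ^ k * (a * b) ^ k = (a * b)⁻¹ := by
    rw [← pow_add, ← two_mul, eq_inv_iff_mul_eq_one, ← pow_succ, e1]
  calc (a * b) ^ k * a * ((a * b) ^ k)⁻¹ = (a * b) ^ k * (a * ((a * b) ^ k)⁻¹ * a⁻¹) * a := by group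
    _ = (a * b)⁻¹ * a := by rw [e3, e4]
    _ = b := by rw [mul_inv_rev, inv_of_sq hb]; group

/-- a perfect group `J` with `J/O(J)` quasisimple, unique involution `t` and `Z(J/O(J))` of exponent 2 -/
structure FS (J : Subgroup G) (t : G) : Prop where
  pqs : PQS 2 J
  mem : t ∈ J
  ord : orderOf t = 2
  uniq : ∀ s ∈ J, s * s = 1 → s = 1 ∨ s = t
  cen : ∀ b ∈ J, ⁅zpowers b, J⁆ ≤ oQ 2 J → b * b ∈ oQ 2 J

/-- an intrinsic 2-component -/
structure FC (J : Subgroup G) (t : G) : Prop extends FS J t where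
  subn : Subn C1(t) J

namespace FS

theorem tt (h : FS J t) : t * t = 1 := sq_of_ord h.ord
theorem t1 (h : FS J t) : t ≠ 1 := ne_one_of_orderOf Nat.prime_two h.ord
theorem N_le (h : FS J t) : N(J) ≤ C1(t) := fun x hx => by
  have := (h.uniq _ (conj_mem_N hx h.mem) (by rw [conj_mul, h.tt]; group)).resolve_left
    (by rw [conj_eq_one_iff]; exact h.t1)
  exact mem_C1.2 (mul_inv_eq_iff_eq_mul.1 this)
theorem le (h : FS J t) : J ≤ C1(t) := le_N.trans h.N_le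
theorem not_mem (h : FS J t) : t ∉ oQ 2 H := fun e => h.t1 ((e2_of_sq h.tt).eq_one e)

theorem exists_pow (h : FS J t) (hx : x ∈ J) (e : E2 x) (x1 : x ≠ 1) : ∃ j : ℕ, x ^ 2 ^ j = t := by
  obtain ⟨k, hk⟩ := e
  induction k generalizing x with
  | zero => exact absurd (by simpa using hk) x1
  | succ k ih =>
    by_cases c : x * x = 1
    · exact ⟨0, by simpa using (h.uniq x hx c).resolve_left x1⟩
    · obtain ⟨j, hj⟩ := ih (mul_mem hx hx) c (by rw [← _root_.sq, ← pow_mul, ← pow_succ', hk])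
      exact ⟨j + 1, by rw [pow_succ', pow_mul, _root_.sq, hj]⟩

theorem exists_root (h : FS J t) (hQ : IsSyl 2 Q J) : ∃ d ∈ Q, d * d = t := by
  by_contra! n
  refine not_cyc_of_perfect h.pqs.perfect (S := Q) ⟨hQ.le, piGrp_of_isPGroup Nat.prime_two hQ.pgroup,
    (piNat_compl_iff Nat.prime_two).2 hQ.not_dvd⟩ h.pqs.dvd ((cyc_zpowers (x := t)).of_le fun x hx => ?_)
  by_cases x1 : x = 1
  · rw [x1]; exact one_mem _
  obtain ⟨j, hj⟩ := h.exists_pow (hQ.le hx) (.of_mem hQ.pgroup hx) x1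
  cases j with
  | zero => rw [← hj]; simp
  | succ j => exact absurd (by rw [← pow_add, ← two_mul, ← pow_succ', hj]) (n _ (pow_mem hx (2 ^ j)))

theorem cover (h : FS J t) (hw : orderOf w = 2) (n : w ∈ N(J)) (e : ⁅zpowers w, J⁆ ≤ oQ 2 J) : FS (kc 2 J w) t := by
  have := h.pqs.cover inf_le_left (le_cent_sup_oQ (pgroup_zpowers hw) (zpowers_le.2 n) (H18.comm_comm.le.trans e))
  rw [C_zpowers] at this
  refine ⟨this.1, zpowers_le.1 (le_oUq (zpowers_le.2 ⟨h.mem, mem_C1_comm.1 (h.N_le n)⟩) (pgroup_zpowers h.ord)), h.ord,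
    fun s hs => h.uniq s (kc_le hs), fun b hb c => ?_⟩
  rw [oQ_eq_of_cover kc_le this.2] at c ⊢
  have l : zpowers b ≤ J := zpowers_le.2 (kc_le hb)
  refine ⟨h.cen b (kc_le hb) ((H18.comm_mono le_rfl this.2).trans (comm_sup_le' (c.trans inf_le_left)
    (comm_le_right (l.trans (le_normalizer_oQ 2 J))) (kc_le.trans (le_normalizer_oQ 2 J)) le_N)), mul_mem hb hb⟩

/-- consequence of the `Z*`-theorem -/
theorem zst (h : FS J t) (hz : z * z = 1) (n : z ∈ N(J)) (hS : IsSyl 2 S (J ⊔ zpowers z)) (hzS : z ∈ S) :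
    ⁅zpowers z, J⁆ ≤ oQ 2 J ∨ ∃ g ∈ J, z * (g * z * g⁻¹) ∈ S ∧ (z * (g * z * g⁻¹)) * (z * (g * z * g⁻¹)) = t := by
  rw [or_iff_not_imp_right]
  intro hn
  push Not at hn
  set M := J ⊔ zpowers z with hM
  have mN : M ≤ N(J) := sup_le le_N (zpowers_le.2 n)
  have zM : z ∈ M := mem_sup_right (mem_zpowers z)
  have l1 : J ≤ M := le_sup_left
  have nO : M ≤ N(oQ 2 J) := mN.trans (normalizer_le_oQ 2 J)
  have hN : oQ 2 J ⊔ zpowers t ⊴ M := ⟨(sup_le (oQ_le 2 J) (zpowers_le.2 h.mem)).trans l1,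
    norm_sup nO (cent_norm ((mN.trans h.N_le).trans C_zpowers.ge))⟩
  have memN : ∀ x ∈ oQ 2 J ⊔ zpowers t, x ∈ oQ 2 J ∨ x * t ∈ oQ 2 J := fun x hx => by
    obtain ⟨o, ho, s, hs, rfl⟩ := (mem_sup_of_norm' ((zpowers_le.2 h.mem).trans (le_normalizer_oQ 2 J))).1 hx
    rcases mem_zpowers_two h.ord hs with rfl | rfl
    · left; simpa using ho
    · right; simpa [mul_assoc, h.tt] using ho
  haveI := hN.subgroupOf_normal
  set f := QuotientGroup.mk' ((oQ 2 J ⊔ zpowers t).subgroupOf M) with hf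
  have k : mker f = oQ 2 J ⊔ zpowers t := by
    show (QuotientGroup.mk' _).ker.map _ = _
    rw [QuotientGroup.ker_mk', map_subgroupOf_eq_of_le hN.le]
  have top : mim f M = ⊤ := by rw [mim, subgroupOf_self]; exact map_mk'_top _
  have tS : t ∈ S := zpowers_le.1 (hS.le_of_le_normalizer (pgroup_zpowers h.ord) ((zpowers_le.2 h.mem).trans l1)
    (cent_norm (zpowers_le_C_iff.2 (hS.le.trans (mN.trans h.N_le)))))
  have key : ∀ x : M ⧸ (oQ 2 J ⊔ zpowers t).subgroupOf M, ⁅mfun f z, x⁆ ∈ pPrimeCore 2 _ := by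
    by_cases z1 : mfun f z = 1
    · intro x; rw [z1, commutatorElement_one_left]; exact one_mem _
    obtain ⟨P, hP⟩ := (top ▸ hS.mim (f := f) le_rfl).exists_sylow_top
    refine H9.zstar (H9.isolated_of_sylow P (ord_two (by rw [← mfun_mul zM zM, hz, mfun_one]) z1) fun γ hγ => ?_)
    by_contra ne
    obtain ⟨γ, gM, -, rfl⟩ := mem_mim.1 (top.ge (mem_top γ))
    have hγ' : mfun f γ * mfun f z * (mfun f γ)⁻¹ ∈ (P : Subgroup _) := hγ
    rw [hP] at hγ'
    obtain ⟨s, hs, sM, es⟩ := mem_mim.1 hγ'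
    have cM : γ * z * γ⁻¹ ∈ M := mul_mem (mul_mem gM zM) (inv_mem gM)
    rw [← mfun_conj gM zM] at es ne
    have cc : γ * z * γ⁻¹ * (γ * z * γ⁻¹) = 1 := by rw [conj_mul, hz]; group
    -- adjust `s` to an involution `s'` conjugate to `z`
    obtain ⟨s', hs', es', m⟩ : ∃ s' ∈ S, mfun f s' = mfun f (γ * z * γ⁻¹) ∧ γ * z * γ⁻¹ * s' ∈ oQ 2 J := by
      have := (mfun_eq_iff cM sM).1 es.symm
      rw [k, inv_of_sq cc] at this
      rcases memN _ this with m | m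
      · exact ⟨s, hs, es, m⟩
      · refine ⟨s * t, mul_mem hs tS, ?_, by rwa [← mul_assoc]⟩
        rw [mfun_mul sM (l1 h.mem), (mem_mker.1 (k.ge (mem_sup_right (mem_zpowers t)))).2, mul_one, es]
    have ss : s' * s' = 1 := by
      refine (E2.of_mem hS.pgroup (mul_mem hs' hs')).eq_one (H := J) ?_
      have := mul_mem (conj_mem nO cM m) m
      rwa [show γ * z * γ⁻¹ * (γ * z * γ⁻¹ * s') * (γ * z * γ⁻¹)⁻¹ * (γ * z * γ⁻¹ * s') =
        (γ * z * γ⁻¹ * (γ * z * γ⁻¹)) * (s' * s') by group, cc, one_mul] at this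
    obtain ⟨o, ho, eo⟩ := exists_conj cc ss m
    obtain ⟨g, hg, v, hv, rfl⟩ := (mem_sup_of_norm' (zpowers_le.2 n)).1 gM
    have ev : v * z * v⁻¹ = z := by
      rw [mul_inv_eq_iff_eq_mul]; exact mem_C1.1 (zpowers_le.2 C1_self hv)
    have e1 : (o * g) * z * (o * g)⁻¹ = s' := by
      rw [← eo]
      calc _ = o * (g * (v * z * v⁻¹) * g⁻¹) * o⁻¹ := by rw [ev]; group
        _ = _ := by group
    have og : o * g ∈ J := mul_mem (oQ_le 2 J ho) hg
    have xS : z * s' ∈ S := mul_mem hzS hs'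
    have xJ : z * s' ∈ J := by
      have := mul_mem (conj_mem_N n og) (inv_mem og)
      rwa [inv_of_sq hz, show z * (o * g) * z * (o * g)⁻¹ = z * ((o * g) * z * (o * g)⁻¹) by group, e1] at this
    have nk : z * s' ∉ mker f := fun e => ne (by
      rw [← es', eq_comm, mfun_eq_iff zM (hS.le hs'), inv_of_sq hz]; exact e)
    obtain ⟨j, hj⟩ := h.exists_pow xJ (.of_mem hS.pgroup xS) fun e => nk (e ▸ one_mem _)
    rcases j with _ | _ | j
    · exact nk (by rw [k, show z * s' = t by simpa using hj]; exact mem_sup_right (mem_zpowers t))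
    · exact hn _ og (e1 ▸ xS) (by rw [e1, ← hj]; simp [_root_.sq])
    · have e2 : z * (z * s') * z⁻¹ = (z * s')⁻¹ := by
        rw [mul_inv_rev, inv_of_sq hz, inv_of_sq ss, ← mul_assoc, hz, one_mul]
      have e3 : z * (z * s') ^ 2 ^ j * z⁻¹ = ((z * s') ^ 2 ^ j)⁻¹ := by rw [← conj_pow, e2, inv_pow]
      have e4 : z * ((z * s') ^ 2 ^ j * z * ((z * s') ^ 2 ^ j)⁻¹) = ((z * s') ^ 2 ^ (j + 1))⁻¹ := by
        calc _ = z * (z * s') ^ 2 ^ j * z⁻¹ * ((z * s') ^ 2 ^ j)⁻¹ := by rw [inv_of_sq hz]; group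
          _ = _ := by rw [e3, ← mul_inv_rev, ← pow_add, ← two_mul, ← pow_succ']
      refine hn _ (pow_mem xJ (2 ^ j)) (e4 ▸ inv_mem (pow_mem xS _)) ?_
      rw [e4, ← mul_inv_rev, ← pow_add, ← two_mul, ← pow_succ', hj, inv_of_sq h.tt]
  have l2 : zpowers z ≤ M := le_sup_right
  have cm : mim f ⁅zpowers z, J⁆ ≤ pPrimeCore 2 _ := by
    rw [mim_comm l2 l1, mim_zpowers zM]
    exact H4.commutator_zpowers_le (fun a _ => key a) (by rw [normalizer_eq_top]; exact mem_top _)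
  rcases h.pqs.normal ⁅zpowers z, J⁆ (comm_le_right (zpowers_le.2 n)) (normalizer_commutator_ge_right _ _) with e | e
  · exfalso
    obtain ⟨d, hd, ed⟩ := h.exists_root (hS.inf_normal l1 (hS.le.trans mN))
    have dM : d ∈ M := l1 hd.2
    have d1 : mfun f d = 1 := by
      obtain ⟨k, hk⟩ := E2.of_mem hS.pgroup hd.1
      refine E2.eq_one (H := ⊤) ⟨k, by rw [← mfun_pow dM, hk, mfun_one]⟩ ?_
      rw [oQ_top]; exact cm (mfun_mem_mim (e.ge hd.2))
    have dE := E2.of_mem hS.pgroup hd.1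
    rcases memN d (k.le (mem_mker.2 ⟨dM, d1⟩)) with m | m
    · exact h.not_mem (ed ▸ mul_mem m m)
    · refine h.not_mem (H := J) ?_
      have := mul_mem m m
      rwa [show d * t * (d * t) = d * (t * d) * t by group, ← mem_C1.1 (h.le hd.2), show d * (d * t) * t = d * d * (t * t) by group,
        h.tt, mul_one, ed] at this
  · exact commutator_le_of_perfect h.pqs.perfect (l2.trans nO) (le_normalizer_oQ 2 J) e

end FS

namespace FC

theorem comp (h : FC J t) : IsPComp 2 J C1(t) := ⟨h.subn, h.pqs⟩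

theorem sq_eq_one (h : FC J t) (hb : b ∈ J) (e : E2 b) (c : b ∈ cpc 2 t J) : b * b = 1 :=
  e.sq.eq_one (h.cen b hb ((H18.comm_mono (zpowers_le.2 c) le_rfl).trans (cpc_comm h.comp)))

theorem cj_le_cpc (h : FC J t) (hx : x ∈ C1(t)) (n : x ∉ N(J)) : cj x J ≤ cpc 2 t J :=
  have h' := h.comp.cj_of_mem_normalizer (le_N hx)
  (le_cpc_iff h.le).2 ⟨h'.le, (h'.eq_or_commutator h.comp).resolve_left fun e => n (mem_normalizer_iff_cj.2 e)⟩

theorem mem_N (h : FC J t) (hy : y ∈ J) (e : E2 y) (y2 : y * y ≠ 1) (hx : x ∈ C1(t)) (m : x * y * x⁻¹ ∈ J) :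
    x ∈ N(J) := by_contra fun n => y2 (by
  have := h.sq_eq_one m (e.conj x) (h.cj_le_cpc hx n (conj_mem_cj hy))
  rwa [conj_mul, conj_eq_one_iff] at this)

theorem comm_mem (h : FC J t) (ha : a ∈ J) (hb : b ∈ cpc 2 t J) : ⁅b, a⁆ ∈ oQ 2 C1(t) :=
  comm_cpc h.le (commutator_mem_commutator hb ha)

theorem comm (h : FC J t) (hS : IsPGroup 2 S) (aS : a ∈ S) (bS : b ∈ S) (ha : a ∈ J) (hb : b ∈ cpc 2 t J) :
    a * b = b * a :=
  (commutatorElement_eq_one_iff_mul_comm.1 ((E2.of_mem hS (mul_mem (mul_mem (mul_mem bS aS) (inv_mem bS))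
    (inv_mem aS))).eq_one (h.comm_mem ha hb))).symm

theorem br_comp (h : FC J t) : IsComp (mim (br 2 t) J) ⊤ :=
  (br_top (p := 2) (y := t) ▸ h.comp.mim le_rfl br_nd).isComp_of_oQ_eq_bot (oQ_top_quotient _ 2)

theorem br_N (h : FC J t) (hx : x ∈ C1(t)) (n : mfun (br 2 t) x ∈ N(mim (br 2 t) J)) : x ∈ N(J) := by
  have h' := h.comp.cj_of_mem_normalizer (le_N hx)
  have := (mim_cj (f := br 2 t) hx J).le.trans (mem_normalizer_iff_cj.1 n).le
  rw [mim_le_mim_iff h'.le h.le, mker_mk'] at this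
  exact mem_normalizer_iff_cj.2 (h'.eq_of_le h.comp (h.comp.le_of_le_sup h'.pqs.gen this))

/-- pump-up dichotomy -/
theorem dich (h : FC J t) (hw : orderOf w = 2) (n : w ∈ N(J)) (hD : IsPComp 2 D (C1(t) ⊓ C1(w))) :
    D ≤ J ∨ D ≤ cpc 2 t J := by
  have hx : w ∈ C1(t) := h.N_le n
  have l : D ≤ C1(t) := hD.le.trans inf_le_left
  have ox := br_ord hw hx
  have hD' : IsPComp 2 (mim (br 2 t) D) (⊤ ⊓ C(zpowers (mfun (br 2 t) w))) := by
    rw [top_inf_eq, C_zpowers, ← br_C1 hw hx]; exact hD.mim inf_le_left br_nd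
  have l2 := hD'.le_pLay.trans (pLay_le_lay_of_ws (oQ_top_quotient _ 2) (fun L hL => ws_two (le_bot_iff.1
    (hL.subn.oQ_le_oQ.trans (oQ_top_quotient _ 2).le))) (pgroup_zpowers ox) le_top)
  by_cases c : ⁅mim (br 2 t) J, mim (br 2 t) D⁆ = ⊥
  · right
    rw [le_cpc_iff h.le, ← mker_mk', comm_le_mker_iff l h.le]
    exact ⟨l, cent_symm (comm_eq_bot_iff.1 c)⟩
  · left
    have := (hD'.lay_inf l2).le_orb (by simp) h.br_comp c
    rw [orb_eq (by rw [← mim_zpowers hx]; exact mim_norm (zpowers_le.2 n)), mim_le_mim_iff l h.le, mker_mk'] at this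
    exact h.comp.le_of_le_sup hD.pqs.gen this

/-- the diagonal component -/
theorem diag (h : FC J t) (hw : orderOf w = 2) (hx : w ∈ C1(t)) (n : w ∉ N(J)) :
    ∃ D, IsPComp 2 D (C1(t) ⊓ C1(w)) ∧ ∀ d ∈ J, d * (w * d * w⁻¹) ∈ C1(w) → E2 (d * (w * d * w⁻¹)) →
      d * (w * d * w⁻¹) ∈ D := by
  have ox := br_ord hw hx
  have dg : Dg 2 (mfun (br 2 t) w) (mim (br 2 t) J) :=
    h.br_comp.dg (by simp) (pow_mem_of_orderOf ox) fun e => n (h.br_N hx e)
  have c1 : IsComp (pdiag 2 (mfun (br 2 t) w) (mim (br 2 t) J)) (orb (zpowers (mfun (br 2 t) w)) (mim (br 2 t) J) ⊓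
      C1(mfun (br 2 t) w)) := ⟨.of_normal (le_inf pdiag_le_orb dg.le_C1) (by
    rw [← dg.der_eq h.br_comp.perfect]; exact norm_der le_N), dg.qs h.br_comp.qs⟩
  have c2 := c1.two.of_subn ((h.br_comp.subn_orb (P := zpowers (mfun (br 2 t) w)) (by simp)).inf_of_le le_top)
  rw [← br_C1 hw hx] at c2
  obtain ⟨L, hL, eL⟩ := exists_isPComp_map_eq (br 2 t) (H := (C1(t) ⊓ C1(w)).subgroupOf C1(t)) c2
    (not_dvd_ker_mk'_inf _ 2 _)
  have hD : IsPComp 2 (L.map C1(t).subtype) (C1(t) ⊓ C1(w)) := by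
    have := hL.map_of_ker C1(t).subtype (by rw [ker_subtype, bot_inf_eq]; exact not_dvd_card_bot)
    rwa [map_subgroupOf_eq_of_le inf_le_left] at this
  have e' : mim (br 2 t) (L.map C1(t).subtype) = pdiag 2 (mfun (br 2 t) w) (mim (br 2 t) J) := by
    rw [mim, subgroupOf, comap_map_eq_self_of_injective C1(t).subtype_injective]; exact eL
  refine ⟨_, hD, fun d hd c e2 => ?_⟩
  have dt : d ∈ C1(t) := h.le hd
  have m1 : w * d * w⁻¹ ∈ C1(t) := mul_mem (mul_mem hx dt) (inv_mem hx)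
  have m2 : d * (w * d * w⁻¹) ∈ C1(t) := mul_mem dt m1
  have m : mfun (br 2 t) (d * (w * d * w⁻¹)) ∈ mim (br 2 t) (L.map C1(t).subtype) := by
    rw [e', mfun_mul dt m1, mfun_conj hx dt, ← nfun_two]; exact mem_pdiag (mfun_mem_mim hd)
  obtain ⟨δ, hδ, δt, eδ⟩ := mem_mim.1 m
  rw [mfun_eq_iff δt m2, mker_mk'] at eδ
  have m3 : δ⁻¹ * (d * (w * d * w⁻¹)) ∈ oQ 2 (C1(t) ⊓ C1(w)) :=
    oQ_inf_le inf_le_left ⟨eδ, Subgroup.mul_mem _ (Subgroup.inv_mem _ (hD.le hδ)) ⟨m2, c⟩⟩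
  have m4 : zpowers (d * (w * d * w⁻¹)) ≤ L.map C1(t).subtype ⊔ oQ 2 (C1(t) ⊓ C1(w)) :=
    zpowers_le.2 (by simpa using mul_mem_sup hδ m3)
  exact hD.le_of_le_sup (oUq_oUq _) ((oUq_le 2 _).trans le_rfl) (le_oUq m4 e2.pg (mem_zpowers _))

end FC

end H17.IS23
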