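import Cfsg.Agent.H23.IS1

/-! Intrinsic 2-components with a unique involution normalize each other: `main1` (2-elements of order `≥ 4`),
`main2` (the involutions). -/

set_option autoImplicit false
set_option linter.unusedSectionVars false
set_option linter.unusedVariables false

namespace H17.IS23
open Subgroup Cfsg H18
open scoped commutatorElement

section
variable {X : Type*} [Group X] {y z g u t : X}

theorem lemA (hz : z * z = 1) (hy : y * z = z * y)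
    (c : g * (y * (z * (g * z * g⁻¹)) * y⁻¹) = y * (z * (g * z * g⁻¹)) * y⁻¹ * g) :
    g * (y * g * y⁻¹) * z * (g * (y * g * y⁻¹))⁻¹ = z * (z * (g * z * g⁻¹) * (y * (z * (g * z * g⁻¹)) * y⁻¹)) := by
  have h1 : y⁻¹ * z * y = z := by rw [mul_assoc, ← hy]; group
  have h2 : z * y * z = y := by rw [← hy, mul_assoc, hz, mul_one]
  calc _ = g * (y * g * (y⁻¹ * z * y) * g⁻¹ * y⁻¹) * g⁻¹ := by group
    _ = g * (z * y * z * g * z * g⁻¹ * y⁻¹) * g⁻¹ := by rw [h1, h2]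
    _ = g * z * g⁻¹ * (g * (y * (z * (g * z * g⁻¹)) * y⁻¹)) * g⁻¹ := by group
    _ = (z * z) * (g * z * g⁻¹ * (y * (z * (g * z * g⁻¹)) * y⁻¹)) := by rw [c, hz]; group
    _ = _ := by group

theorem lemA' (hz : z * z = 1) (hy : y * z = z * y)
    (c : z * (g⁻¹ * z * g) * (y * g * y⁻¹) = y * g * y⁻¹ * (z * (g⁻¹ * z * g))) :
    (g * (y * g * y⁻¹))⁻¹ * z * (g * (y * g * y⁻¹)) = z * (y * (z * (g⁻¹ * z * g)) * y⁻¹ * (z * (g⁻¹ * z * g))) := by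
  have h1 : y⁻¹ * z * y = z := by rw [mul_assoc, ← hy]; group
  have h2 : z * y * z = y := by rw [← hy, mul_assoc, hz, mul_one]
  calc _ = (y * g * y⁻¹)⁻¹ * (1 * (g⁻¹ * z * g) * (y * g * y⁻¹)) := by group
    _ = (y * g * y⁻¹)⁻¹ * z * (z * (g⁻¹ * z * g) * (y * g * y⁻¹)) := by rw [← hz]; group
    _ = y * g⁻¹ * (y⁻¹ * z * y) * g * y⁻¹ * (z * (g⁻¹ * z * g)) := by rw [c]; group
    _ = z * y * z * g⁻¹ * z * g * y⁻¹ * (z * (g⁻¹ * z * g)) := by rw [h1, h2]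
    _ = _ := by group

theorem lemB (hy : y * y = z) (hu : z * u * z⁻¹ = u⁻¹) (ht : u * u = t) (c0 : t * y = y * t)
    (c : u * (y * u * y⁻¹) = y * u * y⁻¹ * u) :
    z * (y * u * y⁻¹ * u) * y * (z * (y * u * y⁻¹ * u))⁻¹ * y⁻¹ = t := by
  have h1 : z * u⁻¹ * z⁻¹ = u := by rw [← conj_inv, hu, inv_inv]
  have h2 : y * u * y⁻¹ * u * y * (y * u * y⁻¹ * u)⁻¹ = t * y := by
    calc _ = y * u * y⁻¹ * u * y * (u * (y * u * y⁻¹))⁻¹ := by rw [c]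
      _ = y * u * y⁻¹ * u * ((y * y) * u⁻¹ * (y * y)⁻¹) * (y * u * y⁻¹)⁻¹ * y := by group
      _ = y * u * y⁻¹ * t * (y * u * y⁻¹)⁻¹ * y := by rw [hy, h1, ← ht]; group
      _ = y * (u * (y⁻¹ * (t * y)) * u⁻¹) := by group
      _ = t * y := by rw [c0, inv_mul_cancel_left, ← ht]; group
  calc _ = z * (y * u * y⁻¹ * u * y * (y * u * y⁻¹ * u)⁻¹) * z⁻¹ * y⁻¹ := by group
    _ = y * (y * t) * y * (y * y)⁻¹ * y⁻¹ := by rw [h2, ← hy]; group
    _ = y * (t * y) * y * (y * y)⁻¹ * y⁻¹ := by rw [c0]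
    _ = (y * t) * y⁻¹ := by group
    _ = t := by rw [← c0, mul_inv_cancel_right]

theorem lemC (hy : y * z = z * y) (c0 : z * (u * (y * u * y⁻¹)) = u * (y * u * y⁻¹) * z)
    (c : y * y * u * (y * y)⁻¹ * (y * u * y⁻¹) = y * u * y⁻¹ * (y * y * u * (y * y)⁻¹)) :
    z * (u * (y * u * y⁻¹)) * y * (z * (u * (y * u * y⁻¹)))⁻¹ * y⁻¹ = u * (y * y * u * (y * y)⁻¹)⁻¹ := by
  calc _ = u * (y * u * y⁻¹) * (z * y) * z⁻¹ * (u * (y * u * y⁻¹))⁻¹ * y⁻¹ := by rw [c0]; group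
    _ = u * (y * u * y⁻¹) * (y * u * y⁻¹ * (y * y * u * (y * y)⁻¹))⁻¹ := by rw [← hy]; group
    _ = _ := by rw [← c]; group

end

variable {G : Type*} [Group G] [Finite G] {D H J K Q S : Subgroup G} {a b c d e g t u w x y z : G}

theorem FC.br_comm (h : FC J t) (ha : a ∈ J) (hb : b ∈ cpc 2 t J) :
    mfun (br 2 t) a * mfun (br 2 t) b = mfun (br 2 t) b * mfun (br 2 t) a := by
  have := h.comm_mem ha hb
  rw [← mker_mk', mem_mker, mfun_comm (cpc_le hb) (h.le ha)] at this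
  exact (commutatorElement_eq_one_iff_mul_comm.1 this.2).symm

theorem setup (hJ : FC J t) (hK : FC K z) (tN : t ∈ N(K)) (n : z ∉ N(J)) (hS : IsSyl 2 S C1(t)) (zS : z ∈ S) :
    ∃ d ∈ S, d ∈ J ∧ d * d = t ∧ d * (z * d * z⁻¹) = z * d * z⁻¹ * d ∧ d * (z * d * z⁻¹) ∈ cpc 2 z K ∧
      d * (z * d * z⁻¹) * (d * (z * d * z⁻¹)) = 1 ∧ d * (z * d * z⁻¹) ≠ 1 := by
  obtain ⟨d, ⟨dS, dJ⟩, ed⟩ := hJ.exists_root (hS.inf_subn hJ.subn)
  have zt : z ∈ C1(t) := hS.le zS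
  have m := hJ.cj_le_cpc zt n (conj_mem_cj dJ)
  have c := hJ.comm hS.pgroup dS (mul_mem (mul_mem zS dS) (inv_mem zS)) dJ m
  have ee : d * (z * d * z⁻¹) * (d * (z * d * z⁻¹)) = 1 := by
    calc _ = d * (z * d * z⁻¹ * d) * (z * d * z⁻¹) := by group
      _ = d * d * (z * (d * d) * z⁻¹) := by rw [← c]; group
      _ = 1 := by rw [ed, mem_C1.1 zt, mul_inv_cancel_right, hJ.tt]
  have e1 : d * (z * d * z⁻¹) ≠ 1 := fun e => n (hJ.mem_N dJ (.of_mem hS.pgroup dS) (ed ▸ hJ.t1) zt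
    (by rw [eq_inv_of_mul_eq_one_right e]; exact inv_mem dJ))
  have ez : d * (z * d * z⁻¹) ∈ C1(z) := mem_C1.2 (by
    calc _ = z * d * z⁻¹ * d * z := by rw [c]
      _ = z * (d * (z * d * z⁻¹)) := by rw [inv_of_sq hK.tt]; group)
  obtain ⟨D, hD, m2⟩ := hJ.diag hK.ord zt n
  have m3 := m2 d dJ ez (e2_of_sq ee)
  refine ⟨d, dS, dJ, ed, c, ?_, ee, e1⟩
  rcases hK.dich hJ.ord tN (inf_comm C1(t) C1(z) ▸ hD) with l | l
  · exact absurd ((hK.uniq _ (l m3) ee).resolve_left e1 ▸ mul_mem (le_N dJ) (cpc_norm hJ.comp m)) n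
  · exact l m3

theorem caseA (hJ : FC J t) (hK : FC K z) (tN : t ∈ N(K)) (hy : y ∈ K) (yt : y ∈ C1(t)) (e : y * y = z) : z ∈ N(J) := by
  by_contra n
  obtain ⟨S, hS, yS⟩ := exists_isSyl_ge (E2.of_sq (e ▸ e2_of_sq hK.tt)).pg (zpowers_le.2 yt)
  replace yS := zpowers_le.1 yS
  have zS : z ∈ S := e ▸ mul_mem yS yS
  obtain ⟨d, dS, dJ, ed, c, m, -, -⟩ := setup hJ hK tN n hS zS
  have c2 := hK.comm hS.pgroup yS (mul_mem dS (mul_mem (mul_mem zS dS) (inv_mem zS))) hy m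
  have n1 : y ∉ N(J) := fun h => n (e ▸ mul_mem h h)
  have n2 : y * z ∉ N(J) := fun h => n (by
    have := mul_mem h h
    rwa [show y * z * (y * z) = y * (z * y) * z by group, ← mem_C1.1 (hK.le hy), show y * (y * z) * z = y * y * (z * z) by group,
      hK.tt, mul_one, e] at this)
  have := mul_mem (mul_mem (hJ.cj_le_cpc yt n1 (conj_mem_cj dJ)) (hJ.cj_le_cpc (mul_mem yt (hS.le zS)) n2 (conj_mem_cj dJ)))
    (inv_mem (hJ.cj_le_cpc (hS.le zS) n (conj_mem_cj dJ)))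
  rw [show y * d * y⁻¹ * (y * z * d * (y * z)⁻¹) = y * (d * (z * d * z⁻¹)) * y⁻¹ by group, c2, mul_inv_cancel_right,
    mul_inv_cancel_right] at this
  exact hJ.t1 (ed ▸ hJ.sq_eq_one dJ (.of_mem hS.pgroup dS) this)

theorem caseB0 (hJ : FC J t) (hK : FC K z) (tN : t ∈ N(K)) (tK : t ∉ K) (hy : y ∈ K) (yt : y ∈ C1(t)) (ey : E2 y)
    (n : z ∈ N(J)) (c : ⁅zpowers z, J⁆ ≤ oQ 2 J) : y ∈ N(J) := by
  have h0 := hJ.cover hK.ord n c
  have h1 := (kc_cover hJ.comp (hJ.N_le n) hK.ord (c.trans hJ.subn.oQ_le_oQ)).1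
  obtain ⟨S, hS, yS⟩ := exists_isSyl_ge ey.pg (zpowers_le.2 (show y ∈ C1(t) ⊓ C1(z) from ⟨yt, hK.le hy⟩))
  obtain ⟨d, ⟨dS, dJ⟩, ed⟩ := h0.exists_root (hS.inf_subn h1.subn)
  rcases hK.dich hJ.ord tN (inf_comm C1(t) C1(z) ▸ h1) with l | l
  · exact absurd (l h0.mem) tK
  · refine hJ.mem_N (kc_le dJ) (.of_mem hS.pgroup dS) (ed ▸ hJ.t1) yt ?_
    rw [hK.comm hS.pgroup (zpowers_le.1 yS) dS hy (l dJ), mul_inv_cancel_right]; exact kc_le dJ

theorem caseB1 (hJ : FC J t) (hK : FC K z) (tN : t ∈ N(K)) (tK : t ∉ K) (hy : y ∈ K) (hS : IsSyl 2 S C1(t)) (yS : y ∈ S)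
    (y2 : y * y ≠ 1) (n2 : y * y ∈ N(J)) (hg : g ∈ J) (uS : z * (g * z * g⁻¹) ∈ S)
    (uu : z * (g * z * g⁻¹) * (z * (g * z * g⁻¹)) = t) : y ∈ N(J) := by
  by_contra n
  have ey := E2.of_mem hS.pgroup yS
  obtain ⟨j, hj⟩ := hK.exists_pow (mul_mem hy hy) ey.sq y2
  have zN : z ∈ N(J) := hj ▸ pow_mem n2 _
  have zS : z ∈ S := hj ▸ pow_mem (mul_mem yS yS) _
  have yt : y ∈ C1(t) := hS.le yS
  have zt : z ∈ C1(t) := hS.le zS
  have gt : g ∈ C1(t) := hJ.le hg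
  have zz := hK.tt
  have yz : y * z = z * y := mem_C1.1 (hK.le hy)
  have uJ : z * (g * z * g⁻¹) ∈ J := by
    have := mul_mem (conj_mem_N zN hg) (inv_mem hg)
    rwa [inv_of_sq zz, show z * g * z * g⁻¹ = z * (g * z * g⁻¹) by group] at this
  have vJ : z * (g⁻¹ * z * g) ∈ J := by
    have := mul_mem (conj_mem_N zN (inv_mem hg)) hg
    rwa [inv_of_sq zz, show z * g⁻¹ * z * g = z * (g⁻¹ * z * g) by group] at this
  have zv : z * (z * (g⁻¹ * z * g)) * z⁻¹ = (z * (g⁻¹ * z * g))⁻¹ := by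
    rw [← mul_assoc, zz, one_mul, mul_inv_rev, mul_inv_rev, mul_inv_rev, inv_inv, inv_of_sq zz]; group
  have vv : z * (g⁻¹ * z * g) * (z * (g⁻¹ * z * g)) = t := by
    calc _ = g⁻¹ * (z⁻¹ * (g * z⁻¹ * g⁻¹) * (z⁻¹ * (g * z⁻¹ * g⁻¹)))⁻¹ * g := by group
      _ = t := by rw [inv_of_sq zz, uu, inv_of_sq hJ.tt, mul_assoc, ← mem_C1.1 gt, inv_mul_cancel_left]
  have A := fun (h : mfun (br 2 t) g * _ = _) => lemA (X := C1(t) ⧸ pPrimeCore 2 C1(t)) (y := mfun (br 2 t) y)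
    (z := mfun (br 2 t) z) (g := mfun (br 2 t) g) (by rw [← mfun_mul zt zt, zz, mfun_one])
    (by rw [← mfun_mul yt zt, yz, mfun_mul zt yt]) h
  have A' := fun (h : _ = _) => lemA' (X := C1(t) ⧸ pPrimeCore 2 C1(t)) (y := mfun (br 2 t) y)
    (z := mfun (br 2 t) z) (g := mfun (br 2 t) g) (by rw [← mfun_mul zt zt, zz, mfun_one])
    (by rw [← mfun_mul yt zt, yz, mfun_mul zt yt]) h
  have zu : z * (z * (g * z * g⁻¹)) * z⁻¹ = (z * (g * z * g⁻¹))⁻¹ := by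
    rw [← mul_assoc, zz, one_mul, mul_inv_rev, mul_inv_rev, mul_inv_rev, inv_inv, inv_of_sq zz]; group
  generalize hu : z * (g * z * g⁻¹) = u at uS uu uJ zu
  have cp : ∀ {a}, a ∈ J → y * a * y⁻¹ ∈ cpc 2 t J := fun ha => hJ.cj_le_cpc yt n (conj_mem_cj ha)
  have u'S : y * u * y⁻¹ ∈ S := mul_mem (mul_mem yS uS) (inv_mem yS)
  have c1 := hJ.comm hS.pgroup uS u'S uJ (cp uJ)
  have u''J : y * y * u * (y * y)⁻¹ ∈ J := conj_mem_N n2 uJ
  have u''S : y * y * u * (y * y)⁻¹ ∈ S := mul_mem (mul_mem (mul_mem yS yS) uS) (inv_mem (mul_mem yS yS))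
  have c2 := hJ.comm hS.pgroup u''S u'S u''J (cp uJ)
  have hh : u * (y * u * y⁻¹) * (u * (y * u * y⁻¹)) = 1 := by
    calc _ = u * (y * u * y⁻¹ * u) * (y * u * y⁻¹) := by group
      _ = u * u * (y * (u * u) * y⁻¹) := by rw [← c1]; group
      _ = 1 := by rw [uu, mem_C1.1 yt, mul_inv_cancel_right, hJ.tt]
  have c0 : z * (u * (y * u * y⁻¹)) = u * (y * u * y⁻¹) * z := by
    calc _ = z * u * z⁻¹ * (z * y * u * y⁻¹) := by group
      _ = u⁻¹ * (y * (z * u * z⁻¹) * (y⁻¹ * (y * z)) * y⁻¹) := by nth_rewrite 1 [zu]; rw [← yz]; group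
      _ = (y * u * y⁻¹ * u)⁻¹ * z := by rw [zu, yz]; group
      _ = _ := by rw [← c1, inv_of_sq hh]
  have r := lemC yz c0 c2
  obtain ⟨w, hw⟩ : ∃ w, w = z * (u * (y * u * y⁻¹)) := ⟨_, rfl⟩
  rw [← hw] at r
  have wS : w ∈ S := hw ▸ mul_mem zS (mul_mem uS u'S)
  have wz : w ∈ C1(z) := mem_C1.2 (by rw [hw, mul_assoc, ← c0])
  have ww : w * w = 1 := by
    calc w * w = z * (u * (y * u * y⁻¹) * z) * (u * (y * u * y⁻¹)) := by rw [hw]; group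
      _ = z * z * (u * (y * u * y⁻¹) * (u * (y * u * y⁻¹))) := by rw [← c0]; group
      _ = 1 := by rw [zz, hh, mul_one]
  have rJ : w * y * w⁻¹ * y⁻¹ ∈ J := r ▸ mul_mem uJ (inv_mem u''J)
  have w'S : w * y * w⁻¹ ∈ S := mul_mem (mul_mem wS yS) (inv_mem wS)
  have rE := E2.of_mem hS.pgroup (mul_mem w'S (inv_mem yS))
  have r1 : w * y * w⁻¹ * y⁻¹ ≠ 1 := fun e => hJ.t1 (by
    rw [r, mul_inv_eq_one, eq_mul_inv_iff_mul_eq] at e
    have : u ∈ C1(z) := hj ▸ C1_pow_le _ (mem_C1.2 e)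
    rw [← mem_C1.1 this, mul_inv_cancel_right] at zu
    rw [← uu]; exact mul_eq_one_iff_eq_inv.2 zu)
  have wN : w ∉ N(K) := fun e => tK (by
    obtain ⟨j, hj⟩ := hJ.exists_pow rJ rE r1
    exact hj ▸ pow_mem (mul_mem (conj_mem_N e hy) (inv_mem hy)) _)
  have c3 := hK.comm hS.pgroup yS w'S hy (hK.cj_le_cpc wz wN (conj_mem_cj hy))
  have rt : w * y * w⁻¹ * y⁻¹ = t := (hJ.uniq _ rJ (by_contra fun e => n (hJ.mem_N rJ rE e yt (by
    rw [show y * (w * y * w⁻¹ * y⁻¹) * y⁻¹ = y * (w * y * w⁻¹) * y⁻¹ * y⁻¹ by group, c3, mul_inv_cancel_right]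
    exact rJ)))).resolve_left r1
  have wy : w * y * w⁻¹ = t * y := by rw [← rt]; group
  have yy : y * y = z := (hK.uniq _ (mul_mem hy hy) (by_contra fun e => wN (hK.mem_N (mul_mem hy hy) ey.sq e wz (by
    rw [← conj_mul, wy, show t * y * (t * y) = t * (y * t) * y by group, mem_C1.1 yt,
      show t * (t * y) * y = t * t * (y * y) by group, hJ.tt, one_mul]
    exact mul_mem hy hy)))).resolve_left y2
  have wt : w ∈ C1(t) := hS.le wS
  obtain ⟨D, hD, m⟩ := hK.diag (ord_two ww fun e => wN (e ▸ one_mem _)) wz wN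
  have e1 : y * (w * y * w⁻¹) = z * t := by rw [wy, ← mul_assoc, mem_C1.1 yt, mul_assoc, yy, mem_C1.1 zt]
  have m1 := m y hy (e1 ▸ mul_mem (mem_C1_comm.1 wz) (mem_C1_comm.1 wt)) (.of_mem hS.pgroup (mul_mem yS w'S))
  rw [e1] at m1
  have g't : g * (y * g * y⁻¹) ∈ C1(t) := mul_mem gt (mul_mem (mul_mem yt gt) (inv_mem yt))
  have w0t : g * (y * g * y⁻¹) * z * (g * (y * g * y⁻¹))⁻¹ ∈ C1(t) := mul_mem (mul_mem g't zt) (inv_mem g't)
  have w00 : g * (y * g * y⁻¹) * z * (g * (y * g * y⁻¹))⁻¹ * (g * (y * g * y⁻¹) * z * (g * (y * g * y⁻¹))⁻¹) = 1 := by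
    rw [conj_mul, zz]; group
  obtain ⟨o, ho, eo⟩ := exists_conj (H := C1(t)) w00 ww (by
    rw [← mker_mk', ← inv_of_sq w00, ← mfun_eq_iff w0t wt]
    have := hJ.br_comm hg (cp uJ)
    rw [hw]
    rw [← hu] at this ⊢
    simp (disch := repeat' first | assumption | apply Subgroup.mul_mem | apply Subgroup.inv_mem) only
      [mfun_mul, mfun_inv] at this ⊢
    exact A this)
  have ot : o ∈ C1(t) := oQ_le 2 _ ho
  obtain ⟨γ, hγ⟩ : ∃ γ, γ = o * (g * (y * g * y⁻¹)) := ⟨_, rfl⟩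
  have γt : γ ∈ C1(t) := hγ ▸ mul_mem ot g't
  have eγ : γ * z * γ⁻¹ = w := by rw [← eo, hγ]; group
  have hK' : IsPComp 2 (cj γ K) C1(w) := by
    have := hK.comp.cj γ
    rwa [show cj γ C1(z) = C1(w) from cj_C1.trans (by rw [eγ])] at this
  have m2 : z * t ∈ N(cj γ K) := hK'.pLay_le_normalizer (lbal1 (pgroup_zpowers hK.ord) (le_N (mem_C1_comm.1 wz))
    ((inf_comm C1(z) C1(w) ▸ hD).le_pLay m1))
  have m3 : γ⁻¹ * (z * t) * γ ∈ N(K) := H18.mem_cj.1 ((cj_N (g := γ) (H := K)).ge m2)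
  have m4 : γ⁻¹ * z * γ ∈ N(K) := by
    have := mul_mem m3 (inv_mem tN)
    rwa [show γ⁻¹ * (z * t) * γ * t⁻¹ = γ⁻¹ * z * (t * γ) * t⁻¹ by group, ← mem_C1.1 γt,
      show γ⁻¹ * z * (γ * t) * t⁻¹ = γ⁻¹ * z * γ by group] at this
  have cK := mul_mem (conj_mem_N m4 hy) (inv_mem hy)
  have w1t : γ⁻¹ * z * γ ∈ C1(t) := mul_mem (mul_mem (inv_mem γt) zt) γt
  have ct : γ⁻¹ * z * γ * y * (γ⁻¹ * z * γ)⁻¹ * y⁻¹ ∈ C1(t) :=
    mul_mem (mul_mem (mul_mem w1t yt) (inv_mem w1t)) (inv_mem yt)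
  have vt := hJ.le vJ
  have e2 : mfun (br 2 t) (γ⁻¹ * z * γ) = mfun (br 2 t) z * (mfun (br 2 t) y * mfun (br 2 t) (z * (g⁻¹ * z * g)) *
      (mfun (br 2 t) y)⁻¹ * mfun (br 2 t) (z * (g⁻¹ * z * g))) := by
    have o1 : mfun (br 2 t) o = 1 := (mem_mker.1 (mker_mk'.ge ho)).2
    have := hJ.br_comm vJ (cp hg)
    rw [hγ]
    simp (disch := repeat' first | assumption | apply Subgroup.mul_mem | apply Subgroup.inv_mem) only
      [mfun_mul, mfun_inv, o1, one_mul] at this ⊢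
    exact A' this
  have e3 : mfun (br 2 t) t = mfun (br 2 t) (γ⁻¹ * z * γ * y * (γ⁻¹ * z * γ)⁻¹ * y⁻¹) := by
    rw [mfun_mul (mul_mem (mul_mem w1t yt) (inv_mem w1t)) (inv_mem yt), mfun_conj w1t yt, mfun_inv yt, e2]
    refine (lemB (by rw [← mfun_mul yt yt, yy]) (by rw [← mfun_conj zt vt, zv, mfun_inv vt]) (by rw [← mfun_mul vt vt, vv])
      (by rw [← mfun_mul C1_self yt, ← mem_C1.1 yt, mfun_mul yt C1_self]) ?_).symm
    rw [← mfun_conj yt vt]; exact hJ.br_comm vJ (cp vJ)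
  rw [mfun_eq_iff C1_self ct, mker_mk'] at e3
  generalize γ⁻¹ * z * γ * y * (γ⁻¹ * z * γ)⁻¹ * y⁻¹ = c at e3 cK
  obtain ⟨k, hk⟩ : Odd (orderOf (t⁻¹ * c)) := Nat.not_even_iff_odd.1 fun e =>
    oQ_not_dvd 2 _ ((even_iff_two_dvd.1 e).trans (orderOf_dvd_card_of_mem e3))
  have cm : Commute t (t⁻¹ * c) := (mem_C1.1 (oQ_le 2 _ e3)).symm
  refine tK ?_
  have := pow_mem cK (2 * k + 1)
  rwa [← mul_inv_cancel_left t c, cm.mul_pow, ← hk, pow_orderOf_eq_one, mul_one, hk, pow_succ, pow_mul, _root_.sq, hJ.tt,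
    one_pow, one_mul] at this

theorem main1 (hJ : FC J t) (hK : FC K z) (hy : y ∈ K) (ey : E2 y) (y2 : y * y ≠ 1) (yt : y ∈ C1(t)) : y ∈ N(J) := by
  by_cases tK : t ∈ K
  · obtain rfl := (hK.uniq t tK hJ.tt).resolve_left hJ.t1
    exact hJ.comp.pLay_le_normalizer (hK.comp.le_pLay hy)
  obtain ⟨k, hk⟩ := ey
  induction k generalizing y with
  | zero => exact absurd (by rw [show y = 1 by simpa using hk, mul_one]) y2
  | succ k ih =>
    have ey : E2 y := ⟨_, hk⟩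
    obtain ⟨j, hj⟩ := hK.exists_pow (mul_mem hy hy) ey.sq y2
    have ty : t ∈ C1(y) := mem_C1_comm.1 yt
    have tN : t ∈ N(K) := hK.mem_N hy ey y2 (hj ▸ C1_pow_le _ (_root_.sq y ▸ C1_pow_le 2 ty))
      (by rw [mem_C1.1 ty, mul_inv_cancel_right]; exact hy)
    have n2 : y * y ∈ N(J) := by
      by_cases c : y * y * (y * y) = 1
      · have := (hK.uniq _ (mul_mem hy hy) c).resolve_left y2
        rw [this]; exact caseA hJ hK tN hy yt this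
      · exact ih (mul_mem hy hy) c (mul_mem yt yt) (by rw [← _root_.sq, ← pow_mul, ← pow_succ', hk])
    have zN : z ∈ N(J) := hj ▸ pow_mem n2 _
    obtain ⟨S, hS, yS⟩ := exists_isSyl_ge ey.pg (zpowers_le.2 yt)
    replace yS := zpowers_le.1 yS
    have zS : z ∈ S := hj ▸ pow_mem (mul_mem yS yS) _
    have hQ := hS.inf_subn hJ.subn
    obtain ⟨T, hT, l⟩ := exists_isSyl_ge (P := S ⊓ J ⊔ zpowers z) (H := J ⊔ zpowers z)
      (hS.pgroup.to_le (sup_le inf_le_left (zpowers_le.2 zS))) (sup_le_sup_right inf_le_right _)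
    rcases hJ.zst hK.tt zN hT (l (mem_sup_right (mem_zpowers z))) with c | ⟨g, hg, m, e⟩
    · exact caseB0 hJ hK tN tK hy yt ey zN c
    · refine caseB1 hJ hK tN tK hy hS yS y2 n2 hg ?_ e
      have uJ : z * (g * z * g⁻¹) ∈ J := by
        have := mul_mem (conj_mem_N zN hg) (inv_mem hg)
        rwa [inv_of_sq hK.tt, show z * g * z * g⁻¹ = z * (g * z * g⁻¹) by group] at this
      exact ((hQ.eq_of_le (P := T ⊓ J) hT.pgroup.to_inf_left (le_inf (le_sup_left.trans l) inf_le_right)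
        inf_le_right).le ⟨m, uJ⟩).1

theorem main2 (hJ : FC J t) (hK : FC K z) (tN : t ∈ N(K)) : z ∈ N(J) := by
  by_contra n
  have tz : t ∈ C1(z) := hK.N_le tN
  have zt : z ∈ C1(t) := mem_C1_comm.1 tz
  obtain ⟨S, hS, zS⟩ := exists_isSyl_ge (pgroup_zpowers hK.ord) (zpowers_le.2 zt)
  obtain ⟨b, bS, bJ, bb, c, m, ee, e1⟩ := setup hJ hK tN n hS (zpowers_le.1 zS)
  have m' := hJ.cj_le_cpc zt n (conj_mem_cj bJ)
  have bt := hJ.le bJ
  have be : b * (b * (z * b * z⁻¹)) = b * (z * b * z⁻¹) * b := by rw [mul_assoc b (z * b * z⁻¹) b, ← c]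
  have bz : b * z * b⁻¹ = b * (z * b * z⁻¹) * t * z := by
    have : z * b * z⁻¹ * t = (z * b * z⁻¹)⁻¹ := by
      rw [eq_inv_iff_mul_eq_one]
      calc _ = z * b * (z⁻¹ * (t * z)) * b * z⁻¹ := by group
        _ = z * (b * b) * (b * b) * z⁻¹ := by rw [← mem_C1.1 zt, inv_mul_cancel_left, ← bb]; group
        _ = 1 := by rw [bb, mul_assoc z, hJ.tt]; group
    rw [mul_assoc b _ t, this]; group
  have eN : b * (z * b * z⁻¹) * t ∈ N(J) := mul_mem (mul_mem (le_N bJ) (cpc_norm hJ.comp m')) (le_N hJ.mem)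
  have key : b * (z * b * z⁻¹) * t ∉ cpc 2 t J := fun h => hJ.t1 (bb ▸ hJ.sq_eq_one bJ (.of_mem hS.pgroup bS) (by
    have := mul_mem (mul_mem h (inv_mem (self_mem_cpc hJ.le))) (inv_mem m')
    rwa [mul_inv_cancel_right, mul_inv_cancel_right] at this))
  have et : b * (z * b * z⁻¹) ∈ C1(t) := mul_mem bt (cpc_le m')
  generalize b * (z * b * z⁻¹) = e at et key eN bz be m ee e1
  have ez : e ∈ C1(z) := cpc_le m
  have eo := ord_two ee e1
  have h0 := hK.cover eo (cpc_norm hK.comp m) ((H18.comm_mono (zpowers_le.2 m) le_rfl).trans (cpc_comm hK.comp))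
  have h1 := (kc_cover hK.comp ez eo ((H18.comm_mono (zpowers_le.2 m) le_rfl).trans (comm_cpc hK.le))).1
  have tN' : t ∈ N(kc 2 K e) := zpowers_le.1 (norm_kc (zpowers_le.2 tN) (zpowers_le.2 (mem_C1_comm.1 et)))
  obtain ⟨T, hT, l⟩ := exists_isSyl_ge (H := kc 2 K e ⊔ zpowers t) (pgroup_zpowers hJ.ord) le_sup_right
  rcases h0.zst hJ.tt tN' hT (zpowers_le.1 l) with c | ⟨g, hg, -, uu⟩
  · obtain ⟨Q, hQ⟩ := exists_isSyl 2 (kc 2 (kc 2 K e) t)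
    obtain ⟨y, hy, yy⟩ := (h0.cover hJ.ord tN' c).exists_root hQ
    have := main1 hJ hK (kc_le (kc_le (hQ.le hy))) (.of_mem hQ.pgroup hy) (yy ▸ hK.t1) (kc_le' (hQ.le hy))
    exact n (yy ▸ mul_mem this this)
  have uK : t * (g * t * g⁻¹) ∈ kc 2 K e := by
    have := mul_mem (conj_mem_N tN' hg) (inv_mem hg)
    rwa [inv_of_sq hJ.tt, show t * g * t * g⁻¹ = t * (g * t * g⁻¹) by group] at this
  have ut : t * (g * t * g⁻¹) * t * (t * (g * t * g⁻¹))⁻¹ = z * t := by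
    rw [← uu]
    calc _ = t * (g * t * g⁻¹) * t * (g * t⁻¹ * g⁻¹ * t⁻¹) := by group
      _ = _ := by rw [inv_of_sq hJ.tt]; group
  generalize t * (g * t * g⁻¹) = u at ut uK uu
  have ue : u * e = e * u := mem_C1.1 (kc_le' uK)
  have a1 : b * u * t * (b * u)⁻¹ = e * z := by
    calc _ = b * (u * t * u⁻¹) * b⁻¹ := by group
      _ = b * z * b⁻¹ * (b * t * b⁻¹) := by rw [ut]; group
      _ = e * (t * z) * t := by rw [bz, mem_C1.1 bt]; group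
      _ = e * z := by rw [← mem_C1.1 zt, mul_assoc e, mul_assoc z, hJ.tt, mul_one]
  have a2 : b * u * (e * t) * (b * u)⁻¹ = z := by
    calc _ = b * (u * e) * u⁻¹ * b⁻¹ * (b * u * t * (b * u)⁻¹) := by group
      _ = b * e * b⁻¹ * (e * z) := by rw [ue, a1]; group
      _ = z := by rw [be, mul_inv_cancel_right, ← mul_assoc, ee, one_mul]
  have a1' : (b * u)⁻¹ * (e * z) * (b * u)⁻¹⁻¹ = t := by rw [← a1]; group
  have a2' : (b * u)⁻¹ * z * (b * u)⁻¹⁻¹ = e * t := by nth_rewrite 1 [← a2]; group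
  have q : C1(z) ⊓ C1(e) = C1(e * z) ⊓ C1(z) := by
    ext x
    simp only [mem_inf, mem_C1]
    refine ⟨fun ⟨h1, h2⟩ => ⟨by rw [← mul_assoc, h2, mul_assoc, h1, mul_assoc], h1⟩, fun ⟨h1, h2⟩ => ⟨h2, ?_⟩⟩
    rw [mul_assoc e, ← h2, ← mul_assoc, ← mul_assoc] at h1
    exact mul_right_cancel h1
  have h2 : IsPComp 2 (cj (b * u)⁻¹ (kc 2 K e)) (C1(t) ⊓ C1(e * t)) := by
    have := h1.cj (b * u)⁻¹
    rwa [q, H17.cj_inf, show cj (b * u)⁻¹ C1(e * z) = C1(t) from cj_C1.trans (by rw [a1']),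
      show cj (b * u)⁻¹ C1(z) = C1(e * t) from cj_C1.trans (by rw [a2'])] at this
  have m2 : e * t ∈ cj (b * u)⁻¹ (kc 2 K e) := a2' ▸ conj_mem_cj h0.mem
  have o2 : orderOf (e * t) = 2 := by rw [← a2', H18.orderOf_conj, hK.ord]
  rcases hJ.dich o2 eN h2 with l | l
  · rcases hJ.uniq _ (l m2) (sq_of_ord o2) with h | h
    · exact ne_one_of_orderOf Nat.prime_two o2 h
    · exact e1 (by simpa using h)
  · exact key (l m2)

end H17.IS23
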