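import Cfsg.Agent.H8.Cd1

/-! S4591, sub-step Y3: a subgroup lying in the kernel of every irreducible character of
`p'`-degree meets `N ⊔ P` inside `N ⊔ ⁅P, P⁆` (`H23.KpY3.y3`). -/

open H5 H6 H8 Cfsg

namespace H23.KpY3
variable {G : Type*} [Group G] [Finite G]

omit [Finite G] in
theorem comm_sup_le (N P : Subgroup G) [N.Normal] : ⁅N ⊔ P, N ⊔ P⁆ ≤ N ⊔ ⁅P, P⁆ := by
  have e : (N ⊔ P).map (QuotientGroup.mk' N) = P.map (QuotientGroup.mk' N) := by
    rw [Subgroup.map_sup, (Subgroup.map_eq_bot_iff _).2 (by rw [QuotientGroup.ker_mk']), bot_sup_eq]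
  have h : (⁅N ⊔ P, N ⊔ P⁆ : Subgroup G).map (QuotientGroup.mk' N) ≤
      (⁅P, P⁆ : Subgroup G).map (QuotientGroup.mk' N) := by
    rw [Subgroup.map_commutator, Subgroup.map_commutator, e]
  rw [Subgroup.map_le_iff_le_comap, Subgroup.comap_map_eq, QuotientGroup.ker_mk'] at h
  exact h.trans (sup_comm _ _).le

theorem y3 (p : ℕ) [hp : Fact p.Prime] (P : Sylow p G) (N : Subgroup G) [N.Normal] (K : Subgroup G)
    (hK : ∀ χ, IsIrrCharacter G χ → ¬ p ∣ charDegree χ → K ≤ charKer χ) :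
    K ⊓ (N ⊔ (P : Subgroup G)) ≤ N ⊔ ⁅(P : Subgroup G), (P : Subgroup G)⁆ := by
  classical
  haveI := Fintype.ofFinite G
  intro k hk
  by_contra hn
  obtain ⟨lam, -, h2⟩ := exists_lin_ne_one (G := ↥(N ⊔ (P : Subgroup G)))
    (N := (N ⊔ ⁅(P : Subgroup G), (P : Subgroup G)⁆).subgroupOf (N ⊔ (P : Subgroup G)))
    (g := ⟨k, hk.2⟩) (fun x hx => by
      refine comm_sup_le N P ?_
      have := Subgroup.map_commutator (⊤ : Subgroup ↥(N ⊔ (P : Subgroup G))) ⊤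
        (N ⊔ (P : Subgroup G)).subtype
      rw [← MonoidHom.range_eq_map, Subgroup.range_subtype] at this
      exact this.le ⟨x, hx, rfl⟩) hn
  obtain ⟨χ, h7, h8⟩ := exists_constituent_not_dvd (isCharacter_ind _ (isCharacter_hom lam))
    (n := p) (by
      rw [deg_ind (isCharacter_hom lam), charDegree_of_eq (n := 1) (by simp), mul_one]
      exact fun e => P.not_dvd_index (e.trans (Subgroup.index_dvd_of_le le_sup_right)))
  rw [inner_ind_left _ _ χ.2.isClassFunction, Ne, classInner_eq_zero_comm] at h7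
  have := ker_le_of_constituent χ.2.isCharacter (isIrrCharacter_hom lam) h7
    (x := ⟨k, hk.2⟩) (hK _ χ.2 h8 hk.1)
  rw [charKer_hom] at this
  exact h2 this

/-- With `K ≤ N ⊔ P`, the inclusion `K ≤ N ⊔ ⁅P, P⁆`. -/
theorem y3' (p : ℕ) [hp : Fact p.Prime] (P : Sylow p G) (N : Subgroup G) [N.Normal] (K : Subgroup G)
    (hK : ∀ χ, IsIrrCharacter G χ → ¬ p ∣ charDegree χ → K ≤ charKer χ)
    (h : K ≤ N ⊔ (P : Subgroup G)) : K ≤ N ⊔ ⁅(P : Subgroup G), (P : Subgroup G)⁆ :=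
  fun _ hk => y3 p P N K hK ⟨hk, h hk⟩

end H23.KpY3
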