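import Cfsg.Agent.H26.Nse

/-! More on the numbers `oc G m` of elements of order `m`: divisibility by `φ m`, Frobenius sums, class-size
divisibility, Sylow subgroups of prime order and cyclic Sylow subgroups. -/

set_option autoImplicit false
set_option linter.unusedSectionVars false

namespace H23.Nse
open Subgroup MulAction H326

variable {G : Type*} [Group G] [Finite G] {p q k n m d : ℕ} {x y g : G}

theorem dvd_of_fibers {α β : Type*} [Finite α] (f : α → β) (d : ℕ)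
    (h : ∀ a, d ∣ Nat.card {a' // f a' = f a}) : d ∣ Nat.card α := by
  have := Fintype.ofFinite (Set.range f)
  rw [← Nat.card_congr (Equiv.sigmaFiberEquiv (Set.rangeFactorization f)), Nat.card_sigma]
  refine Finset.dvd_sum fun ⟨_, a, e⟩ _ => ?_
  subst e
  exact (h a).trans (Nat.card_congr (Equiv.subtypeEquivRight fun _ => by simp [Subtype.ext_iff])).dvd

theorem oc_ne : oc G m ≠ 0 ↔ ∃ x : G, orderOf x = m := by
  rw [oc, Nat.card_ne_zero]
  exact ⟨fun h => let ⟨a⟩ := h.1; ⟨a.1, a.2⟩, fun ⟨a, e⟩ => ⟨⟨⟨a, e⟩⟩, inferInstance⟩⟩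

theorem oc_dvd (h : d ∣ m) (hm : oc G m ≠ 0) : oc G d ≠ 0 := by
  obtain ⟨x, rfl⟩ := oc_ne.1 hm
  exact oc_ne.2 ⟨x ^ (orderOf x / d), orderOf_pow_orderOf_div (orderOf_pos x).ne' h⟩

theorem oc_zero_of (h : d ∣ m) (hd : oc G d = 0) : oc G m = 0 := by
  by_contra e; exact oc_dvd h e hd

theorem oc_card (hm : oc G m ≠ 0) : m ∣ Nat.card G := by
  obtain ⟨x, rfl⟩ := oc_ne.1 hm
  exact orderOf_dvd_natCard x

theorem oc_nd (h : ¬ m ∣ Nat.card G) : oc G m = 0 := by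
  by_contra e; exact h (oc_card e)

theorem oc_cauchy (hp : p.Prime) (h : p ∣ Nat.card G) : oc G p ≠ 0 :=
  have := Fact.mk hp
  oc_ne.2 (exists_prime_orderOf_dvd_card' p h)

theorem card_ord_zpowers (h : d ∣ orderOf x) : Nat.card {y : G // orderOf y = d ∧ y ∈ zpowers x} = d.totient := by
  classical
  have := Fintype.ofFinite (zpowers x)
  have e := IsCyclic.card_orderOf_eq_totient (α := zpowers x) (d := d)
    (by rwa [← Nat.card_eq_fintype_card, Nat.card_zpowers])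
  rw [← e, ← Fintype.card_subtype, ← Nat.card_eq_fintype_card]
  exact Nat.card_congr ⟨fun a => ⟨⟨a.1, a.2.2⟩, by simpa using a.2.1⟩, fun a => ⟨a.1.1, by simpa using a.2, a.1.2⟩,
    fun _ => rfl, fun _ => rfl⟩

theorem zp_eq (h : y ∈ zpowers x) (e : orderOf y = orderOf x) : zpowers y = zpowers x :=
  eq_of_le_of_card_ge (zpowers_le.2 h) (by rw [Nat.card_zpowers, Nat.card_zpowers, e])

theorem oc_tot (m : ℕ) : m.totient ∣ oc G m := by
  refine dvd_of_fibers (fun a : {g : G // orderOf g = m} => zpowers a.1) _ fun a => ?_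
  rw [← card_ord_zpowers (x := a.1) (d := m) (by rw [a.2])]
  exact (Nat.card_congr ⟨fun b => ⟨⟨b.1, b.2.1⟩, zp_eq b.2.2 (b.2.1.trans a.2.symm)⟩,
    fun b => ⟨b.1.1, b.1.2, b.2.le (mem_zpowers _)⟩, fun _ => rfl, fun _ => rfl⟩).dvd

theorem oc_frob (n : ℕ) (h : n ∣ Nat.card G) : n ∣ ∑ d ∈ n.divisors, oc G d := by
  rw [← oc_sum (by rintro rfl; exact Nat.card_pos.ne' (zero_dvd_iff.1 h))]
  exact H22.frobenius_dvd_card_pow_eq_one h

theorem oc_exp (n : ℕ) (hn : n ≠ 0) (h : ∀ m, oc G m ≠ 0 → m ∣ n) : Nat.card G = ∑ d ∈ n.divisors, oc G d := by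
  rw [← oc_sum hn]
  exact (Nat.card_congr (Equiv.subtypeUnivEquiv fun x =>
    orderOf_dvd_iff_pow_eq_one.1 (h _ (oc_ne.2 ⟨x, rfl⟩)))).symm

theorem oc_le (T : Finset ℕ) : ∑ d ∈ T, oc G d ≤ Nat.card G := by
  classical
  rw [oc_total (G := G), ← Finset.sum_filter_ne_zero T]
  refine Finset.sum_le_sum_of_subset fun d hd => ?_
  exact Nat.mem_divisors.2 ⟨oc_card (Finset.mem_filter.1 hd).2, Nat.card_pos.ne'⟩

theorem dvd_card_of_cls (S : G → Prop) (hS : ∀ g h, IsConj g h → S g → S h) (d : ℕ)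
    (h : ∀ g, S g → d ∣ (centralizer ({g} : Set G)).index) : d ∣ Nat.card {g // S g} := by
  refine dvd_of_fibers (fun a : {g // S g} => ConjClasses.mk a.1) _ fun a => (h a.1 a.2).trans ?_
  rw [← H5.card_isConj]
  exact (Nat.card_congr ⟨fun y => ⟨⟨y.1, hS _ _ y.2 a.2⟩, ConjClasses.mk_eq_mk_iff_isConj.2 y.2.symm⟩,
    fun b => ⟨b.1.1, (ConjClasses.mk_eq_mk_iff_isConj.1 b.2).symm⟩, fun _ => rfl, fun _ => rfl⟩).dvd

theorem ord_conj (h : IsConj x y) : orderOf x = orderOf y := by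
  obtain ⟨c, rfl⟩ := isConj_iff.1 h
  exact ((MulAut.conj c).orderOf_eq x).symm

theorem dvd_oc (h : ∀ g : G, orderOf g = m → d ∣ (centralizer ({g} : Set G)).index) : d ∣ oc G m :=
  dvd_card_of_cls _ (fun _ _ c e => (ord_conj c).symm.trans e) d h

theorem syl_card [Fact p.Prime] (P : Sylow p G) (h1 : p ^ k ∣ Nat.card G) (h2 : ¬ p ^ (k + 1) ∣ Nat.card G) :
    Nat.card P = p ^ k := by
  rw [P.card_eq_multiplicity]
  congr 1
  have hp : p.Prime := Fact.out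
  have a := (hp.pow_dvd_iff_le_factorization Nat.card_pos.ne').1 h1
  have b := mt (hp.pow_dvd_iff_le_factorization (k := k + 1) (n := Nat.card G) Nat.card_pos.ne').2 h2
  omega

/-- Sylow subgroup of order `p`: `oc p = n (p - 1)`, `n ∣ |G|` and `n ∣ oc m` whenever `p ∣ m`. -/
theorem prime_syl (hp : p.Prime) (h1 : p ∣ Nat.card G) (h2 : ¬ p ^ 2 ∣ Nat.card G) :
    ∃ n, oc G p = n * (p - 1) ∧ n ∣ Nat.card G ∧ ∀ m, p ∣ m → n ∣ oc G m := by
  have := Fact.mk hp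
  let P : Sylow p G := default
  have hP : Nat.card P = p := (syl_card (k := 1) P (by simpa) h2).trans (pow_one p)
  refine ⟨_, H10.card_orderOf_eq_prime P hP, ?_, fun m hm => dvd_oc fun g e => ?_⟩
  · rw [P.card_eq_index_normalizer]; exact index_dvd_card _
  obtain ⟨Q, hQ⟩ := H10.exists_sylow_eq_zpowers P hP (g := g ^ (orderOf g / p))
    (orderOf_pow_orderOf_div (orderOf_pos g).ne' (e ▸ hm))
  rw [Q.card_eq_index_normalizer]
  refine index_dvd_of_le (le_trans ?_ (centralizer_le_normalizer _))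
  intro c hc x hx
  obtain ⟨j, rfl⟩ := hQ.le hx
  exact (((show Commute g c from hc g rfl).pow_left _).zpow_left j).eq

theorem not_dvd_cen (hp : p.Prime) (hq : q.Prime) (qp : q ≠ p) (h : oc G (p * q) = 0) (e : orderOf g = p) :
    ¬ q ∣ Nat.card (centralizer ({g} : Set G)) := fun dq => by
  have := Fact.mk hq
  obtain ⟨y, hy⟩ := exists_prime_orderOf_dvd_card' (G := centralizer ({g} : Set G)) q dq
  have oy : orderOf (y : G) = q := by simpa using hy
  refine oc_ne.2 ⟨g * y, ?_⟩ h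
  rw [(show Commute g y from y.2 g rfl).orderOf_mul_eq_mul_orderOf_of_coprime, e, oy]
  rw [e, oy]; exact (Nat.coprime_primes hp hq).2 (Ne.symm qp)

theorem card_cen_eq (hp : p.Prime) (h2 : ¬ p ^ 2 ∣ Nat.card G) (h : ∀ q, q.Prime → q ≠ p → oc G (p * q) = 0)
    (e : orderOf g = p) : Nat.card (centralizer ({g} : Set G)) = p := by
  have d1 : p ∣ Nat.card (centralizer ({g} : Set G)) :=
    e ▸ (centralizer ({g} : Set G)).orderOf_dvd_natCard (mem_centralizer_singleton_iff.2 rfl)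
  obtain ⟨c, hc⟩ := d1
  suffices c = 1 by rw [hc, this, mul_one]
  by_contra c1
  obtain ⟨q, hq, dq⟩ := Nat.exists_prime_and_dvd c1
  by_cases qp : q = p
  · subst qp
    exact h2 ((hc ▸ sq q ▸ Nat.mul_dvd_mul_left q dq).trans (card_subgroup_dvd_card _))
  exact not_dvd_cen hp hq qp (h q hq qp) e (hc ▸ dq.mul_left p)

theorem oc_sub (N : Subgroup G) (m : ℕ) : oc N m = Nat.card {g : G // orderOf g = m ∧ g ∈ N} :=
  Nat.card_congr ⟨fun a => ⟨a.1.1, by simpa using a.2, a.1.2⟩, fun a => ⟨⟨a.1, a.2.2⟩, by simpa using a.2.1⟩,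
    fun _ => rfl, fun _ => rfl⟩

theorem oc_nml (N : Subgroup G) [N.Normal] (h : m.Coprime N.index) : oc N m = oc G m := by
  rw [oc_sub]
  refine Nat.card_congr (Equiv.subtypeEquivRight fun g => and_iff_left_of_imp fun e => ?_)
  rw [← QuotientGroup.eq_one_iff, ← orderOf_eq_one_iff]
  exact Nat.eq_one_of_dvd_coprimes h (e ▸ orderOf_map_dvd (QuotientGroup.mk' N) g) (orderOf_dvd_natCard _)

theorem dvd_oc_nml (N : Subgroup G) [hN : N.Normal] (hp : p.Prime) (hq : q.Prime) (qp : q ≠ p)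
    (h : oc G (p * q) = 0) (d : q ∣ Nat.card G) : q ∣ oc N p := by
  rw [oc_sub]
  refine dvd_card_of_cls (fun g => orderOf g = p ∧ g ∈ N) (fun a b c e => ⟨(ord_conj c).symm.trans e.1, ?_⟩) _
    fun g e => ?_
  · obtain ⟨u, rfl⟩ := isConj_iff.1 c
    exact hN.conj_mem _ e.2 u
  · rw [← (centralizer ({g} : Set G)).card_mul_index] at d
    exact (hq.dvd_mul.1 d).resolve_left (not_dvd_cen hp hq qp h e.1)

theorem card_dvd_oc (hp : p.Prime) (h2 : ¬ p ^ 2 ∣ Nat.card G) (h : ∀ q, q.Prime → q ≠ p → oc G (p * q) = 0) :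
    Nat.card G ∣ p * oc G p := by
  by_cases h1 : p ∣ Nat.card G
  · obtain ⟨c, hc⟩ := h1
    rw [hc]
    refine Nat.mul_dvd_mul_left p (dvd_oc fun g e => ?_)
    have := (centralizer ({g} : Set G)).card_mul_index
    rw [card_cen_eq hp h2 h e, hc] at this
    rw [Nat.eq_of_mul_eq_mul_left hp.pos this]
  · rw [oc_nd h1]; simp

/-- Cyclic Sylow subgroup. -/
theorem cyc_le (hp : p.Prime) (h2 : ¬ p ^ (k + 2) ∣ Nat.card G) (h : oc G (p ^ (k + 1)) ≠ 0) :
    p ^ k * oc G p ≤ oc G (p ^ (k + 1)) := by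
  have := Fact.mk hp
  obtain ⟨x, hx⟩ := oc_ne.1 h
  have hz : ∀ P : Sylow p G, ∃ y : G, orderOf y = p ^ (k + 1) ∧ (P : Subgroup G) = zpowers y := fun P => by
    obtain ⟨Q, hQ⟩ := (IsPGroup.of_card (G := zpowers x) ((Nat.card_zpowers x).trans hx)).exists_le_sylow
    have e : zpowers x = Q := eq_of_le_of_card_ge hQ (by
      rw [syl_card Q (oc_card h) h2, Nat.card_zpowers, hx])
    obtain ⟨g, rfl⟩ := exists_smul_eq G Q P
    refine ⟨g * x * g⁻¹, ((MulAut.conj g).orderOf_eq x).trans hx, ?_⟩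
    rw [Sylow.coe_subgroup_smul, ← e]
    exact MonoidHom.map_zpowers _ x
  choose y oy hy using hz
  have := Fintype.ofFinite (Sylow p G)
  have c : ∀ j, j ≤ k + 1 → Nat.card (Σ P : Sylow p G, {g : G // orderOf g = p ^ j ∧ g ∈ zpowers (y P)}) =
      Nat.card (Sylow p G) * (p ^ j).totient := fun j hj => by
    rw [Nat.card_sigma, Finset.sum_congr rfl fun P _ => card_ord_zpowers (by rw [oy]; exact pow_dvd_pow p hj)]
    simp
  have a : oc G p ≤ Nat.card (Sylow p G) * (p ^ 1).totient := by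
    rw [← c 1 (by omega)]
    refine Nat.card_le_card_of_surjective (β := {g : G // orderOf g = p})
      (fun a => ⟨a.2.1, a.2.2.1.trans (pow_one p)⟩) fun g => ?_
    obtain ⟨Q, hQ⟩ := (IsPGroup.of_card (G := zpowers g.1) (n := 1)
      ((Nat.card_zpowers g.1).trans (g.2.trans (pow_one p).symm))).exists_le_sylow
    exact ⟨⟨Q, g.1, g.2.trans (pow_one p).symm, hy Q ▸ hQ (mem_zpowers _)⟩, rfl⟩
  have b : Nat.card (Sylow p G) * (p ^ (k + 1)).totient ≤ oc G (p ^ (k + 1)) := by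
    rw [← c _ le_rfl]
    refine Nat.card_le_card_of_injective (β := {g : G // orderOf g = p ^ (k + 1)}) (fun a => ⟨a.2.1, a.2.2.1⟩) ?_
    rintro ⟨P, g, og, hg⟩ ⟨Q, g', og', hg'⟩ e
    obtain rfl : g = g' := congrArg Subtype.val e
    obtain rfl : P = Q := Sylow.ext (by
      rw [hy, hy, ← zp_eq hg (og.trans (oy P).symm), ← zp_eq hg' (og.trans (oy Q).symm)])
    rfl
  rw [Nat.totient_prime_pow_succ hp] at a b
  calc _ ≤ p ^ k * (Nat.card (Sylow p G) * (p ^ 0 * (p - 1))) := Nat.mul_le_mul_left _ a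
    _ = Nat.card (Sylow p G) * (p ^ k * (p - 1)) := by ring
    _ ≤ _ := b

theorem pp_dvd (hp : p.Prime) (h : ¬ p ^ (k + 1) ∣ m) {j : ℕ} (hj : p ^ j ∣ m) : p ^ j ∣ p ^ k :=
  pow_dvd_pow p (by by_contra e; exact h ((pow_dvd_pow p (by omega)).trans hj))

theorem dvd_235 {a b c : ℕ} (h : ∀ p, p.Prime → p ∣ m → p = 2 ∨ p = 3 ∨ p = 5) (h2 : ¬ 2 ^ (a + 1) ∣ m)
    (h3 : ¬ 3 ^ (b + 1) ∣ m) (h5 : ¬ 5 ^ (c + 1) ∣ m) : m ∣ 2 ^ a * 3 ^ b * 5 ^ c := by
  refine (Nat.dvd_iff_prime_pow_dvd_dvd _ m).2 fun p k hp d => ?_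
  obtain rfl | k0 := Nat.eq_zero_or_pos k
  · simp
  obtain rfl | rfl | rfl := h p hp ((dvd_pow_self p k0.ne').trans d)
  · exact ((pp_dvd hp h2 d).mul_right _).mul_right _
  · exact ((pp_dvd hp h3 d).mul_left _).mul_right _
  · exact (pp_dvd hp h5 d).mul_left _

theorem exp_235 {a b c : ℕ} (h : ∀ p, p.Prime → p ∣ Nat.card G → p = 2 ∨ p = 3 ∨ p = 5) (h2 : oc G (2 ^ (a + 1)) = 0)
    (h3 : oc G (3 ^ (b + 1)) = 0) (h5 : oc G (5 ^ (c + 1)) = 0) (m : ℕ) (hm : oc G m ≠ 0) :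
    m ∣ 2 ^ a * 3 ^ b * 5 ^ c :=
  dvd_235 (fun p hp d => h p hp (d.trans (oc_card hm))) (fun d => oc_dvd d hm h2) (fun d => oc_dvd d hm h3)
    fun d => oc_dvd d hm h5

/-- the set of nonzero values of `oc G` -/
theorem mem_nse {v : ℕ} : v ∈ (fun m : ℕ => Nat.card {g : G // orderOf g = m}) '' Set.range (orderOf : G → ℕ) ↔
    v ≠ 0 ∧ ∃ m, oc G m = v :=
  ⟨fun ⟨m, ⟨x, e⟩, h⟩ => ⟨h ▸ oc_ne.2 ⟨x, e⟩, m, h⟩, fun ⟨h, m, e⟩ => ⟨m, oc_ne.1 (e ▸ h), e⟩⟩

end H23.Nse
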