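import Cfsg.Agent.H29.ND
import Cfsg.Agent.H11.Spin

/-! Stabilisers of non-degenerate `4`-spaces in `Ω₇` and `Ω₈⁻`: `exists_EW4` (transitivity on
singular vectors), `nd_full4`, `fix_stab` (stabilisers of singular vectors of `W` stabilise `W`),
`split_comm`, `odd_common`, `even_common`, `nd4_stab`, `isMaximalIn_nd4`. -/

set_option autoImplicit false
set_option linter.unusedSectionVars false

namespace H23.OR
open H11 H11.PForm H29 Module

variable {F : Type*} [Field F] [Finite F] {V : Type*} [AddCommGroup V] [Module F V]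
  [FiniteDimensional F V] {S : PForm (orthP F) V}

theorem exists_E_mul_fix2 (hS : S.Nondeg) (hn : 5 ≤ finrank F V) {X : Submodule F V}
    (hX : (S.restrict X).Nondeg) (h2 : 2 ≤ finrank F X) (g : S.Isom) :
    ∃ r : S.Isom, (∀ x ∈ S.perp X, r.1 x = x) ∧ g * r ∈ S.E := by
  have h : S.E ⊔ S.fix (S.perp X) = ⊤ := by
    refine hS.eq_top_of_qrefl_eich _ (fun d b => ?_)
      (fun u v a => Subgroup.mem_sup_left (S.eich_mem_E u v a))
    by_cases hc : S.QCond d b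
    · have hb := hc.orth_eq
      obtain ⟨x, hx, hq⟩ := orth_exists_q_eq_mem hX h2 (S.q d)
      have hd : S.q d ≠ 0 := hb ▸ hc.ne
      have hx0 : x ≠ 0 := by rintro rfl; exact hd (hq ▸ S.orth_q_zero)
      have hd0 : d ≠ 0 := by rintro rfl; exact hd S.orth_q_zero
      obtain ⟨k, hk, h⟩ := exists_qrefl_conj hS (iso3_orth S) hn hx0 hd0 (by simp [hq]) b
      rw [← h]
      exact Subgroup.mul_mem _ (Subgroup.mul_mem _ (Subgroup.mem_sup_left hk)
        (Subgroup.mem_sup_right fun y hy => qrefl_apply_of_perp (hy x hx)))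
        (Subgroup.mem_sup_left (S.E.inv_mem hk))
    · rw [qrefl_junk hc]; exact Subgroup.one_mem _
  have hg : g ∈ ((S.E ⊔ S.fix (S.perp X) : Subgroup S.Isom) : Set S.Isom) := by
    rw [h]; trivial
  rw [Subgroup.normal_mul] at hg
  obtain ⟨a, ha, r, hr, rfl⟩ := hg
  exact ⟨r⁻¹, Subgroup.inv_mem _ hr, by simpa using ha⟩

theorem exists_EW4 (hS : S.Nondeg) (hn : 5 ≤ finrank F V) {W : Submodule F V}
    (hW : (S.restrict W).Nondeg) (h4 : 4 ≤ finrank F W) {x y : V} (hx : x ∈ W) (hy : y ∈ W)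
    (hx0 : x ≠ 0) (hy0 : y ≠ 0) (hxs : S.Sing x) (hys : S.Sing y) :
    ∃ g ∈ S.E, g.1 x = y ∧ (∀ z ∈ S.perp W, g.1 z = z) ∧ g ∈ S.stab W := by
  obtain ⟨k, hk⟩ := hW.witt_vec (u := ⟨x, hx⟩) (u' := ⟨y, hy⟩) (by simpa using hx0)
    (by simpa using hy0) ((orthP F).Λ.sub_mem hys hxs)
  obtain ⟨f, hf, H⟩ := exists_partner_mem hW hx hx0 hxs
  have hX : (S.restrict (W ⊓ S.perp (Submodule.span F {x, f}))).Nondeg := by
    rw [restrict_nondeg_iff'] at hW ⊢
    intro w hw h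
    refine hW w hw.1 fun z hz => ?_
    have h1 := h _ ⟨W.sub_mem (W.sub_mem hz (W.smul_mem _ hx)) (W.smul_mem _ hf), H.sub_mem_perp z⟩
    have h2 := S.mem_perp_pair.1 hw.2
    simpa [S.h_swap_zero h2.1, S.h_swap_zero h2.2] using h1
  have h2 := finrank_inf_perp hS W (Submodule.span F {x, f})
  have h3 := finrank_span_two_le (F := F) x f
  obtain ⟨r, hr, hE⟩ := exists_E_mul_fix2 hS hn hX (by omega) (ext1 hW k)
  have hp : ∀ z ∈ S.perp W, (ext1 hW k * r).1 z = z := fun z hz => by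
    rw [isom_mul_apply, hr z (S.perp_anti inf_le_left hz), ext1_right hW k hz]
  refine ⟨_, hE, ?_, hp, ?_⟩
  · rw [isom_mul_apply, hr x fun w hw => S.h_swap_zero (S.mem_perp_pair.1 hw.2).1,
      ext1_left hW k ⟨x, hx⟩, hk]
  · rw [← stab_perp hS]
    exact fix_le_stab _ hp

variable {W : Submodule F V} {H : Subgroup S.Isom}

theorem nd_full4 (hS : S.Nondeg) (hn : 5 ≤ finrank F V) (hW : (S.restrict W).Nondeg)
    (h4 : 4 ≤ finrank F W) (hH : S.stab W ⊓ S.E ≤ H) (hirr : IsomIrr (S.restrict (S.perp W)))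
    {u v : V} (hu : u ∈ W) (hu0 : u ≠ 0) (hs : S.Sing u) (hv : v ∈ BSet H hs) (hvW : v ∉ W) :
    S.E ≤ H := by
  have hE : ∀ u ∈ W, ∀ v ∈ W, ∀ a, S.eich u v a ∈ H := fun u hu v hv a =>
    hH ⟨eich_mem_stab hu hv a, S.eich_mem_E u v a⟩
  have transfer : ∀ u ∈ W, u ≠ 0 → ∀ hs : S.Sing u, ∀ u' ∈ W, u' ≠ 0 → ∀ hs' : S.Sing u',
      ∀ y ∈ S.perp W, y ∈ BSet H hs → y ∈ BSet H hs' := by
    intro u hu hu0 hs u' hu' hu0' hs' y hy hyB
    obtain ⟨g, hg, h1, h2, h3⟩ := exists_EW4 hS hn hW h4 hu hu' hu0 hu0' hs hs'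
    have := BSet_map (hu' := hs') hyB (hH ⟨h3, hg⟩) h1
    rwa [h2 y hy] at this
  let Y : Submodule F V :=
    { carrier := {y | y ∈ S.perp W ∧ y ∈ BSet H hs}
      add_mem' := fun ha hb => ⟨Submodule.add_mem _ ha.1 hb.1, AddSubgroup.add_mem _ ha.2 hb.2⟩
      zero_mem' := ⟨Submodule.zero_mem _, AddSubgroup.zero_mem _⟩
      smul_mem' := fun c y hy => ⟨Submodule.smul_mem _ _ hy.1, by
        by_cases hc : c = 0
        · rw [hc, zero_smul]; exact AddSubgroup.zero_mem _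
        exact BSet_smul (hu := hs) hc (transfer u hu hu0 hs (c • u) (W.smul_mem _ hu)
          (smul_ne_zero hc hu0) (hs.smul _) y hy.1 hy.2)⟩ }
  have hdec : ∀ v, S.h u v = 0 → ∃ a ∈ BSet H hs, ∃ b ∈ S.perp W, v = a + b ∧ a ∈ W := by
    intro v hv
    obtain ⟨a, ha, b, hb, rfl⟩ := exists_decomp hW v
    exact ⟨a, mem_BSet_of_mem hE hu hs ha (by simpa [hb u hu] using hv), b, hb, rfl, ha⟩
  have hY0 : Y ≠ ⊥ := by
    obtain ⟨a, ha, b, hb, rfl, haW⟩ := hdec v (BSet_perp hv)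
    intro h0
    have : b ∈ Y := ⟨hb, by simpa using (BSet H hs).sub_mem hv ha⟩
    rw [h0, Submodule.mem_bot] at this
    exact hvW (by simpa [this] using haW)
  have hY : S.perp W ≤ Y := by
    have := hirr (Y.comap (S.perp W).subtype) (fun h => hY0 (by
      rw [eq_bot_iff]
      intro y hy
      have : (⟨y, hy.1⟩ : S.perp W) ∈ Y.comap (S.perp W).subtype := hy
      rw [h, Submodule.mem_bot] at this
      exact congrArg Subtype.val this)) (fun k y hy => by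
        obtain ⟨g, hg, hgW, h⟩ := exists_E_ext2 hS (iso3_orth S) hn hW (by omega) k
        have h1 : g.1 y ∈ Y := ⟨(stab_le_stab_perp W hgW y).1 hy.1,
          transfer (g.1 u) ((hgW u).1 hu) (by simpa using hu0) ((isom_sing g u).2 hs) u hu hu0 hs
            _ ((stab_le_stab_perp W hgW y).1 hy.1) (BSet_map hy.2 (hH ⟨hgW, hg⟩) rfl)⟩
        rw [h] at h1
        exact h1)
    intro y hy
    have h1 : (⟨y, hy⟩ : S.perp W) ∈ Y.comap (S.perp W).subtype := by rw [this]; trivial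
    exact h1
  have hfull : Full H u := by
    refine full_of_BSet hs (fun v hv => ?_) (fun a _ => hE u hu 0 W.zero_mem a)
    obtain ⟨a, ha, b, hb, rfl, -⟩ := hdec v hv
    exact AddSubgroup.add_mem _ ha (hY hb).2
  obtain ⟨f, hf, Hy⟩ := exists_partner_mem hW hu hu0 hs
  obtain ⟨g, hg, h1, -, h3⟩ := exists_EW4 hS hn hW h4 hu hf hu0 Hy.f_ne hs Hy.sing_f
  exact S.E_le_iff.2 fun x v a _ => full_all_of_pair hS hs Hy.sing_f hfull
    (h1 ▸ hfull.map (hH ⟨h3, hg⟩)) (by rw [Hy.h_ef]; exact one_ne_zero) x v a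

theorem fix_stab (hW : (S.restrict W).Nondeg) (hH : S.stab W ⊓ S.E ≤ H) (hHE : H ≤ S.E)
    (hB : ∀ u ∈ W, u ≠ 0 → ∀ hs : S.Sing u, ∀ v ∈ BSet H hs, v ∈ W) {k : S.Isom} (hk : k ∈ H)
    {u : V} (hu : u ∈ W) (hu0 : u ≠ 0) (hs : S.Sing u) (hku : k.1 u = u) : k ∈ S.stab W := by
  have hE : ∀ u ∈ W, ∀ v ∈ W, ∀ a, S.eich u v a ∈ H := fun u hu v hv a =>
    hH ⟨eich_mem_stab hu hv a, S.eich_mem_E u v a⟩
  obtain ⟨f, hf, Hy⟩ := exists_partner_mem hW hu hu0 hs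
  have h1 : S.h u (k.1 f) = S.h u f := by conv_lhs => rw [← hku, isom_h]
  obtain ⟨a, hc, he⟩ := eich_trans hs (x := f) (y := k.1 f) (by rw [Hy.h_ef]; exact one_ne_zero) h1
    (isom_q k f)
  rw [Hy.h_ef, inv_one, one_smul] at hc he
  have key : ∀ g : S.Isom, g.1 f ∈ W → (∀ z ∈ W, S.h u z = 0 → g.1 z ∈ W) → g ∈ S.stab W := by
    intro g h1 h2
    refine mem_stab_of_le fun z hz => ?_
    have := W.add_mem (h2 (z - S.h u z • f) (W.sub_mem hz (W.smul_mem _ hf)) (by simp [Hy.h_ef]))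
      (W.smul_mem (S.h u z) h1)
    simpa using this
  have hz : ∀ z ∈ W, S.h u z = 0 → k.1 z ∈ W := fun z hz h => nd_fix hE hB hk hu hu0 hs hku hz h
  have hl : (S.eich u (k.1 f - f) a)⁻¹ * k ∈ S.stab W := by
    refine key _ ?_ fun z hz' h => ?_
    · rw [isom_mul_apply]
      nth_rewrite 2 [← he]
      rwa [isom_inv_apply_self]
    · rw [isom_mul_apply, eich_inv hc, eich_apply_of_perp hc.neg (by rw [← hku, isom_h, h])]
      exact W.sub_mem (hz z hz' h) (W.smul_mem _ hu)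
  have hm := hH ⟨hl, S.E.mul_mem (S.E.inv_mem (S.eich_mem_E _ _ _)) (hHE hk)⟩
  have hm' : S.eich u (k.1 f - f) a ∈ H := by
    simpa using H.mul_mem hk (H.inv_mem hm)
  have := hB u hu hu0 hs _ ⟨a, hc, hm'⟩
  exact key k ((W.sub_mem_iff_left hf).1 this) hz

theorem nonsing_of_comm {A : Submodule F V} (hA : (S.restrict A).Nondeg) (k : S.Isom) {w : V}
    (hw : w ∈ A) (hw0 : w ≠ 0) (h1 : ∀ z ∈ A, ∃ c : F, k.1 z - z = c • w) {z₁ : V} (hz₁ : z₁ ∈ A)
    (h2 : k.1 z₁ - z₁ = w) : S.q w ≠ 0 := by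
  intro hq
  have key : ∀ z (c : F), k.1 z - z = c • w → c * S.h z w = 0 := fun z c h => by
    have := orth_isom_q k z
    rw [sub_eq_iff_eq_add'.1 h, orth_q_add, orth_q_smul, hq, map_smul, smul_eq_mul] at this
    linear_combination this
  have k1 : S.h z₁ w = 0 := by simpa using key z₁ 1 (by simpa using h2)
  refine hw0 ((S.restrict_nondeg_iff' A).1 hA w hw fun z hz => S.h_swap_zero ?_)
  obtain ⟨c, hc⟩ := h1 z hz
  by_cases hc0 : c = 0
  · have := key (z + z₁) 1 (by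
      rw [map_add, add_sub_add_comm, hc, hc0, h2]; simp)
    simpa [k1] using this
  · exact (mul_eq_zero.1 (key z c hc)).resolve_left hc0

theorem split_comm (hS : S.Nondeg) (hW : (S.restrict W).Nondeg) {k : S.Isom} (hk : k ∈ S.stab W)
    {x y : V} (hL : ∀ z, k.1 z - z ∈ Submodule.span F {x, y}) :
    (∀ z, k.1 z - z ∈ W) ∨ (∀ z, k.1 z - z ∈ S.perp W) ∨
      ∃ w w', S.q w ≠ 0 ∧ S.q w' ≠ 0 ∧ S.h w w' = 0 ∧ w ∈ Submodule.span F {x, y} ∧
        ∀ l ∈ Submodule.span F {x, y}, ∃ α β : F, l = α • w + β • w' := by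
  have hk' := stab_le_stab_perp W hk
  have d1 : ∀ z ∈ W, k.1 z - z ∈ W := fun z hz => W.sub_mem ((hk z).1 hz) hz
  have d2 : ∀ z ∈ S.perp W, k.1 z - z ∈ S.perp W := fun z hz =>
    Submodule.sub_mem _ ((hk' z).1 hz) hz
  by_cases h1 : ∀ z ∈ S.perp W, k.1 z - z = 0
  · refine Or.inl fun z => ?_
    obtain ⟨a, ha, b, hb, rfl⟩ := exists_decomp hW z
    rw [map_add, add_sub_add_comm, h1 b hb, add_zero]
    exact d1 a ha
  by_cases h2 : ∀ z ∈ W, k.1 z - z = 0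
  · refine Or.inr (Or.inl fun z => ?_)
    obtain ⟨a, ha, b, hb, rfl⟩ := exists_decomp hW z
    rw [map_add, add_sub_add_comm, h2 a ha, zero_add]
    exact d2 b hb
  push Not at h1 h2
  obtain ⟨z₂, hz₂, h1⟩ := h1
  obtain ⟨z₁, hz₁, h2⟩ := h2
  have hd := Submodule.disjoint_def.1 ((S.restrict_nondeg_iff W).1 hW)
  have hw := d1 z₁ hz₁
  have hw' := d2 z₂ hz₂
  have hi : k.1 z₂ - z₂ ∉ F ∙ (k.1 z₁ - z₁) := fun h =>
    h1 (hd _ ((Submodule.span_singleton_le_iff_mem _ _).2 hw h) hw')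
  have hsp : ∀ l ∈ Submodule.span F {x, y}, ∃ α β : F, l = α • (k.1 z₁ - z₁) + β • (k.1 z₂ - z₂) := by
    have e : (F ∙ (k.1 z₁ - z₁)) ⊔ (F ∙ (k.1 z₂ - z₂)) = Submodule.span F {x, y} := by
      apply Submodule.eq_of_le_of_finrank_le
      · exact sup_le ((Submodule.span_singleton_le_iff_mem _ _).2 (hL _))
          ((Submodule.span_singleton_le_iff_mem _ _).2 (hL _))
      · rw [Submodule.finrank_sup_span_singleton hi, finrank_span_singleton h2]
        exact finrank_span_two_le x y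
    intro l hl
    rw [← e, ← Submodule.span_insert] at hl
    obtain ⟨α, β, h⟩ := Submodule.mem_span_pair.1 hl
    exact ⟨α, β, h.symm⟩
  refine Or.inr (Or.inr ⟨_, _, nonsing_of_comm hW k hw h2 (fun z hz => ?_) hz₁ rfl,
    nonsing_of_comm (hS.restrict_perp hW) k hw' h1 (fun z hz => ?_) hz₂ rfl, hw' _ hw, hL _, hsp⟩)
  · obtain ⟨α, β, h⟩ := hsp _ (hL z)
    refine ⟨α, ?_⟩
    have h3 := d1 z hz
    rw [h, W.add_mem_iff_right (W.smul_mem _ hw)] at h3
    rw [h, hd _ h3 (Submodule.smul_mem _ _ hw'), add_zero]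
  · obtain ⟨α, β, h⟩ := hsp _ (hL z)
    refine ⟨β, ?_⟩
    have h3 := d2 z hz
    rw [h, Submodule.add_mem_iff_left _ (Submodule.smul_mem _ _ hw')] at h3
    rw [h, hd _ (W.smul_mem _ hw) h3, zero_add]

theorem eich_split (hS : S.Nondeg) (hW : (S.restrict W).Nondeg) {x y : V} (hx : S.Sing x)
    (hx0 : x ≠ 0) (hxy : S.h x y = 0) (hyx : y ∉ F ∙ x) (h : (2 : F) ≠ 0 ∨ S.q y = 0)
    (hk : S.eich x y (S.q y) ∈ S.stab W) : x ∈ W ∨ (x ∈ S.perp W ∧ y ∈ S.perp W) := by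
  have hc := ECond.of_q hx hxy
  have e : ∀ z, (S.eich x y (S.q y)).1 z - z = S.h x z • y - (S.h y z + S.q y * S.h x z) • x :=
    fun z => by rw [eich_apply hc]; simp only [orthP_ε, one_mul]; abel
  have key : ∀ A : Submodule F V, (∀ z, (S.eich x y (S.q y)).1 z - z ∈ A) → x ∈ A ∧ y ∈ A := by
    intro A hA
    obtain ⟨z, hz, h1⟩ := hS.exists_perp_of_notMem' hyx (-1)
    have h2 := hA z
    rw [e, S.mem_perp_singleton.1 hz, h1] at h2
    have hxA : x ∈ A := by simpa using h2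
    obtain ⟨z, hz⟩ := hS.exists_h_eq_one hx0
    have h3 := hA z
    rw [e, hz, one_smul, A.sub_mem_iff_left (A.smul_mem _ hxA)] at h3
    exact ⟨hxA, h3⟩
  have mx : x ∈ Submodule.span F {x, y} := Submodule.subset_span (by simp)
  have my : y ∈ Submodule.span F {x, y} := Submodule.subset_span (by simp)
  rcases split_comm hS hW hk (x := x) (y := y) (fun z => by
    rw [e]; exact Submodule.sub_mem _ (Submodule.smul_mem _ _ my) (Submodule.smul_mem _ _ mx))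
    with h1 | h1 | ⟨w, w', q1, q2, h1, h2, h3⟩
  · exact Or.inl (key _ h1).1
  · exact Or.inr (key _ h1)
  exfalso
  obtain ⟨s, t, rfl⟩ := Submodule.mem_span_pair.1 h2
  have hq := (orth_sing S x).1 hx
  rcases h with h | h
  · obtain ⟨α, β, h4⟩ := h3 x mx
    obtain ⟨γ, δ, h5⟩ := h3 y my
    have a1 : S.h x (s • x + t • y) = 0 := by simp [hx.h_self, hxy]
    have a2 := hx.h_self
    generalize s • x + t • y = w at *
    have b1 : α = 0 := by
      rw [h4] at a1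
      simpa [orth_h_self, S.h_swap_zero h1, h, q1] using a1
    rw [h4, b1] at a2 hx0
    simp [orth_h_self, h, q2] at a2 hx0
    exact hx0.1 a2
  · exact q1 (by simp [orth_q_add, orth_q_smul, hq, h, hxy])

theorem odd_common (hS : S.Nondeg) (h2 : (2 : F) ≠ 0) {W₁ W₂ : Submodule F V}
    (hW₁ : (S.restrict W₁).Nondeg) (h₁ : 4 ≤ finrank F W₁) (h₂ : 4 ≤ finrank F W₂)
    (hk : ∀ k ∈ S.E, k ∈ S.stab W₂ → ∀ u ∈ W₁, u ≠ 0 → S.Sing u → k.1 u = u → k ∈ S.stab W₁)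
    (hB : ∀ x ∈ W₂, x ≠ 0 → S.Sing x → ¬ ∀ y ∈ W₂, S.h x y = 0 → y ∈ S.perp W₁) :
    ∃ x ∈ W₁, x ∈ W₂ ∧ x ≠ 0 ∧ S.Sing x := by
  by_contra hc
  have step : ∀ x ∈ W₂, ∀ y ∈ W₂, x ≠ 0 → S.Sing x → S.h x y = 0 → y ∉ F ∙ x → ∀ u ∈ W₁, u ≠ 0 →
      S.Sing u → S.h x u = 0 → S.h y u = 0 → x ∈ S.perp W₁ ∧ y ∈ S.perp W₁ := by
    intro x hx y hy hx0 hs hxy hyx u hu hu0 hus a1 a2
    exact (eich_split hS hW₁ hs hx0 hxy hyx (Or.inl h2) (hk _ (S.eich_mem_E _ _ _)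
      (eich_mem_stab hx hy _) u hu hu0 hus (eich_apply_of_perp_perp a1 a2))).resolve_left
      fun h => hc ⟨x, h, hx, hx0, hs⟩
  obtain ⟨u, hu, hu0, hus⟩ := iso3_orth S W₁ (by omega)
  obtain ⟨x, hx, hs, a1, hx0⟩ := exists_sing hS (iso3_orth S) W₂ [u] [] (by simpa using h₂)
  have := finrank_span_one_le (F := F) x
  obtain ⟨y, hy, hyx, a2⟩ := exists_mem_ker_notMem [S.h u, S.h x] W₂ (F ∙ x) (by simp; omega)
  simp only [List.mem_cons, List.not_mem_nil, or_false, forall_eq_or_imp, forall_eq] at a1 a2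
  replace hx0 := (fun h : x = 0 => hx0 (h ▸ Submodule.zero_mem _) : x ≠ 0)
  have hxU := (step x hx y hy hx0 hs a2.2 hyx u hu hu0 hus (S.h_swap_zero a1)
    (S.h_swap_zero a2.1)).1
  refine hB x hx hx0 hs fun b hb hxb => ?_
  by_cases hbx : b ∈ F ∙ x
  · exact (Submodule.span_singleton_le_iff_mem _ _).2 hxU hbx
  obtain ⟨u', hu', hs', a3, hu0'⟩ := exists_sing hS (iso3_orth S) W₁ [b] [] (by simpa using h₁)
  exact (step x hx b hb hx0 hs hxb hbx u' hu' (fun h => hu0' (h ▸ Submodule.zero_mem _)) hs'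
    (S.h_swap_zero (hxU u' hu')) (a3 b (by simp))).2

/-- every singular vector of `W` lies in a totally singular plane of `W` -/
def PlusAt (S : PForm (orthP F) V) (W : Submodule F V) : Prop :=
  ∀ x ∈ W, S.Sing x → ∃ y ∈ W, S.Sing y ∧ S.h x y = 0 ∧ y ∉ F ∙ x

/-- `U` contains no totally singular plane -/
def NoLine (S : PForm (orthP F) V) (U : Submodule F V) : Prop :=
  ∀ x ∈ U, ∀ y ∈ U, S.Sing x → S.Sing y → S.h x y = 0 → x ≠ 0 → y ∈ F ∙ x

theorem exists_gamma (h2 : (2 : F) = 0) :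
    ∃ γ : F, ∀ s t : F, γ * s ^ 2 + s * t + γ * t ^ 2 = 0 → s = 0 ∧ t = 0 := by
  obtain ⟨δ, hδ⟩ : ∃ δ : F, ∀ t : F, t ^ 2 + t ≠ δ := by
    by_contra hc
    push Not at hc
    have := Finite.injective_iff_surjective.2 hc
    exact zero_ne_one (this (a₁ := 0) (a₂ := 1) (by simp only; linear_combination -h2))
  obtain ⟨γ, rfl⟩ := isSquare_of_two_eq_zero h2 δ
  have hγ : γ ≠ 0 := by rintro rfl; exact hδ 0 (by simp)
  refine ⟨γ, fun s t h => ?_⟩
  by_cases ht : t = 0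
  · subst ht
    simpa [hγ] using h
  · exfalso
    apply hδ (γ * s / t)
    field_simp
    linear_combination h - γ * t ^ 2 * h2

theorem exists_pair (h2 : (2 : F) = 0) {A : Submodule F V} (hA : (S.restrict A).Nondeg)
    (h4 : 4 ≤ finrank F A) {a : V} (ha : a ∈ A) (hq : S.q a ≠ 0) (γ : F) :
    ∃ c ∈ A, ∃ c' ∈ A, S.h c a = 0 ∧ S.h c' a = 0 ∧ S.h c c' = 1 ∧ S.q c = γ ∧ S.q c' = γ := by
  have := finrank_span_one_le (F := F) a
  obtain ⟨p, hp, hpa, h1⟩ := exists_mem_ker_notMem [S.h a] A (F ∙ a) (by simp; omega)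
  obtain ⟨p', hp', h3, h5⟩ := exists_mem_perp_h_eq hA ha hp hpa 1
  replace h1 : S.h a p = 0 := h1 _ (by simp)
  have haa : S.h a a = 0 := by rw [orth_h_self, h2, zero_mul]
  have key : ∀ p, S.h a p = 0 → ∃ s : F, S.q (p + s • a) = γ := fun p hp => by
    obtain ⟨s, hs⟩ := isSquare_of_two_eq_zero h2 ((γ - S.q p) / S.q a)
    refine ⟨s, ?_⟩
    rw [orth_q_add, orth_q_smul, map_smul, S.h_swap_zero hp, pow_two, ← hs]
    field_simp
    simp
  obtain ⟨s, hs⟩ := key p h1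
  obtain ⟨s', hs'⟩ := key p' h3
  exact ⟨_, A.add_mem hp (A.smul_mem s ha), _, A.add_mem hp' (A.smul_mem s' ha),
    by simp [haa, S.h_swap_zero h1], by simp [haa, S.h_swap_zero h3],
    by simp [haa, S.h_swap_zero h1, h3, h5], hs, hs'⟩

theorem refl_mem_stab {A : Submodule F V} {c : V} (hc : c ∈ A) : S.refl c ∈ S.stab A :=
  mem_stab_of_le fun x hx => by rw [refl_apply]; exact A.sub_mem hx (A.smul_mem _ hc)

theorem refl_mul_mem_E (hS : S.Nondeg) (hn : 5 ≤ finrank F V) {c c' : V} (hc : S.q c ≠ 0)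
    (h : S.q c' = S.q c) : S.refl c * S.refl c' ∈ S.E := by
  have h0 : c ≠ 0 := by rintro rfl; exact hc S.orth_q_zero
  have h0' : c' ≠ 0 := by rintro rfl; exact hc (h ▸ S.orth_q_zero)
  obtain ⟨g, hg, h1⟩ := exists_E_vec hS (iso3_orth S) hn h0 h0' (by simp [h])
  rw [← h1, ← conj_refl]
  have := S.E.mul_mem ((inferInstance : S.E.Normal).conj_mem g hg (S.refl c)) (S.E.inv_mem hg)
  rwa [refl_inv, mul_assoc, mul_assoc, ← mul_assoc g] at this

theorem refl_split (hS : S.Nondeg) (h2 : (2 : F) = 0) (hW : (S.restrict W).Nondeg) {c c' : V}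
    (hc : S.q c ≠ 0) (hc' : S.q c' ≠ 0) (h : S.h c c' = 1)
    (hk : S.refl c * S.refl c' ∈ S.stab W) :
    (c ∈ W ∧ c' ∈ W) ∨ (c ∈ S.perp W ∧ c' ∈ S.perp W) := by
  have e : ∀ z, (S.refl c * S.refl c').1 z - z = -((S.q c')⁻¹ * S.h c' z) • c' -
      ((S.q c)⁻¹ * (S.h c z - (S.q c')⁻¹ * S.h c' z)) • c := fun z => by
    rw [isom_mul_apply, refl_apply, refl_apply]
    simp only [map_sub, map_smul, h, smul_eq_mul, mul_one]
    module
  have hs : ∀ x, S.h x x = 0 := fun x => by rw [orth_h_self, h2, zero_mul]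
  have key : ∀ A : Submodule F V, (∀ z, (S.refl c * S.refl c').1 z - z ∈ A) → c ∈ A ∧ c' ∈ A := by
    intro A hA
    have h1 := hA c'
    rw [e, hs, h] at h1
    have hcA : c ∈ A := (A.smul_mem_iff (inv_ne_zero hc)).1 (by simpa using h1)
    have h3 := hA c
    rw [e, A.sub_mem_iff_left (A.smul_mem _ hcA), orth_symm S c c', h] at h3
    exact ⟨hcA, (A.smul_mem_iff (inv_ne_zero hc')).1 (by simpa using h3)⟩
  have mx : c ∈ Submodule.span F {c, c'} := Submodule.subset_span (by simp)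
  have my : c' ∈ Submodule.span F {c, c'} := Submodule.subset_span (by simp)
  rcases split_comm hS hW hk (x := c) (y := c') (fun z => by
    rw [e]; exact Submodule.sub_mem _ (Submodule.smul_mem _ _ my) (Submodule.smul_mem _ _ mx))
    with h1 | h1 | ⟨w, w', -, -, h1, -, h3⟩
  · exact Or.inl (key _ h1)
  · exact Or.inr (key _ h1)
  exfalso
  obtain ⟨α, β, h4⟩ := h3 c mx
  obtain ⟨γ, δ, h5⟩ := h3 c' my
  rw [h4, h5] at h
  simp [hs, h1, S.h_swap_zero h1] at h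

theorem not_pair_mem (hW : (S.restrict W).Nondeg) (h4 : finrank F W = 4) (hP : PlusAt S W) {γ : F}
    (hγ : ∀ s t : F, γ * s ^ 2 + s * t + γ * t ^ 2 = 0 → s = 0 ∧ t = 0) {u c c' : V} (hu : u ∈ W)
    (hu0 : u ≠ 0) (hs : S.Sing u) (hc : c ∈ W) (hc' : c' ∈ W) (a1 : S.h c u = 0) (a2 : S.h c' u = 0)
    (h : S.h c c' = 1) (q1 : S.q c = γ) (q2 : S.q c' = γ) : False := by
  obtain ⟨v, hv, hvs, huv, hvu⟩ := hP u hu hs
  obtain ⟨f, hf, Hy⟩ := exists_partner_mem hW hu hu0 hs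
  have hi : LinearIndependent F ![(⟨f, hf⟩ : W), ⟨c, hc⟩, ⟨c', hc'⟩, ⟨u, hu⟩, ⟨v, hv⟩] := by
    rw [Fintype.linearIndependent_iff]
    intro g hg
    have h1 := congrArg Subtype.val hg
    simp only [Fin.sum_univ_five, Matrix.cons_val, Submodule.coe_add, Submodule.coe_smul,
      Submodule.coe_zero] at h1
    have h2 := congrArg (S.h u) h1
    simp only [map_add, map_smul, Hy.h_ef, S.h_swap_zero a1, S.h_swap_zero a2, hs.h_self, huv,
      smul_eq_mul, mul_one, mul_zero, add_zero, map_zero] at h2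
    have h3 : g 1 • c + g 2 • c' = -(g 3 • u + g 4 • v) := by
      rw [h2, zero_smul, zero_add] at h1
      linear_combination (norm := module) h1
    have h5 := congrArg S.q h3
    rw [orth_q_neg, (orth_sing S _).1 (sing_comb hs hvs huv _ _), orth_q_add, orth_q_smul,
      orth_q_smul, q1, q2] at h5
    simp only [map_smul, LinearMap.smul_apply, h, smul_eq_mul, mul_one] at h5
    obtain ⟨b1, b2⟩ := hγ (g 1) (g 2) (by linear_combination h5)
    rw [b1, b2] at h3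
    obtain ⟨b3, b4⟩ := eq_zero_of_indep hu0 hvu (a := g 4) (b := -g 3)
      (by linear_combination (norm := module) h3)
    intro i
    fin_cases i
    exacts [h2, b1, b2, neg_eq_zero.1 b4, b3]
  have := hi.fintype_card_le_finrank
  simp [h4] at this

theorem even_common (hS : S.Nondeg) (h2 : (2 : F) = 0) (hn : finrank F V = 8) {W₁ W₂ : Submodule F V}
    (hW₁ : (S.restrict W₁).Nondeg) (hW₂ : (S.restrict W₂).Nondeg) (h₁ : finrank F W₁ = 4)
    (h₂ : finrank F W₂ = 4) (hP₁ : PlusAt S W₁) (hP₂ : PlusAt S W₂) (hU : NoLine S (S.perp W₁))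
    (hk : ∀ k ∈ S.E, k ∈ S.stab W₂ → ∀ u ∈ W₁, u ≠ 0 → S.Sing u → k.1 u = u → k ∈ S.stab W₁) :
    ∃ x ∈ W₁, x ∈ W₂ ∧ x ≠ 0 ∧ S.Sing x := by
  obtain ⟨u, hu, hu0, hus⟩ := iso3_orth S W₁ (by omega)
  obtain ⟨a, ha, b, hb, hab⟩ := exists_decomp hW₂ u
  by_cases hq : S.q a = 0
  · obtain ⟨x, hx, y, hy, hx0, hxs, hys, hxy, hyx, b1, b2⟩ : ∃ x ∈ W₂, ∃ y ∈ W₂, x ≠ 0 ∧ S.Sing x ∧
        S.Sing y ∧ S.h x y = 0 ∧ y ∉ F ∙ x ∧ S.h x a = 0 ∧ S.h y a = 0 := by
      by_cases ha0 : a = 0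
      · obtain ⟨x, hx, hx0, hxs⟩ := iso3_orth S W₂ (by omega)
        obtain ⟨y, hy, c1, c2, c3⟩ := hP₂ x hx hxs
        exact ⟨x, hx, y, hy, hx0, hxs, c1, c2, c3, by simp [ha0], by simp [ha0]⟩
      · have has := (orth_sing S a).2 hq
        obtain ⟨y, hy, c1, c2, c3⟩ := hP₂ a ha has
        exact ⟨a, ha, y, hy, ha0, has, c1, c2, c3, has.h_self, S.h_swap_zero c2⟩
    rcases eich_split hS hW₁ hxs hx0 hxy hyx (Or.inr ((orth_sing S y).1 hys))
      (hk _ (S.eich_mem_E _ _ _) (eich_mem_stab hx hy _) u hu hu0 hus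
        (eich_apply_of_perp_perp (by simp [hab, b1, hb x hx]) (by simp [hab, b2, hb y hy])))
      with h | h
    · exact ⟨x, h, hx, hx0, hxs⟩
    · exact absurd (hU x h.1 y h.2 hxs hys hxy hx0) hyx
  exfalso
  have hqb : S.q b ≠ 0 := fun h => hq (by
    have := (orth_sing S u).1 hus
    rwa [hab, orth_q_add, h, hb a ha, add_zero, add_zero] at this)
  obtain ⟨γ, hγ⟩ := exists_gamma h2
  have hγ0 : γ ≠ 0 := by rintro rfl; simpa using hγ 1 0
  have hd := hS.finrank_perp W₂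
  obtain ⟨c, hc, c', hc', c1, c2, c3, c4, c5⟩ := exists_pair h2 hW₂ (by omega) ha hq γ
  obtain ⟨d, hd, d', hd', d1, d2, d3, d4, d5⟩ :=
    exists_pair h2 (hS.restrict_perp hW₂) (by omega) hb hqb γ
  have key : ∀ c c' : V, S.h c u = 0 → S.h c' u = 0 → S.h c c' = 1 → S.q c = γ → S.q c' = γ →
      S.refl c * S.refl c' ∈ S.stab W₂ → c ∈ S.perp W₁ ∧ c' ∈ S.perp W₁ := by
    intro c c' c1 c2 c3 c4 c5 h
    exact (refl_split hS h2 hW₁ (c4 ▸ hγ0) (c5 ▸ hγ0) c3 (hk _ (refl_mul_mem_E hS (by omega)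
      (c4 ▸ hγ0) (c5.trans c4.symm)) h u hu hu0 hus (by
        rw [isom_mul_apply, refl_apply_of_perp c2, refl_apply_of_perp c1]))).resolve_left
      fun h => not_pair_mem hW₁ h₁ hP₁ hγ hu hu0 hus h.1 h.2 c1 c2 c3 c4 c5
  obtain ⟨e1, e2⟩ := key c c' (by simp [hab, c1, hb c hc]) (by simp [hab, c2, hb c' hc']) c3 c4 c5
    (Subgroup.mul_mem _ (refl_mem_stab hc) (refl_mem_stab hc'))
  obtain ⟨e3, e4⟩ := key d d' (by simp [hab, d1, S.h_swap_zero (hd a ha)])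
    (by simp [hab, d2, S.h_swap_zero (hd' a ha)]) d3 d4 d5
    (by rw [← stab_perp hS]; exact Subgroup.mul_mem _ (refl_mem_stab hd) (refl_mem_stab hd'))
  have hs : ∀ x, S.h x x = 0 := fun x => by rw [orth_h_self, h2, zero_mul]
  have := hU (c + d) (Submodule.add_mem _ e1 e3) (c' + d') (Submodule.add_mem _ e2 e4)
    (by rw [orth_sing, orth_q_add, hd c hc, c4, d4]; linear_combination γ * h2)
    (by rw [orth_sing, orth_q_add, hd' c' hc', c5, d5]; linear_combination γ * h2)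
    (by
      simp only [map_add, LinearMap.add_apply, c3, d3, hd' c hc, S.h_swap_zero (hd c' hc')]
      linear_combination h2)
    (fun h => by
      have := congrArg (S.h c') h
      simp [orth_symm S c c', c3, hd c' hc'] at this)
  obtain ⟨t, ht⟩ := Submodule.mem_span_singleton.1 this
  have := congrArg (S.h c) ht
  simp [hs, hd c hc, hd' c hc, c3] at this

theorem nd4_stab (hS : S.Nondeg) (hW : (S.restrict W).Nondeg) (h4 : finrank F W = 4)
    (hc : ((2 : F) ≠ 0 ∧ finrank F V = 7) ∨ (finrank F V = 8 ∧ PlusAt S W ∧ NoLine S (S.perp W)))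
    (hH : S.stab W ⊓ S.E ≤ H) (hHE : H ≤ S.E) : S.E ≤ H ∨ H ≤ S.stab W := by
  have hn : 7 ≤ finrank F V := by rcases hc with h | h <;> omega
  have hd := hS.finrank_perp W
  have hirr : IsomIrr (S.restrict (S.perp W)) := orth_irr (hS.restrict_perp hW) (by omega)
  by_cases hB : ∀ u ∈ W, u ≠ 0 → ∀ hs : S.Sing u, ∀ v ∈ BSet H hs, v ∈ W
  swap
  · push Not at hB
    obtain ⟨u, hu, hu0, hs, v, hv, hvW⟩ := hB
    exact Or.inl (nd_full4 hS (by omega) hW h4.ge hH hirr hu hu0 hs hv hvW)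
  refine Or.inr fun g hg => ?_
  let W₂ := W.map (g.1 : V →ₗ[F] V)
  have m2 : ∀ x, x ∈ W₂ ↔ (g⁻¹).1 x ∈ W := fun x =>
    ⟨by rintro ⟨y, hy, rfl⟩; simpa using hy, fun h => ⟨_, h, by simp⟩⟩
  have h₂ : finrank F W₂ = 4 := by rw [← h4]; exact LinearEquiv.finrank_map_eq g.1 W
  have hW₂ : (S.restrict W₂).Nondeg := by
    rw [restrict_nondeg_iff'] at hW ⊢
    rintro _ ⟨x, hx, rfl⟩ h
    rw [hW x hx fun y hy => by simpa using h (g.1 y) ⟨y, hy, rfl⟩, map_zero]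
  have hk : ∀ k ∈ S.E, k ∈ S.stab W₂ → ∀ u ∈ W, u ≠ 0 → S.Sing u → k.1 u = u → k ∈ S.stab W := by
    intro k hk hk' u hu hu0 hs hku
    have h1 : g⁻¹ * k * g ∈ H := hH ⟨mem_stab_of_le fun x hx =>
      (m2 _).1 ((hk' _).1 ⟨x, hx, rfl⟩), (inferInstance : S.E.Normal).conj_mem' k hk g⟩
    refine fix_stab hW hH hHE hB ?_ hu hu0 hs hku
    simpa [mul_assoc] using H.mul_mem (H.mul_mem hg h1) (H.inv_mem hg)
  have hP : PlusAt S W → PlusAt S W₂ := by
    rintro hP _ ⟨x, hx, rfl⟩ hs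
    obtain ⟨y, hy, a1, a2, a3⟩ := hP x hx (by simpa using hs)
    exact ⟨g.1 y, ⟨y, hy, rfl⟩, by simpa, by simpa, notMem_span_map g.1 a3⟩
  obtain ⟨x, hx, hx2, hx0, hs⟩ : ∃ x ∈ W, x ∈ W₂ ∧ x ≠ 0 ∧ S.Sing x := by
    by_cases h2 : (2 : F) = 0
    · obtain ⟨h8, h1, h3⟩ := hc.resolve_left fun h => h.1 h2
      exact even_common hS h2 h8 hW hW₂ h4 h₂ h1 (hP h1) h3 hk
    refine odd_common hS h2 hW h4.ge h₂.ge hk fun x hx hx0 hs h => ?_
    rcases hc with ⟨-, h7⟩ | ⟨-, h1, h3⟩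
    · have a1 := finrank_inf_perp hS W₂ (F ∙ x)
      have a2 := finrank_span_one_le (F := F) x
      have e : W₂ ⊓ S.perp (F ∙ x) = S.perp W := Submodule.eq_of_le_of_finrank_le
        (fun y hy => h y hy.1 (S.mem_perp_singleton.1 hy.2)) (by omega)
      refine hx0 ((S.restrict_nondeg_iff' _).1 (hS.restrict_perp hW) x (h x hx hs.h_self)
        fun y hy => ?_)
      rw [← e] at hy
      exact S.mem_perp_singleton.1 hy.2
    · obtain ⟨y, hy, a1, a2, a3⟩ := hP h1 x hx hs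
      exact a3 (h3 x (h x hx hs.h_self) y (h y hy a2) hs a1 a2 hx0)
  have hx' := (m2 x).1 hx2
  have hx0' : (g⁻¹).1 x ≠ 0 := by simpa using hx0
  have hs' : S.Sing ((g⁻¹).1 x) := (isom_sing _ _).2 hs
  obtain ⟨m, hm, a1, -, a2⟩ := exists_EW4 hS (by omega) hW h4.ge hx hx' hx0 hx0' hs hs'
  have := fix_stab hW hH hHE hB (H.mul_mem hg (hH ⟨a2, hm⟩)) hx hx0 hs (by simp [a1])
  simpa using (S.stab W).mul_mem this ((S.stab W).inv_mem a2)

theorem isMaximalIn_nd4 {ι : Type} [Fintype ι] [DecidableEq ι] {S : PForm (orthP F) (ι → F)}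
    (hS : S.Nondeg) {W : Submodule F (ι → F)} (hW : (S.restrict W).Nondeg) (h4 : finrank F W = 4)
    (hc : ((2 : F) ≠ 0 ∧ Fintype.card ι = 7) ∨
      (Fintype.card ι = 8 ∧ PlusAt S W ∧ NoLine S (S.perp W))) (M : Subgroup (GL ι F))
    (hM : M.comap (toGL S) = S.stab W) : Cfsg.Geo.IsMaximalIn (EGL S) (M ⊓ EGL S) := by
  have hd := hS.finrank_perp W
  rw [← Module.finrank_fintype_fun_eq_card F] at hc
  apply isMaximalIn_EGL
  · obtain ⟨g, hg, x, hx, h, -⟩ := exists_E_not_stab_nd (iso3_orth S) hW (by omega) (fun h => by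
      rw [h, finrank_bot] at hd
      rcases hc with h | h <;> omega)
    refine ⟨g, hg, fun hm => h ?_⟩
    have : g ∈ M.comap (toGL S) := hm
    rw [hM] at this
    exact (this x).1 hx
  · intro H h1 h2
    rw [hM] at h1 ⊢
    exact nd4_stab hS hW h4 hc h1 h2

end H23.OR
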