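import Cfsg.Agent.H29.RatC
import Cfsg.Agent.H11.Spin

/-! Subfield subgroups of `Ω_n(q)` for `n ≥ 7`: `dichotomy7`, `rat_of_fix` (stabilisers of rational
singular points are rational), `lemK` (torus argument on a totally singular line), `final7`,
`isMaximalIn_rat7`. -/

set_option autoImplicit false
set_option linter.unusedSectionVars false

namespace H23.OR
open H11 H11.PForm H29 Module Matrix
open scoped MatrixGroups

variable {F : Type*} [Field F] [Finite F] {V : Type*} [AddCommGroup V] [Module F V]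
  [FiniteDimensional F V] {S : PForm (orthP F) V} {ι : Type*} [Fintype ι] {F₀ : Subfield F}
  {b : Basis ι F V} {H : Subgroup S.Isom}

theorem exists_inL7 (R : Rat S F₀ b) (hS : S.Nondeg) (hn : 7 ≤ finrank F V) (hH : HR F₀ b H)
    (hB : ¬ BR F₀ b H) : ∃ l, l ∉ F₀ ∧ InL F₀ b H l := by
  unfold BR at hB
  push Not at hB
  obtain ⟨e, he, he0, hs, v, hv, hc⟩ := hB
  obtain ⟨y, hy, hys, hey, hyv⟩ : ∃ y ∈ V0 F₀ b, S.Sing y ∧ S.h e y = 0 ∧ S.h y v ∉ F₀ := by
    by_contra hcon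
    push Not at hcon
    have key : ∀ y ∈ V0 F₀ b, S.h e y = 0 → S.h y v ∈ F₀ := fun y hy hey =>
      R.span_sing0 hS (by omega) he
        (F₀.toAddSubgroup.comap (S.h.flip v).toAddMonoidHom) hcon hy hey
    obtain ⟨f, hf, -, hfe⟩ := R.exists_dual hS [] (by simp) he (by simpa using he0)
    have hef : S.h e f = 1 := by rw [orth_symm, hfe]
    apply hc (-S.h f v)
    apply R.mem_V0_of_h hS
    intro y hy
    have h1 : S.h e (y - S.h e y • f) = 0 := by simp [hef]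
    have h2 := key _ ((V0 F₀ b).sub_mem hy (V0_smul (R.h_mem _ he _ hy) hf)) h1
    convert h2 using 1
    simp only [map_add, map_sub, map_smul, smul_eq_mul, LinearMap.sub_apply, LinearMap.smul_apply,
      orth_symm S e y]
    ring
  obtain ⟨w, hw, hws, h1, hwe⟩ := R.exists_sing0 hS [e, y] [e, y] (by simp [he, hy])
    (by simp [he, hy]) (by simp; omega)
  obtain ⟨a, ha, h2, has, h3⟩ := R.exists_partner0 hS [e, y] (by simp [he, hy]) hw hws hwe h1
  simp only [List.mem_cons, List.not_mem_nil, or_false, forall_eq_or_imp, forall_eq] at h1 h2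
  have k1 := BSet_map (hu' := hs) hv (hH w hw y hy 0 F₀.zero_mem)
    (eich_apply_of_perp_perp (S.h_swap_zero h1.1) (S.h_swap_zero hey))
  have hz := (BSet H hs).sub_mem k1 hv
  have k2 := BSet_map (hu' := hs) hz (hH y hy a ha 0 F₀.zero_mem)
    (eich_apply_of_perp_perp (S.h_swap_zero hey) (S.h_swap_zero h2.1))
  have hz' := (BSet H hs).sub_mem k2 hz
  refine ⟨S.h y v, hyv, R.inL_of hS hn hH he he0 hs hy hey (fun h => hyv ?_) ?_⟩
  · obtain ⟨c, rfl⟩ := Submodule.mem_span_singleton.1 h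
    simp [BSet_perp hv]
  · convert hz' using 1
    rw [eich_zero_apply rfl hws hys (S.h_swap_zero h1.2), add_sub_cancel_left,
      eich_zero_apply rfl hys has h2.2]
    simp [hys.h_self, h1.2, S.h_swap_zero h2.2, orth_symm S w a, h3]

theorem dichotomy7 (R : Rat S F₀ b) (hS : S.Nondeg) (hn : 7 ≤ finrank F V)
    (hr : (finrank F₀ F).Prime) (hH : HR F₀ b H) : S.E ≤ H ∨ BR F₀ b H := by
  by_cases hB : BR F₀ b H
  · exact Or.inr hB
  left
  obtain ⟨l, hl0, hl⟩ := exists_inL7 R hS hn hH hB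
  have h0 : ∀ c ∈ F₀, InL F₀ b H c := fun c hc e he _ hs y hy hey =>
    ⟨0, by simpa using R.mem_BSet0 hH he hs (V0_smul hc hy) (by simp [hey])⟩
  let L : Subring F :=
    { carrier := {l | InL F₀ b H l}
      mul_mem' := fun {x y} hx hy => R.inL_mul hS hn hH hx hy
      one_mem' := h0 1 F₀.one_mem
      add_mem' := fun {x y} hx hy e he he0 hs z hz hez => by
        obtain ⟨c, hc⟩ := hx e he he0 hs z hz hez
        obtain ⟨d, hd⟩ := hy e he he0 hs z hz hez
        refine ⟨c + d, ?_⟩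
        convert (BSet H hs).add_mem hc hd using 1
        module
      zero_mem' := h0 0 F₀.zero_mem
      neg_mem' := fun {x} hx e he he0 hs z hz hez => by
        obtain ⟨c, hc⟩ := hx e he he0 hs z hz hez
        refine ⟨-c, ?_⟩
        convert (BSet H hs).neg_mem hc using 1
        module }
  have hL : ∀ l, InL F₀ b H l := fun x => by
    have : x ∈ L := (subring_eq_top hr L h0 hl hl0) ▸ Subring.mem_top x
    exact this
  obtain ⟨e, he, hs, -, he0⟩ := R.exists_sing0 hS [] [] (by simp) (by simp) (by simp; omega)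
  obtain ⟨f, hf, -, hfs, hef⟩ := R.exists_partner0 hS [] (by simp) he hs he0 (by simp)
  have hf0 : f ≠ 0 := by rintro rfl; simp at hef
  rw [E_le_iff]
  intro u v a _
  exact full_all_of_pair hS hs hfs (R.full_of_inL hS hn hH hL he (ne_zero_of_notMem he0) hs)
    (R.full_of_inL hS hn hH hL hf hf0 hfs) (by simp [hef]) u v a

/-- `k` preserves the rational vectors -/
def IsRat (F₀ : Subfield F) (b : Basis ι F V) (k : S.Isom) : Prop :=
  ∀ x ∈ V0 F₀ b, k.1 x ∈ V0 F₀ b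

theorem mem_of_h (R : Rat S F₀ b) {x e a : V} {c : F} (he : e ∈ V0 F₀ b) (ha : a ∈ V0 F₀ b)
    (h : x + c • e ∈ V0 F₀ b) (h1 : S.h a e ≠ 0) (h2 : S.h a x ∈ F₀) : x ∈ V0 F₀ b := by
  have h3 := F₀.div_mem (F₀.sub_mem (R.h_mem a ha _ h) h2) (R.h_mem a ha e he)
  rw [map_add, map_smul, smul_eq_mul, add_sub_cancel_left, mul_div_cancel_right₀ _ h1] at h3
  simpa using (V0 F₀ b).sub_mem h (V0_smul h3 he)

theorem bset_scale (R : Rat S F₀ b) (hH : HR F₀ b H) (hB : BR F₀ b H) {e : V} (he : e ∈ V0 F₀ b)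
    (he0 : e ≠ 0) (hs : S.Sing e) {k : S.Isom} (hk : k ∈ H) {s : F} (hke : k.1 e = s • e) {v : V}
    (hv : v ∈ V0 F₀ b) (hev : S.h e v = 0) : ∃ c : F, s • k.1 v + c • e ∈ V0 F₀ b := by
  have hs0 : s ≠ 0 := by rintro rfl; exact he0 (by simpa using hke)
  exact hB e he he0 hs _ (BSet_smul (hu := hs) hs0
    (BSet_map (hu' := hs.smul s) (R.mem_BSet0 hH he hs hv hev) hk hke))

theorem sq_mem (R : Rat S F₀ b) (hS : S.Nondeg) (hn : 7 ≤ finrank F V) (hH : HR F₀ b H)
    (hB : BR F₀ b H) {e : V} (he : e ∈ V0 F₀ b) (he0 : e ≠ 0) (hs : S.Sing e) {k : S.Isom}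
    (hk : k ∈ H) {s : F} (hke : k.1 e = s • e) : s * s ∈ F₀ := by
  have hs0 : s ≠ 0 := by rintro rfl; exact he0 (by simpa using hke)
  obtain ⟨v, hv, -, h1, h2⟩ := R.exists_sing0 hS [e] [e] (by simpa) (by simpa) (by simp; omega)
  obtain ⟨v', hv', h3, h4⟩ := R.exists_dual hS [e] (by simpa) hv h2
  replace h1 := h1 e (by simp)
  replace h3 := S.h_swap_zero (h3 e (by simp))
  obtain ⟨c, hc⟩ := bset_scale R hH hB he he0 hs hk hke hv h1
  obtain ⟨c', hc'⟩ := bset_scale R hH hB he he0 hs hk hke hv' h3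
  have key : ∀ v, S.h e v = 0 → S.h e (k.1 v) = 0 := fun v h => by
    have := isom_h k e v
    rw [hke, h] at this
    simpa [hs0] using this
  convert R.h_mem _ hc' _ hc using 1
  simp [h4, key v h1, S.h_swap_zero (key v' h3), hs.h_self]

theorem rat_of_fix (R : Rat S F₀ b) (hS : S.Nondeg) (hH : HR F₀ b H) (hB : BR F₀ b H)
    (hM : ∀ k ∈ S.E, IsRat F₀ b k → k ∈ H) (hHE : H ≤ S.E) {e : V} (he : e ∈ V0 F₀ b) (he0 : e ≠ 0)
    (hs : S.Sing e) {k : S.Isom} (hk : k ∈ H) {s : F} (hs' : s ∈ F₀) (hke : k.1 e = s • e) :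
    IsRat F₀ b k := by
  have hs0 : s ≠ 0 := by rintro rfl; exact he0 (by simpa using hke)
  obtain ⟨f, hf, -, hfs, hef⟩ := R.exists_partner0 hS [] (by simp) he hs (by simpa using he0)
    (by simp)
  have hfe : S.h f e = 1 := by rw [orth_symm, hef]
  have hv : ∀ v ∈ V0 F₀ b, S.h e v = 0 → ∃ c : F, k.1 v + c • e ∈ V0 F₀ b := fun v hv hev => by
    obtain ⟨c, hc⟩ := bset_scale R hH hB he he0 hs hk hke hv hev
    refine ⟨s⁻¹ * c, ?_⟩
    have := V0_smul (F₀.inv_mem hs') hc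
    rwa [smul_add, smul_smul, smul_smul, inv_mul_cancel₀ hs0, one_smul] at this
  have three : ∀ g : S.Isom, g.1 e = s • e → g.1 f ∈ V0 F₀ b →
      (∀ v ∈ V0 F₀ b, S.h e v = 0 → ∃ c : F, g.1 v + c • e ∈ V0 F₀ b) → IsRat F₀ b g := by
    intro g h1 h2 h3 x hx
    have m1 := V0_smul (R.h_mem _ he _ hx) hf
    have m2 := (V0 F₀ b).sub_mem hx m1
    obtain ⟨c, hc⟩ := h3 _ m2 (by simp [hef])
    have h4 : S.h (g.1 f) e ≠ 0 := fun h => by
      have := isom_h g f e
      rw [h1, map_smul, h, hfe] at this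
      simp at this
    have := mem_of_h R he h2 hc h4 (by rw [isom_h]; exact R.h_mem _ hf _ m2)
    simpa using (V0 F₀ b).add_mem this (V0_smul (R.h_mem _ he _ hx) h2)
  have h1 : S.h e (k.1 f) = s⁻¹ := by
    have := isom_h k e f
    rw [hke, hef, map_smul, LinearMap.smul_apply, smul_eq_mul] at this
    exact eq_inv_of_mul_eq_one_right this
  obtain ⟨a, hc, hq⟩ := eich_trans hs (x := s⁻¹ • f) (y := k.1 f) (by simp [hef, hs0])
    (by simp [h1, hef]) ((orthP F).Λ.sub_mem ((isom_sing k f).2 hfs) (hfs.smul _))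
  set w := (S.h e (s⁻¹ • f))⁻¹ • (k.1 f - s⁻¹ • f) with hw
  have hl : IsRat F₀ b ((S.eich e w a)⁻¹ * k) := by
    refine three _ ?_ ?_ fun v hv' hev => ?_
    · rw [isom_mul_apply, hke, map_smul, eich_inv hc, eich_apply_self]
    · rw [isom_mul_apply, ← hq, isom_inv_apply_self]
      exact V0_smul (F₀.inv_mem hs') hf
    · obtain ⟨c, hc'⟩ := hv v hv' hev
      have : S.h e (k.1 v) = 0 := by
        have := isom_h k e v
        rw [hke, hev] at this
        simpa [hs0] using this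
      rw [isom_mul_apply, eich_inv hc, eich_apply_of_perp hc.neg this]
      exact ⟨c + (orthP F).ε * S.h (-w) (k.1 v), by convert hc' using 1; module⟩
  have hm := hM _ (S.E.mul_mem (S.E.inv_mem (S.eich_mem_E _ _ _)) (hHE hk)) hl
  have hm' : S.eich e w a ∈ H := by simpa using H.mul_mem hk (H.inv_mem hm)
  obtain ⟨c, hc'⟩ := hB e he he0 hs w ⟨a, hc, hm'⟩
  refine three k hke ?_ hv
  have h2 : k.1 f + (s⁻¹ * c) • e ∈ V0 F₀ b := by
    convert V0_smul (F₀.inv_mem hs') ((V0 F₀ b).add_mem hc' hf) using 1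
    rw [hw, map_smul, hef, smul_eq_mul, mul_one, inv_inv]
    match_scalars <;> field_simp
    ring
  obtain ⟨q, hq0, hq'⟩ := R.q_mem _ h2
  have h3 : q = s⁻¹ * c * s⁻¹ := by
    have : q = S.q (k.1 f + (s⁻¹ * c) • e) := by simpa [sub_eq_zero] using hq'
    rw [this, orth_q_add, orth_q_smul, orth_isom_q, (orth_sing S f).1 hfs, (orth_sing S e).1 hs,
      map_smul, orth_symm, h1]
    simp
  have h4 : s⁻¹ * c ∈ F₀ := by
    have := F₀.mul_mem hq0 hs'
    rwa [h3, inv_mul_cancel_right₀ hs0] at this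
  simpa using (V0 F₀ b).sub_mem h2 (V0_smul h4 he)

theorem mem_of_quad (hr : (finrank F₀ F).Prime) (h2 : finrank F₀ F ≠ 2) {s p q : F}
    (hp : p ∈ F₀) (hq : q ∈ F₀) (h : s * s = p * s + q) : s ∈ F₀ := by
  by_contra hs
  let A := Submodule.span F₀ ({1, s} : Set F)
  let L : Subring F :=
    { carrier := {x | x ∈ A}
      mul_mem' := fun {x y} hx hy => by
        obtain ⟨a, b, rfl⟩ := Submodule.mem_span_pair.1 hx
        obtain ⟨c, d, rfl⟩ := Submodule.mem_span_pair.1 hy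
        exact Submodule.mem_span_pair.2 ⟨a * c + b * d * ⟨q, hq⟩, a * d + b * c + b * d * ⟨p, hp⟩, by
          simp only [Subfield.smul_def, smul_eq_mul, Subfield.coe_add, Subfield.coe_mul]
          linear_combination (-(b : F) * d) * h⟩
      one_mem' := Submodule.subset_span (by simp)
      add_mem' := fun hx hy => A.add_mem hx hy
      zero_mem' := A.zero_mem
      neg_mem' := fun hx => A.neg_mem hx }
  have hL := subring_eq_top hr L (fun c hc => Submodule.mem_span_pair.2 ⟨⟨c, hc⟩, 0, by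
    simp [Subfield.smul_def]⟩) (l := s) (Submodule.subset_span (by simp)) hs
  have h1 : Submodule.span F₀ ({1, s} : Set F) = ⊤ := by
    rw [eq_top_iff]
    intro x _
    have : x ∈ L := hL ▸ Subring.mem_top x
    exact this
  have h3 := finrank_span_two_le (F := F₀) (1 : F) s
  rw [h1, finrank_top] at h3
  have := hr.two_le
  omega

theorem frob_sq (hr : (finrank F₀ F).Prime) (h2 : finrank F₀ F ≠ 2) {τ : F →+* F}
    (hτ : ∀ x, τ x = x ↔ x ∈ F₀) (x : F) : (τ.comp τ) x = x ↔ x ∈ F₀ := by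
  refine ⟨fun h => ?_, fun h => by simp [(hτ x).2 h]⟩
  rw [RingHom.comp_apply] at h
  exact mem_of_quad hr h2 (p := x + τ x) (q := -(x * τ x))
    ((hτ _).1 (by simp only [map_add, h]; ring))
    ((hτ _).1 (by simp only [map_neg, map_mul, h]; ring)) (by ring)

theorem tau_comp (τ : F →+* F) (x : V) : tau (τ.comp τ) b x = tau τ b (tau τ b x) :=
  b.repr.injective (by ext i; simp [repr_tau])

theorem rat_of_fix' (R : Rat S F₀ b) (hS : S.Nondeg) (hn : 7 ≤ finrank F V)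
    (hr : (finrank F₀ F).Prime) (h2 : finrank F₀ F ≠ 2) (hH : HR F₀ b H) (hB : BR F₀ b H)
    (hM : ∀ k ∈ S.E, IsRat F₀ b k → k ∈ H) (hHE : H ≤ S.E) {e : V} (he : e ∈ V0 F₀ b) (he0 : e ≠ 0)
    (hs : S.Sing e) {k : S.Isom} (hk : k ∈ H) {s : F} (hke : k.1 e = s • e) : IsRat F₀ b k :=
  rat_of_fix R hS hH hB hM hHE he he0 hs hk (mem_of_quad hr h2 F₀.zero_mem
    (sq_mem R hS hn hH hB he he0 hs hk hke) (by simp)) hke

theorem torus_line {e u : V} (he : S.Sing e) (hu : S.Sing u) (heu : S.h e u = 0) {z : V}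
    (hx : S.eich u z (S.q z) ∈ H) (huz : S.h u z = 0) (hz : S.h z e = -1) {w₁ w₂ : V}
    (h₁ : S.eich e w₁ (S.q w₁) ∈ H) (h₂ : S.eich e w₂ (S.q w₂) ∈ H) (e₁ : S.h e w₁ = 0)
    (e₂ : S.h e w₂ = 0) (b₁ : S.h w₁ u ≠ 0) (b₂ : S.h w₂ u ≠ 0) (hne : S.h w₁ u ≠ S.h w₂ u) :
    ∃ k ∈ H, ∃ s μ : F, s ≠ 1 ∧ s ≠ 0 ∧ k.1 e = s • e ∧ k.1 u = s⁻¹ • u + μ • e ∧
      ∀ y, S.h e y = 0 → S.h u y = 0 → k.1 y - y ∈ Submodule.span F {e, u} := by
  set L := Submodule.span F {e, u} with hL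
  have me : e ∈ L := Submodule.subset_span (by simp)
  have mu : u ∈ L := Submodule.subset_span (by simp)
  have hLp : ∀ x ∈ L, S.h e x = 0 ∧ S.h u x = 0 := fun x hx => by
    obtain ⟨s, t, rfl⟩ := Submodule.mem_span_pair.1 hx
    simp [he.h_self, hu.h_self, heu, S.h_swap_zero heu]
  let N : Submonoid SL(2, F) :=
    { carrier := {M | ∃ k ∈ H, k.1 e = M.1 0 0 • e + M.1 1 0 • u ∧ k.1 u = M.1 0 1 • e + M.1 1 1 • u ∧
        ∀ y, S.h e y = 0 → S.h u y = 0 → k.1 y - y ∈ L}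
      one_mem' := ⟨1, H.one_mem, by simp, by simp, fun y _ _ => by simp⟩
      mul_mem' := by
        rintro M M' ⟨k, hk, a1, a2, a3⟩ ⟨k', hk', b1, b2, b3⟩
        refine ⟨k * k', H.mul_mem hk hk', ?_, ?_, fun y hy hy' => ?_⟩
        · simp only [Matrix.SpecialLinearGroup.coe_mul, Matrix.mul_apply, Fin.sum_univ_two,
            isom_mul_apply, b1, map_add, map_smul, a1, a2]
          module
        · simp only [Matrix.SpecialLinearGroup.coe_mul, Matrix.mul_apply, Fin.sum_univ_two,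
            isom_mul_apply, b2, map_add, map_smul, a1, a2]
          module
        · have c1 := b3 y hy hy'
          obtain ⟨c2, c3⟩ := hLp _ c1
          rw [map_sub, hy, sub_zero] at c2
          rw [map_sub, hy', sub_zero] at c3
          simpa using L.add_mem (a3 _ c2 c3) c1 }
  let G : Subgroup SL(2, F) :=
    { N with
      inv_mem' := fun {M} hM => by
        have : M⁻¹ = M ^ (orderOf M - 1) := inv_eq_of_mul_eq_one_right (by
          rw [← pow_succ', Nat.sub_add_cancel (orderOf_pos M), pow_orderOf_eq_one])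
        rw [this]
        exact N.pow_mem hM _ }
  have hR : ∀ w, S.eich e w (S.q w) ∈ H → S.h e w = 0 → slR (-S.h w u) ∈ G := by
    intro w hw hew
    have hc := ECond.of_q he hew
    refine ⟨_, hw, by simp [slR_coe, eich_apply_self], ?_, fun y hy _ => ?_⟩
    · rw [eich_apply_of_perp hc heu]
      simp [slR_coe, sub_eq_neg_add]
    · rw [eich_apply_of_perp hc hy, sub_sub_cancel_left]
      exact L.neg_mem (L.smul_mem _ me)
  have hc := ECond.of_q hu huz
  obtain ⟨M, ⟨k, hk, a1, a2, a3⟩, h0, h1⟩ := sl2_torus G ⟨_, hx, by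
      rw [eich_apply_of_perp hc (S.h_swap_zero heu), hz]; simp [slL_coe],
      by simp [slL_coe, eich_apply_self], fun y _ hy => by
      rw [eich_apply_of_perp hc hy, sub_sub_cancel_left]
      exact L.neg_mem (L.smul_mem _ mu)⟩ (hR w₁ h₁ e₁) (hR w₂ h₂ e₂) (neg_ne_zero.2 b₁)
    (neg_ne_zero.2 b₂) (fun h => hne (neg_inj.1 h))
  have hd := M.2
  rw [det_fin_two, h0, mul_zero, sub_zero] at hd
  refine ⟨k, hk, M.1 0 0, M.1 0 1, h1, left_ne_zero_of_mul_eq_one hd, by simpa [h0] using a1, ?_, a3⟩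
  rw [a2, add_comm, eq_inv_of_mul_eq_one_right hd]

theorem q_mem' (R : Rat S F₀ b) {x : V} (hx : x ∈ V0 F₀ b) : S.q x ∈ F₀ := by
  obtain ⟨a, ha, h⟩ := R.q_mem x hx
  have : a = S.q x := by simpa [sub_eq_zero] using h
  exact this ▸ ha

theorem q_tau (R : Rat S F₀ b) {τ : F →+* F} (hτ : ∀ x, τ x = x ↔ x ∈ F₀) (x : V) :
    S.q (tau τ b x) = τ (S.q x) := by
  let T : Submodule F V :=
    { carrier := {x | S.q (tau τ b x) = τ (S.q x)}
      add_mem' := fun {x y} hx hy => by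
        simp only [Set.mem_setOf_eq] at hx hy ⊢
        rw [map_add, orth_q_add, orth_q_add, hx, hy, R.h_tau hτ (fun _ => rfl), map_add, map_add]
      zero_mem' := by simp [orth_q_zero]
      smul_mem' := fun c x hx => by
        simp only [Set.mem_setOf_eq] at hx ⊢
        rw [tau_smul, orth_q_smul, orth_q_smul, hx, map_mul, map_pow] }
  exact V0_induction (F₀ := F₀) (b := b) T (fun y hy => by
    change S.q (tau τ b y) = τ (S.q y)
    rw [(tau_eq_self_iff hτ).2 hy, (hτ _).2 (q_mem' R hy)]) x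

theorem tau_sq_mem (R : Rat S F₀ b) (hS : S.Nondeg) {τ : F →+* F} (hτ : ∀ x, τ x = x ↔ x ∈ F₀)
    {e u : V} (he : e ∈ V0 F₀ b) (hs : S.Sing e) (hu : S.Sing u) (heu : S.h e u = 0)
    (hue : u ∉ F ∙ e) {k : S.Isom} (hk : IsRat F₀ b k) {s μ : F} (s1 : s ≠ 1) (s0 : s ≠ 0)
    (k1 : k.1 e = s • e) (k2 : k.1 u = s⁻¹ • u + μ • e)
    (k3 : ∀ y, S.h e y = 0 → S.h u y = 0 → k.1 y - y ∈ Submodule.span F {e, u}) :
    tau τ b (tau τ b u) ∈ Submodule.span F {e, u} := by
  have hc : ∀ x, tau τ b (k.1 x) = k.1 (tau τ b x) :=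
    tau_comm (φ := τ) hτ (k := (k.1 : V →ₗ[F] V)) hk
  have te := (tau_eq_self_iff (b := b) hτ).2 he
  have hh := R.h_tau hτ (fun _ => rfl)
  obtain ⟨t, ht, hut⟩ := hS.exists_perp_of_notMem' hue 1
  rw [S.mem_perp_singleton] at ht
  have p1 : ∀ x, S.h e x = 0 → S.h e (k.1 x) = 0 := fun x h => by
    have := isom_h k e x
    rw [k1, h] at this
    simpa [s0] using this
  have p2 : S.h u (k.1 t - t) = s - 1 := by
    have := isom_h k u t
    rw [k2, hut] at this
    simp only [map_add, map_smul, LinearMap.add_apply, LinearMap.smul_apply, p1 t ht, smul_eq_mul,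
      mul_zero, add_zero] at this
    rw [map_sub, hut, ← mul_one s, ← this, mul_inv_cancel_left₀ s0]
  have p3 : S.h e (k.1 t - t) = 0 := by simp [p1 t ht, ht]
  have hA : ∀ x, (∃ y, S.h e y = 0 ∧ ∃ c : F, x = k.1 y - y + c • e) →
      ∃ α β γ : F, x = α • e + β • u + γ • (k.1 t - t) := by
    rintro _ ⟨y, hy, c, rfl⟩
    obtain ⟨α, β, h⟩ := Submodule.mem_span_pair.1
      (k3 (y - S.h u y • t) (by simp [hy, ht]) (by simp [hut]))
    refine ⟨α + c, β, S.h u y, ?_⟩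
    rw [map_sub, map_smul] at h
    linear_combination (norm := module) -h
  have hT : ∀ x, (∃ y, S.h e y = 0 ∧ ∃ c : F, x = k.1 y - y + c • e) →
      ∃ y, S.h e y = 0 ∧ ∃ c : F, tau τ b x = k.1 y - y + c • e := by
    rintro _ ⟨y, hy, c, rfl⟩
    refine ⟨tau τ b y, by rw [← te, hh, hy, map_zero], τ c, ?_⟩
    rw [map_add, map_sub, hc, tau_smul, te]
  have s2 : s⁻¹ - 1 ≠ 0 := sub_ne_zero.2 (by simpa using s1)
  have u0 : ∃ y, S.h e y = 0 ∧ ∃ c : F, u = k.1 y - y + c • e :=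
    ⟨(s⁻¹ - 1)⁻¹ • u, by simp [heu], -((s⁻¹ - 1)⁻¹ * μ), by
      rw [map_smul, k2]
      match_scalars
      · field_simp
      · ring⟩
  obtain ⟨α, β, γ, h1⟩ := hA _ (hT _ u0)
  obtain ⟨α', β', γ', h2⟩ := hA _ (hT _ (hT _ u0))
  have hq := q_tau R hτ
  have key : tau τ b u ∈ Submodule.span F {e, u} → tau τ b (tau τ b u) ∈ Submodule.span F {e, u} := by
    intro h
    obtain ⟨a, c, h3⟩ := Submodule.mem_span_pair.1 h
    rw [← h3, map_add, tau_smul, tau_smul, te]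
    exact Submodule.add_mem _ (Submodule.smul_mem _ _ (Submodule.subset_span (by simp)))
      (Submodule.smul_mem _ _ h)
  by_cases hγ : γ = 0
  · exact key (Submodule.mem_span_pair.2 ⟨α, β, by rw [h1, hγ]; simp⟩)
  by_cases hγ' : γ' = 0
  · exact Submodule.mem_span_pair.2 ⟨α', β', by rw [h2, hγ']; simp⟩
  have q0 : ∀ α β γ : F, S.q (α • e + β • u + γ • (k.1 t - t)) = 0 → γ ≠ 0 →
      γ * S.q (k.1 t - t) + β * (s - 1) = 0 := fun α β γ h hγ => by
    generalize k.1 t - t = d at *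
    simp only [orth_q_add, orth_q_smul, (orth_sing S e).1 hs, (orth_sing S u).1 hu, map_smul,
      map_add, LinearMap.add_apply, LinearMap.smul_apply, heu, p2, p3, smul_eq_mul] at h
    exact mul_left_cancel₀ hγ (by linear_combination h)
  have q1 := q0 α β γ (by rw [← h1, hq, (orth_sing S u).1 hu, map_zero]) hγ
  have q2 := q0 α' β' γ' (by rw [← h2, hq, hq, (orth_sing S u).1 hu, map_zero, map_zero]) hγ'
  have q3 : β' * γ = β * γ' :=
    mul_right_cancel₀ (sub_ne_zero.2 s1) (by linear_combination γ * q2 - γ' * q1)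
  obtain ⟨a, ha⟩ := Finite.injective_iff_surjective.1 τ.injective (α' - γ' / γ * α)
  obtain ⟨c, hc'⟩ := Finite.injective_iff_surjective.1 τ.injective (γ' / γ)
  refine key (Submodule.mem_span_pair.2 ⟨a, c, tau_injective (φ := τ) (b := b) ?_⟩)
  rw [map_add, tau_smul, tau_smul, te, ha, hc', h2, h1]
  match_scalars <;> field_simp
  · ring
  · linear_combination -q3

section Odd
variable (R : Rat S F₀ b) (hS : S.Nondeg) (hn : 7 ≤ finrank F V) (hr : (finrank F₀ F).Prime)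
  (h2 : finrank F₀ F ≠ 2) (hH : HR F₀ b H) (hB : BR F₀ b H)
  (hM : ∀ k ∈ S.E, IsRat F₀ b k → k ∈ H) (hHE : H ≤ S.E) {τ : F →+* F}
  (hτ : ∀ x, τ x = x ↔ x ∈ F₀)
include R hS hn hr h2 hH hB hM hHE hτ

theorem lemK0 {e u z : V} (he : e ∈ V0 F₀ b) (he0 : e ≠ 0) (hs : S.Sing e) (hu : S.Sing u)
    (heu : S.h e u = 0) (hue : u ∉ F ∙ e) (hx : S.eich u z (S.q z) ∈ H) (huz : S.h u z = 0)
    (hz : S.h z e = -1) : tau τ b (tau τ b u) ∈ Submodule.span F {e, u} := by
  obtain ⟨w, hw, hew, hwu⟩ : ∃ w ∈ V0 F₀ b, S.h e w = 0 ∧ S.h w u ≠ 0 := by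
    by_contra hc
    push Not at hc
    obtain ⟨t, ht, hut⟩ := hS.exists_perp_of_notMem' hue 1
    have := R.span_perp hS he (LinearMap.ker (S.h u))
      (fun y hy h => S.h_swap_zero (hc y hy h)) (S.mem_perp_singleton.1 ht)
    simp [hut] at this
  by_cases h : ∃ w' ∈ V0 F₀ b, S.h e w' = 0 ∧ S.h w' u ≠ 0 ∧ S.h w' u ≠ S.h w u
  · obtain ⟨w', hw', hew', hwu', hne⟩ := h
    obtain ⟨k, hk, s, μ, s1, s0, k1, k2, k3⟩ := torus_line hs hu heu hx huz hz
      (hH e he w' hw' _ (q_mem' R hw')) (hH e he w hw _ (q_mem' R hw)) hew' hew hwu' hwu hne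
    exact tau_sq_mem R hS hτ he hs hu heu hue (rat_of_fix' R hS hn hr h2 hH hB hM hHE he he0 hs hk k1)
      s1 s0 k1 k2 k3
  push Not at h
  obtain ⟨f, hf, -, hfe⟩ := R.exists_dual hS [] (by simp) he (by simpa using he0)
  have hef : S.h e f = 1 := by rw [orth_symm, hfe]
  have h1 : (S.h w u)⁻¹ • (u - S.h f u • e) ∈ V0 F₀ b := by
    apply R.mem_V0_of_h hS
    intro y hy
    have h1 : S.h e (y - S.h e y • f) = 0 := by simp [hef]
    have h3 := h _ ((V0 F₀ b).sub_mem hy (V0_smul (R.h_mem _ he _ hy) hf)) h1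
    have h4 : S.h y (u - S.h f u • e) = S.h (y - S.h e y • f) u := by
      simp only [map_sub, map_smul, smul_eq_mul, LinearMap.sub_apply, LinearMap.smul_apply,
        orth_symm S e y]
      ring
    rw [map_smul, h4, smul_eq_mul]
    by_cases h0 : S.h (y - S.h e y • f) u = 0
    · rw [h0, mul_zero]; exact F₀.zero_mem
    · rw [h3 h0, inv_mul_cancel₀ hwu]; exact F₀.one_mem
  have te := (tau_eq_self_iff (b := b) hτ).2 he
  have h3 := (tau_eq_self_iff (b := b) hτ).2 h1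
  rw [tau_smul, map_sub, tau_smul, te, map_inv₀, inv_smul_eq_iff₀ (by simpa using hwu),
    sub_eq_iff_eq_add] at h3
  have me : e ∈ Submodule.span F {e, u} := Submodule.subset_span (by simp)
  have mu : u ∈ Submodule.span F {e, u} := Submodule.subset_span (by simp)
  have h4 : tau τ b u ∈ Submodule.span F {e, u} := by
    rw [h3]
    exact Submodule.add_mem _ (Submodule.smul_mem _ _ (Submodule.smul_mem _ _
      (Submodule.sub_mem _ mu (Submodule.smul_mem _ _ me)))) (Submodule.smul_mem _ _ me)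
  obtain ⟨a, c, h5⟩ := Submodule.mem_span_pair.1 h4
  rw [← h5, map_add, tau_smul, tau_smul, te]
  exact Submodule.add_mem _ (Submodule.smul_mem _ _ me) (Submodule.smul_mem _ _ h4)

theorem lemK {g : S.Isom} (hg : g ∈ H) {e e₀ : V} (he₀ : e₀ ∈ V0 F₀ b) (hs₀ : S.Sing e₀)
    (he : e ∈ V0 F₀ b) (he0 : e ≠ 0) (hs : S.Sing e) (heu : S.h e (g.1 e₀) = 0)
    (hue : g.1 e₀ ∉ F ∙ e) : tau (τ.comp τ) b (g.1 e₀) ∈ Submodule.span F {g.1 e₀, e} := by
  obtain ⟨z, hz, hez, hze⟩ : ∃ z ∈ V0 F₀ b, S.h e₀ z = 0 ∧ S.h (g.1 z) e ≠ 0 := by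
    by_contra hc
    push Not at hc
    obtain ⟨t, ht, hut⟩ := hS.exists_perp_of_notMem' (notMem_symm he0 hue) 1
    have := R.span_perp hS he₀ (LinearMap.ker (S.h ((g⁻¹).1 e)))
      (fun y hy h => by
        rw [LinearMap.mem_ker, ← isom_h_right]; exact S.h_swap_zero (hc y hy h))
      (x := (g⁻¹).1 t) (by rw [← isom_h_left]; exact S.mem_perp_singleton.1 ht)
    rw [LinearMap.mem_ker, isom_h, hut] at this
    exact one_ne_zero this
  have hx := H.mul_mem (H.mul_mem hg (hH e₀ he₀ z hz _ (q_mem' R hz))) (H.inv_mem hg)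
  rw [orth_conj_eich] at hx
  have hus : S.Sing (g.1 e₀) := (isom_sing g e₀).2 hs₀
  have huz : S.h (g.1 e₀) (g.1 z) = 0 := by rw [isom_h, hez]
  generalize g.1 e₀ = u at *
  generalize g.1 z = z at *
  have hc : -S.h z e ≠ 0 := neg_ne_zero.2 hze
  have := lemK0 R hS hn hr h2 hH hB hM hHE hτ he he0 hs (hus.smul (-S.h z e)) (by simp [heu])
    (fun h => hue ((Submodule.smul_mem_iff _ hc).1 h)) (z := (-S.h z e)⁻¹ • z) (by
      rw [eich_smul (ECond.of_q hus (by simp [huz]))]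
      convert hx using 2
      · simp [smul_smul, hze]
      · rw [orth_q_smul]; simp only [RingHom.id_apply]; field_simp) (by simp [huz])
    (by simp only [map_smul, LinearMap.smul_apply, smul_eq_mul]; field_simp)
  rw [tau_smul, tau_smul, Submodule.smul_mem_iff _ (by simpa using hze)] at this
  obtain ⟨a, c, h⟩ := Submodule.mem_span_pair.1 this
  rw [tau_comp]
  exact Submodule.mem_span_pair.2 ⟨c * -S.h z e, a, by rw [← h]; module⟩

theorem lemKp {g : S.Isom} (hg : g ∈ H) {e e₀ : V} (he₀ : e₀ ∈ V0 F₀ b) (hs₀ : S.Sing e₀)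
    (he : e ∈ V0 F₀ b) (he0 : e ≠ 0) (hs : S.Sing e) (heu : S.h e (g.1 e₀) = 0) :
    ∃ c : F, c ≠ 0 ∧ ∃ y ∈ V0 F₀ b, g.1 e₀ = c • y := by
  by_cases hue : g.1 e₀ ∈ F ∙ e
  · obtain ⟨c, hc⟩ := Submodule.mem_span_singleton.1 hue
    by_cases hc0 : c = 0
    · exact ⟨1, one_ne_zero, 0, Submodule.zero_mem _, by simp [← hc, hc0]⟩
    · exact ⟨c, hc0, e, he, hc.symm⟩
  have hφ := frob_sq hr h2 hτ
  have key := fun e he he0 hs heu hue =>
    lemK R hS hn hr h2 hH hB hM hHE hτ hg he₀ hs₀ (e := e) he he0 hs heu hue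
  generalize g.1 e₀ = u at *
  obtain ⟨f, hf, -, hfe⟩ := R.exists_dual hS [] (by simp) he (by simpa using he0)
  obtain ⟨a, c, h1⟩ := Submodule.mem_span_pair.1 (key e he he0 hs heu hue)
  have te := (tau_eq_self_iff (b := b) hφ).2 he
  have h3 := R.h_tau hφ (fun _ => rfl) f u
  rw [(tau_eq_self_iff (b := b) hφ).2 hf, ← h1] at h3
  simp only [map_add, map_smul, hfe, smul_eq_mul, mul_one] at h3
  obtain ⟨d, hd, y, hy, h4⟩ := exists_rat_of_tau (b := b) hφ (x := u - S.h f u • e)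
    (Submodule.mem_span_singleton.2 ⟨a, by
      rw [map_sub, tau_smul, te, ← h1, ← h3]; module⟩)
  obtain ⟨e', he', hs', a1, a2⟩ := R.exists_sing0 hS [e, y] [e, y] (by simp [he, hy])
    (by simp [he, hy]) (by simp; omega)
  simp only [List.mem_cons, List.not_mem_nil, or_false, forall_eq_or_imp, forall_eq] at a1
  rw [notMem_span_two] at a2
  have hu : u = S.h f u • e + d • y := by rw [← h4]; abel
  have a3 : e' ∉ Submodule.span F {u, e} := fun h => a2 (by
    obtain ⟨s, t, rfl⟩ := Submodule.mem_span_pair.1 h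
    exact Submodule.mem_span_pair.2 ⟨s * S.h f u + t, s * d, by
      conv_rhs => rw [hu]
      module⟩)
  have hu0 : u ≠ 0 := ne_zero_of_notMem hue
  refine exists_rat_of_tau hφ (mem_span_of_pairs a3 (notMem_symm he0 hue) (key e he he0 hs heu hue)
    (key e' he' (ne_zero_of_notMem a2) hs' ?_ (notMem_symm hu0 (notMem_of_pair_left a3))))
  rw [hu]
  simp [S.h_swap_zero a1.1, S.h_swap_zero a1.2]

end Odd

theorem final7 (R : Rat S F₀ b) (hS : S.Nondeg) (hn : 7 ≤ finrank F V) (hr : (finrank F₀ F).Prime)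
    (hM : ∀ k ∈ S.E, IsRat F₀ b k → k ∈ H) (hHE : H ≤ S.E) :
    S.E ≤ H ∨ ∀ g ∈ H, ∃ c : F, c ≠ 0 ∧ ∀ x ∈ V0 F₀ b, c⁻¹ • g.1 x ∈ V0 F₀ b := by
  have hH : HR F₀ b H := fun u hu v hv a ha =>
    hM _ (S.eich_mem_E u v a) fun x hx => R.eich_mem hu hv ha hx
  refine (dichotomy7 R hS hn hr hH).imp_right fun hB g hg => ?_
  obtain ⟨τ, hτ, -⟩ := exists_frob_sub F₀
  refine R.exists_scale hS hn g.1 fun e he hs => exists_rat_of_tau hτ ?_
  by_cases he0 : e = 0
  · simp [he0]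
  have key : ∀ e' ∈ V0 F₀ b, S.Sing e' → S.h e e' = 0 → IsRat F₀ b (S.eich (g.1 e) (g.1 e') 0) := by
    intro e' he' hs' hee
    have hx : S.eich (g.1 e) (g.1 e') 0 ∈ H := by
      rw [← conj_eich]
      exact H.mul_mem (H.mul_mem hg (hH e he e' he' 0 F₀.zero_mem)) (H.inv_mem hg)
    by_cases h2 : finrank F₀ F = 2
    · obtain ⟨ω, hω⟩ := Rat.exists_decomp_two (b := b) h2
      obtain ⟨u₁, a1, u₂, a2, hu⟩ := hω (g.1 e)
      obtain ⟨v₁, a3, v₂, a4, hv⟩ := hω (g.1 e')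
      obtain ⟨w, b1, s1, hw, i1⟩ := R.exists_sing0 hS [u₁, u₂, v₁, v₂] [] (by simp [a1, a2, a3, a4])
        (by simp) (by simp; omega)
      simp only [List.mem_cons, List.not_mem_nil, or_false, forall_eq_or_imp, forall_eq] at hw
      refine rat_of_fix R hS hH hB hM hHE b1 (ne_zero_of_notMem i1) s1 hx F₀.one_mem ?_
      rw [one_smul]
      exact eich_apply_of_perp_perp (by simp [hu, hw.1, hw.2.1]) (by simp [hv, hw.2.2.1, hw.2.2.2])
    obtain ⟨c, hc, y, hy, h1⟩ := lemKp R hS hn hr h2 hH hB hM hHE hτ hx he hs he he0 hs (by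
      rw [eich_zero_apply rfl (by simpa) (by simpa) (by simpa)]
      simp only [map_add, map_sub, map_smul, hs.h_self, smul_eq_mul, orth_symm S e]
      ring)
    have hy0 : y ≠ 0 := by rintro rfl; exact he0 (by simpa using h1)
    have hys : S.Sing y := by
      have := ((isom_sing (S.eich (g.1 e) (g.1 e') 0) e).2 hs).smul c⁻¹
      rwa [h1, smul_smul, inv_mul_cancel₀ hc, one_smul] at this
    obtain ⟨m, hm, a1, a2⟩ := R.exists_move hS (by omega) hH hy he hy0 he0 hys hs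
    have := rat_of_fix' R hS hn hr h2 hH hB hM hHE he he0 hs (H.mul_mem hm hx) (s := c)
      (by rw [isom_mul_apply, h1, map_smul, a1])
    intro z hz
    simpa using a2 _ (this z hz)
  obtain ⟨e', b1, s1, c1, i1⟩ := R.exists_sing0 hS [e] [e] (by simpa) (by simpa) (by simp; omega)
  obtain ⟨e'', b2, s2, c2, i2⟩ := R.exists_sing0 hS [e] [e, e'] (by simpa) (by simp [he, b1])
    (by simp; omega)
  exact tau_mem_of_eich_two hS hτ g hs s1 s2 (c1 e (by simp)) (c2 e (by simp))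
    (notMem_span_one.1 i1) (notMem_span_two.1 i2) (key e' b1 s1 (c1 e (by simp)))
    (key e'' b2 s2 (c2 e (by simp)))

theorem isMaximalIn_rat7 {ι : Type} [Fintype ι] [DecidableEq ι] {S : PForm (orthP F) (ι → F)}
    (hS : S.Nondeg) (hn : 7 ≤ Fintype.card ι) {F₀ : Subfield F} {A : GL ι F}
    (R : Rat S F₀ (basisOf A)) (hr : (finrank F₀ F).Prime) :
    Cfsg.Geo.IsMaximalIn (EGL S) (Cfsg.Geo.subfieldSubgroup F₀ A ⊓ EGL S) := by
  have hn' : 7 ≤ finrank F (ι → F) := by simpa using hn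
  refine isMaximalIn_EGL S _ ?_ fun H h1 h2 => ?_
  · obtain ⟨g, hg, h⟩ := R.exists_E_irr hS (by omega) hr
    exact ⟨g, hg, fun h' => h (by simpa [mem_subfieldSubgroup_iff] using h')⟩
  · refine (final7 R hS hn' hr (fun k hk h => h1 ⟨?_, hk⟩) h2).imp_right fun h g hg => ?_
    · exact mem_subfieldSubgroup_iff.2 ⟨1, one_ne_zero, fun x hx => by simpa using h x hx⟩
    · rw [Subgroup.mem_comap, mem_subfieldSubgroup_iff]
      simpa using h g hg

theorem omegaGL_smul {ι : Type} [Fintype ι] [DecidableEq ι] (Q : (ι → F) → F) {ζ : F} (hζ : ζ ≠ 0) :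
    Cfsg.Geo.omegaGL (fun v => ζ * Q v) = Cfsg.Geo.omegaGL Q := by
  have : Cfsg.isometryGroup F (fun v => ζ * Q v) = Cfsg.isometryGroup F Q := by
    ext g
    simp [Cfsg.isometryGroup, Cfsg.preserving, hζ]
  simp only [Cfsg.Geo.omegaGL, Cfsg.Omega, commutator_def, Subgroup.map_commutator,
    ← MonoidHom.range_eq_map, Subgroup.range_subtype, this]

/-- subfield subgroups of `Ω(Q)` in dimension at least `7` -/
theorem oo_rat7 {F : Type*} [Field F] [Fintype F] {ι : Type} [Fintype ι] [DecidableEq ι]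
    (hn : 7 ≤ Fintype.card ι) {Q : (ι → F) → F} (hQ : Cfsg.Geo.IsNondegenerateQuadraticForm Q)
    {F₀ : Subfield F} {r : ℕ} (hr : r.Prime) (hcard : Fintype.card F = Nat.card F₀ ^ r) {A : GL ι F}
    {ζ : F} (hζ : ζ ≠ 0) (hP : Cfsg.Geo.IsQuadFormRationalStructure (fun v => ζ * Q v) F₀ A) :
    Cfsg.Geo.IsMaximalIn (Cfsg.Geo.omegaGL Q)
      (Cfsg.Geo.subfieldSubgroup F₀ A ⊓ Cfsg.Geo.omegaGL Q) := by
  have hr' := finrank_of_card (F₀ := F₀) (by rwa [Nat.card_eq_fintype_card])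
  have hS : (orthS (ζ • quadOf hQ)).Nondeg := fun x hx => quadOf_nondeg hQ x fun y => by
    have := hx y
    simp only [orthS_h, QuadraticMap.polar, QuadraticMap.smul_apply, smul_eq_mul] at this ⊢
    exact mul_left_cancel₀ hζ (by linear_combination this)
  have hq : ∀ x ∈ V0 F₀ (basisOf A), ζ * Q x ∈ F₀ := fun x hx => by
    obtain ⟨u, hu, rfl⟩ := mem_V0_basisOf'.1 hx
    exact hP u hu
  rw [← omegaGL_smul Q hζ, show (fun v => ζ * Q v) = ⇑(ζ • quadOf hQ) from rfl,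
    omegaGL_eq _ hS hn]
  exact isMaximalIn_rat7 hS hn
    ⟨fun c hc => hc, fun x hx y hy => F₀.sub_mem (F₀.sub_mem (hq _ (Submodule.add_mem _ hx hy))
      (hq x hx)) (hq y hy), fun x hx => ⟨_, hq x hx, by simp [coe_quadOf]⟩⟩ (hr' ▸ hr)

end H23.OR
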