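import Cfsg.Agent.H26.Qw0

/-! Piece `P4` of S1829: the involution `u₁u₂` is fused to `z₁`. -/
set_option autoImplicit false
namespace H23.QwP4
open H326.Qw Subgroup DihedralGroup
universe u

/-- nontrivial elements of one of the two factors -/
def isA (t : TT) : Prop := t ≠ 1 ∧ t.e = false ∧ (t.a = 1 ∨ t.b = 1)
instance (t : TT) : Decidable (isA t) := by unfold isA; infer_instance

theorem dA : ∀ t : TT, t * t = 1 → isA t → ∃ c : TT, c * z1 * c⁻¹ = t ∨ c * v1 * c⁻¹ = t ∨ c * u1 * c⁻¹ = t := by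
  decide +kernel
theorem dB : ∀ t : TT, t * t = 1 → t ≠ 1 → t.e = false → ¬ isA t → ∃ c : TT, c * z * c⁻¹ = t ∨
    c * (v1 * z2) * c⁻¹ = t ∨ c * (u1 * z2) * c⁻¹ = t ∨ c * (v1 * v2) * c⁻¹ = t ∨ c * (v1 * u2) * c⁻¹ = t ∨
    c * (u1 * u2) * c⁻¹ = t := by
  decide +kernel
theorem dF : ∀ t : TT, t * t = 1 → t.e = true → ∃ c : TT, c * s * c⁻¹ = t := by decide +kernel
theorem d1 : ∀ p : TT, p.e = false → ¬ isA p → p ≠ 1 → isA (z1 * p) → p.a = r 2 := by decide +kernel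
theorem d1' : ∀ p q : TT, p.e = false → q.e = false → p.a = r 2 → q.a = r 2 → (p * q).a ≠ r 2 := by
  rintro ⟨a, b, e⟩ ⟨c, d, f⟩ rfl rfl rfl rfl
  change (r 2 * r 2 : D) ≠ r 2
  decide
theorem d2 : ∀ p : TT, p * p = 1 → ¬ isA p → ¬ isA (z * p) → p ≠ 1 → p ≠ z → ∀ q : TT, q * q = 1 → ¬ isA q →
    ¬ isA (z * q) → q ≠ 1 → q ≠ z → p * q * (p * q) ≠ 1 → p * q * (p * q) ≠ z →
    p * q * (p * q) * (p * q * (p * q)) = 1 → isA (p * q * (p * q)) ∨ isA (z * (p * q * (p * q))) := by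
  decide +kernel

variable {G : Type u} [Group G] {ψ : TT →* G} {x : G}

theorem cjT {c t t' : TT} (h : c * t * c⁻¹ = t') : Cj ψ t' t :=
  (isConj_iff.2 ⟨ψ c, by rw [← h, map_mul, map_mul, map_inv]⟩ : IsConj (ψ t) (ψ t')).symm

theorem cjx (c : Rx ψ x) {t : TT} (h : t ∈ Pr 0 4) : Cj ψ (v1 * t) (z1 * t) :=
  (isConj_iff.2 ⟨x, by
    rw [map_mul, map_mul, ← c.xz, mul_assoc (x * ψ z1) x⁻¹, (c.xD t h).inv_left.eq]; group⟩ :
      IsConj (ψ (z1 * t)) (ψ (v1 * t))).symm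

theorem clA (c : Rx ψ x) (p : PI ψ) {t : TT} (h : t * t = 1) (a : isA t) : Cj ψ t z1 := by
  obtain ⟨k, e | e | e⟩ := dA t h a
  · exact cjT e
  · exact (cjT e).trans (cjx c (one_mem _))
  · exact (cjT e).trans p.ca

theorem clB (c : Rx ψ x) (p : PI ψ) (he : Cj ψ (u1 * u2) z) {t : TT} (h : t * t = 1) (h1 : t ≠ 1)
    (h2 : t.e = false) (a : ¬ isA t) : Cj ψ t z := by
  have k1 : Cj ψ (v1 * z2) z := cjx c (t := z2) (by decide)
  obtain ⟨k, e | e | e | e | e | e⟩ := dB t h h1 h2 a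
  · exact cjT e
  · exact (cjT e).trans k1
  · exact (cjT e).trans p.db
  · exact (cjT e).trans ((cjx c (t := v2) (by decide)).trans ((cjT (c := s) (by decide)).trans k1))
  · exact (cjT e).trans ((cjx c (t := u2) (by decide)).trans ((cjT (c := s) (by decide)).trans p.db))
  · exact (cjT e).trans he

theorem p4 : P4.{u} := by
  intro G _ _ ψ x c f two p
  refine (two (u1 * u2) (by decide) (by decide)).resolve_right fun he => ?_
  have c' := c.toRx
  -- transport along a conjugation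
  have tr : ∀ {g : G} {t t' : TT}, g * ψ t * g⁻¹ = ψ t' → Cj ψ t' t := fun h => (isConj_iff.2 ⟨_, h⟩).symm
  have mu : ∀ {g : G} {a a' b b' : TT}, g * ψ a * g⁻¹ = ψ a' → g * ψ b * g⁻¹ = ψ b' →
      g * ψ (a * b) * g⁻¹ = ψ (a' * b') := fun h1 h2 => by rw [map_mul, map_mul, ← h1, ← h2]; group
  have ij : ∀ {g : G} {a b a' : TT}, g * ψ a * g⁻¹ = ψ a' → g * ψ b * g⁻¹ = ψ a' → a = b := fun h1 h2 =>
    c'.inj (by simpa using h1.trans h2.symm)
  have on : ∀ g : G, g * ψ 1 * g⁻¹ = ψ 1 := fun g => by simp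
  have sq : ∀ {g : G} {a a' : TT}, g * ψ a * g⁻¹ = ψ a' → a * a = 1 → a' * a' = 1 := fun {g _ _} h e =>
    c'.inj (by rw [← mu h h, e, on])
  have mc : ∀ y : TT, s * y = y * s → y ∈ centralizer {s} := fun y h => mem_centralizer_singleton_iff.2 h.symm
  have nb : ∀ {t : TT}, t * t = 1 → Cj ψ t z → ¬ isA t := fun h1 h2 a => f.ab ((clA c' p h1 a).symm.trans h2)
  rcases two s (by decide) (by decide) with hs | hs
  · obtain ⟨g, gs, hg⟩ := f.exa s hs
    have key : ∀ y : TT, s * y = y * s → y * y = 1 → y ≠ 1 → y.e = false → ¬ isA y → s * y * (s * y) = 1 →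
        (s * y).e = true → s * y ≠ 1 → ∀ y' ∈ J, g * ψ y * g⁻¹ = ψ y' → y'.a = r 2 := by
      intro y h1 h2 h3 h4 h5 h6 h7 h8 y' hJ e
      refine d1 y' hJ.1 (nb (sq e h2) ((tr e).trans (clB c' p he h2 h3 h4 h5))) (fun k => h3 (ij e (k ▸ on g))) ?_
      by_contra a
      have e2 := mu gs e
      obtain ⟨k, ek⟩ := dF _ h6 h7
      have hz : z1 ∈ J := by decide
      exact f.ab (((tr e2).trans ((cjT ek).trans hs)).symm.trans
        (clB c' p he (sq e2 h6) (fun k => h8 (ij e2 (k ▸ on g))) (mul_mem hz hJ).1 a))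
    obtain ⟨a, ha, ea⟩ := hg z (mc _ (by decide))
    obtain ⟨b, hb, eb⟩ := hg (v1 * v2) (mc _ (by decide))
    exact d1' a b ha.1 hb.1
      (key _ (by decide) (by decide) (by decide) (by decide) (by decide) (by decide) (by decide) (by decide) a ha ea)
      (key _ (by decide) (by decide) (by decide) (by decide) (by decide) (by decide) (by decide) (by decide) b hb eb)
      (key _ (by decide) (by decide) (by decide) (by decide) (by decide) (by decide) (by decide) (by decide) _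
        (mul_mem ha hb) (mu ea eb))
  · obtain ⟨g, gs, hg⟩ := f.exb s hs
    have key : ∀ y : TT, y * y = 1 → y ≠ 1 → y.e = false → ¬ isA y → s * y * (s * y) = 1 →
        (s * y).e = true → y ≠ s → ∀ y', g * ψ y * g⁻¹ = ψ y' →
        y' * y' = 1 ∧ ¬ isA y' ∧ ¬ isA (z * y') ∧ y' ≠ 1 ∧ y' ≠ z := by
      intro y h2 h3 h4 h5 h6 h7 h8 y' e
      have e2 := mu gs e
      obtain ⟨k, ek⟩ := dF _ h6 h7
      exact ⟨sq e h2, nb (sq e h2) ((tr e).trans (clB c' p he h2 h3 h4 h5)),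
        nb (sq e2 h6) ((tr e2).trans ((cjT ek).trans hs)), fun k => h3 (ij e (k ▸ on g)), fun k => h8 (ij (k ▸ e) gs)⟩
    obtain ⟨a, -, ea⟩ := hg (v1 * v2) (mc _ (by decide))
    obtain ⟨b, -, eb⟩ := hg (u1 * u2) (mc _ (by decide))
    obtain ⟨a1, a2, a3, a4, a5⟩ :=
      key _ (by decide) (by decide) (by decide) (by decide) (by decide) (by decide) (by decide) a ea
    obtain ⟨b1, b2, b3, b4, b5⟩ :=
      key _ (by decide) (by decide) (by decide) (by decide) (by decide) (by decide) (by decide) b eb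
    obtain ⟨w1, w2, w3, w4, w5⟩ :=
      key _ (by decide) (by decide) (by decide) (by decide) (by decide) (by decide) (by decide) _
        (mu (mu ea eb) (mu ea eb))
    exact (d2 a a1 a2 a3 a4 a5 b b1 b2 b3 b4 b5 w4 w5 w1).elim w2 w3

end H23.QwP4
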