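import Cfsg.Agent.S0850
import Cfsg.Agent.H23.Thompson
import Cfsg.Agent.H19.Bridge

/-! T.I. subgroups with Frobenius normalizer: characters of the normalizer and their coherent extensions. -/

set_option autoImplicit false
set_option linter.unusedSectionVars false
open H5 Cfsg H18 H19 Subgroup
open scoped ComplexConjugate

namespace H23

section
variable {X : Type*} [Group X] [Fintype X] {K : Subgroup X} {φ χ : X → ℂ}

theorem const_of_ip (hK : K ⊴ ⊤) (hφ : φ ∈ cf ⊤) (c : ℂ) (h : ∀ χ ∈ irrKerD ⊤ K ⊥, ip ⊤ φ χ = c * χ 1) :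
    ∃ d, ∀ k ∈ K, k ≠ 1 → φ k = d := by
  classical
  refine ⟨∑ χ ∈ irrKer ⊤ K, ip ⊤ φ χ * χ 1 - c * K.relIndex ⊤, fun k hk k1 => ?_⟩
  have h1 := congrFun (sum_irrKerD_smul (K := ⊤) (A := ⊥) (B := K) ⟨bot_le, by simp⟩ hK) k
  rw [sup_bot_eq, ind_triv_nml hK, ind_triv_nml ⟨bot_le, by simp⟩, Finset.sum_apply] at h1
  simp only [Pi.sub_apply, Pi.smul_apply, smul_eq_mul, triv_of_mem hk, triv_of_not_mem (mt mem_bot.1 k1), mul_zero,
    mul_one, zero_sub] at h1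
  rw [cf_apply_eq_sum hφ, ← Finset.sum_sdiff (irrKer_subset (M := K)), add_comm, sub_eq_add_neg, ← mul_neg, ← h1,
    Finset.mul_sum, irrKerD_eq, sup_bot_eq, irrKer_bot]
  congr 1
  · exact Finset.sum_congr rfl fun χ hχ => by rw [cfker_apply ((mem_irrKer.1 hχ).2 hk)]
  · exact Finset.sum_congr rfl fun χ hχ => by rw [h χ (by rwa [irrKerD_eq, sup_bot_eq, irrKer_bot]), mul_assoc]

theorem mem_irrKerD_top : χ ∈ irrKerD ⊤ K ⊥ ↔ IsIrrCharacter X χ ∧ ∃ k, k ∈ K ∧ χ k ≠ χ 1 := by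
  rw [mem_irrKerD, ← mem_irr_top, and_congr_right_iff, and_iff_right bot_le]
  intro h
  simp [le_cfker_iff (chars_of_irr h) le_top]
end

variable {G : Type*} [Group G] [Fintype G] {K : Subgroup G}
  (hTI : ∀ g : G, g ∉ N(K) → ∀ k ∈ K, g * k * g⁻¹ ∈ K → k = 1) (hlt : K < N(K))
  (hC : ∀ k ∈ K, k ≠ 1 → C1(k) ≤ K) [Fintype N(K)] {χ ξ α β : N(K) → ℂ}

theorem nml_sub : K.subgroupOf N(K) ⊴ ⊤ := nml_top_iff.2 inferInstance

include hC in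
theorem tif_cent (k : N(K)) (hk : k ∈ K.subgroupOf N(K)) (k1 : k ≠ 1) : ⊤ ⊓ C1(k) ≤ K.subgroupOf N(K) :=
  fun _ hx => hC k hk (fun e => k1 (Subtype.ext e)) (mem_C1.2 (congrArg Subtype.val (mem_C1.1 hx.2)))

include hC in
theorem tif_ind (h : χ ∈ irrKerD ⊤ (K.subgroupOf N(K)) ⊥) :
    ∃ θ ∈ irr (K.subgroupOf N(K)), θ ≠ triv (K.subgroupOf N(K)) ∧ χ = ind (K.subgroupOf N(K)) ⊤ θ :=
  exists_ind_of_cent nml_sub (tif_cent hC) (mem_irrKerD.1 h).1 (mem_irrKerD.1 h).2.2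

include hC in
theorem tif_supp (h : α ∈ zs (irrKerD ⊤ (K.subgroupOf N(K)) ⊥)) (x : N(K)) (hx : (x : G) ∉ K) : α x = 0 := by
  refine zs_induction (P := fun α => α x = 0) h (fun χ h => ?_) rfl (fun a b h1 h2 => by simp [h1, h2])
    fun n a h => by simp [h]
  obtain ⟨θ, hθ, -, rfl⟩ := tif_ind hC h
  exact ind_supp_nml nml_sub.norm (irr_supp hθ) x hx

theorem tif_cf (h : α ∈ zs (irrKerD ⊤ (K.subgroupOf N(K)) ⊥)) : α ∈ vchar ⊤ :=
  zs_le_vchar (fun _ h => vchar_of_irr (irrKerD_subset h)) h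

include hTI hlt hC in
theorem tif_res (h : α ∈ zs1 (irrKerD ⊤ (K.subgroupOf N(K)) ⊥)) : (fun x : N(K) => indFun N(K) α x) = α :=
  funext ((Cfsg.Agent.S0850.result K hTI hlt hC).2 α (mem_cf_top.1 (cf_of_vchar (tif_cf h.1))) (tif_supp hC h.1) h.2)

theorem ip_indFun {ψ : G → ℂ} (hψ : ψ ∈ cf ⊤) : ip ⊤ ψ (indFun N(K) α) = ip ⊤ (fun x : N(K) => ψ x) α := by
  rw [ip_top, ip_top, frobenius_reciprocity' _ _ (mem_cf_top.1 hψ)]

/-- a class function orthogonal to `Z[S]°` is constant on `K#` -/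
theorem tif_const {φ : N(K) → ℂ} (hφ : φ ∈ cf ⊤) (h : ∀ α ∈ zs1 (irrKerD ⊤ (K.subgroupOf N(K)) ⊥), ip ⊤ φ α = 0) :
    ∃ d, ∀ k : N(K), (k : G) ∈ K → k ≠ 1 → φ k = d := by
  rcases (irrKerD (⊤ : Subgroup N(K)) (K.subgroupOf N(K)) ⊥).eq_empty_or_nonempty with e | ⟨ξ, hξ⟩
  · exact const_of_ip nml_sub hφ 0 (by simp [e])
  refine const_of_ip nml_sub hφ (ip ⊤ φ ξ / ξ 1) fun χ hχ => ?_
  have h1 := irrKerD_subset hξ
  have h2 := irrKerD_subset hχ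
  have := h _ (cross_mem_zs1 (mem_zs_of_mem hχ) (mem_zs_of_mem hξ) (vchar_of_irr h2) (vchar_of_irr h1))
  rw [ip_sub_right, ip_smul_right, ip_smul_right, irr_apply_one h1, irr_apply_one h2, map_intCast, map_intCast,
    ← irr_apply_one h1, ← irr_apply_one h2] at this
  field_simp [irr_apply_one_ne_zero h1]
  linear_combination this

theorem tif_setup {S : Set (N(K) → ℂ)}
    (hS : S = {χ : N(K) → ℂ | IsIrrCharacter N(K) χ ∧ ∃ k : N(K), (k : G) ∈ K ∧ χ k ≠ χ 1})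
    {t : (N(K) → ℂ) → (G → ℂ)} (h1 : IsLinearIsometryOn (zspan S) t)
    (h2 : ∀ α ∈ zspanOn S ({1}ᶜ : Set N(K)), t α = indFun N(K) α) :
    S = irrKerD ⊤ (K.subgroupOf N(K)) ⊥ ∧ ∃ ν, CoherentWith ⊤ (irrKerD ⊤ (K.subgroupOf N(K)) ⊥) (indLin N(K)) ν ∧
      ∀ α ∈ zs (irrKerD ⊤ (K.subgroupOf N(K)) ⊥), ν α = t α := by
  obtain rfl : S = irrKerD ⊤ (K.subgroupOf N(K)) ⊥ := hS.trans 
    (Set.ext fun χ => (mem_irrKerD_top (K := K.subgroupOf N(K))).symm.trans Finset.mem_coe.symm)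
  exact ⟨rfl, exists_coherentWith h1 h2 fun _ _ => rfl⟩

end H23
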