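import Cfsg.Agent.H23.TQ1

/-! Overgroups of `SO₃(q) ⊗ Ω₄⁻(q)` in `Ω₁₂⁻(q)`, part 2 (after `H20.To2`): with trivial long level the
short levels are scalar (`TQ.lvR`), and elements mapping `e ⊗ W` to `e' ⊗ W` preserve the tensor
structure (`TQ.f2`). -/

set_option autoImplicit false
set_option linter.unusedSectionVars false

namespace H23.Tq

open Module H11 H11.PForm H29 H20.Pl H20.To

variable {F U W V : Type*} [Field F] [AddCommGroup U] [Module F U] [AddCommGroup W] [Module F W]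
  [AddCommGroup V] [Module F V] [FiniteDimensional F U] [FiniteDimensional F W]
  [FiniteDimensional F V] {A : PForm (orthP F) U} {T : PForm (orthP F) W} {S : PForm (orthP F) V}
  {H : Subgroup S.Isom} {t : U →ₗ[F] W →ₗ[F] V} {c : U →ₗ[F] V →ₗ[F] W} {e e' u v y z : U}
  {w : W} {σ ρ : W →ₗ[F] W} {φ φ' : V →ₗ[F] W} {g k : S.Isom} {x : V}

theorem sing_scal [Finite F] (h2 : (2 : F) ≠ 0) (hT : T.Nondeg) (h3 : 3 ≤ finrank F W)
    (h : ∀ f, f ≠ 0 → T.q f = 0 → σ f ∈ F ∙ f) : ∃ s : F, ∀ w, σ w = s • w := by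
  obtain ⟨f, f0, hf⟩ := ex_sing (T := T) h3
  obtain ⟨f', hf', h1⟩ := hyp hT hf f0
  obtain ⟨a, ha⟩ := Submodule.mem_span_singleton.1 (h f f0 hf)
  obtain ⟨b, hb⟩ := Submodule.mem_span_singleton.1 (h f' (by rintro rfl; simp at h1) hf')
  have k : ∀ x, T.h f x = 0 → T.h f' x = 0 → ∃ r : F,
      σ x = r • (f + x - T.q x • f') - a • f + (T.q x * b) • f' := fun x a1 a2 => by
    obtain ⟨r, hr⟩ := Submodule.mem_span_singleton.1 (h _ (fun e => by
      simpa [a2, os f f', h1, orth_h_self, hf'] using congrArg (T.h f') e) (q_hyp hf hf' h1 a1 a2))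
    refine ⟨r, ?_⟩
    rw [hr, map_sub, map_add, map_smul, ← ha, ← hb]
    module
  have k2 : ∀ x, T.h f x = 0 → T.h f' x = 0 → T.q x * a = T.q x * b ∧
      (T.q x * a = T.q x * b → σ x = a • x) := fun x a1 a2 => by
    obtain ⟨r, hr⟩ := k x a1 a2
    obtain ⟨s, hs⟩ := k (-x) (by simp [a1]) (by simp [a2])
    rw [map_neg, orth_q_neg] at hs
    have e0 : (r + s - 2 * a) • f + (r - s) • x - (T.q x * (r + s - 2 * b)) • f' = 0 := by
      linear_combination (norm := module) -hr - hs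
    have e1 := congrArg (T.h f') e0
    have e2 := congrArg (T.h f) e0
    simp only [map_add, map_sub, map_smul, orth_h_self, hf, hf', h1, os f f', a1, a2, smul_eq_mul,
      map_zero] at e1 e2
    refine ⟨mul_left_cancel₀ h2 (by linear_combination -T.q x * e1 - e2), fun e3 => ?_⟩
    by_cases x0 : x = 0
    · simp [x0]
    have e4 : (r - s) • x = 0 := by
      rw [show r + s - 2 * a = 0 by linear_combination e1,
        show T.q x * (r + s - 2 * b) = 0 by linear_combination -e2] at e0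
      simpa using e0
    obtain rfl : r = s := sub_eq_zero.1 ((smul_eq_zero.1 e4).resolve_right x0)
    obtain rfl : r = a := mul_left_cancel₀ h2 (by linear_combination e1)
    rw [hr, ← e3]
    module
  obtain ⟨x, hx, a1, a2⟩ := ex_ns2 hT h3 hf hf' h1
  obtain rfl : a = b := mul_left_cancel₀ hx (k2 x a1 a2).1
  refine ⟨a, fun w => ?_⟩
  have := (k2 (w - T.h f' w • f - T.h f w • f') (by simp [orth_h_self, hf, h1])
    (by simp [orth_h_self, hf', h1, os f f'])).2 rfl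
  rw [map_sub, map_sub, map_smul, map_smul, ← ha, ← hb] at this
  linear_combination (norm := module) this

namespace TQ
variable [Finite F] (N : TQ A T t c H)
include N

theorem inj (hv : v ≠ 0) (e : t v w = 0) : w = 0 := by
  obtain ⟨y, hy⟩ := N.ndU.exists_h_eq_one hv
  simpa [N.ct, os v y, hy] using congrArg (c y) e

theorem inj' (hv : v ≠ 0) : Function.Injective (t v) :=
  (injective_iff_map_eq_zero _).2 fun _ => N.inj hv

theorem inj2 (hw : w ≠ 0) (e : t v w = 0) : v = 0 :=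
  N.ndU.eq_zero' fun y => by simpa [N.ct, hw] using congrArg (c y) e

theorem exW : ∃ w, w ≠ 0 ∧ T.q w ≠ 0 :=
  let ⟨w, h⟩ := H20.Tp.ex_ns0 N.two N.ndW N.hb
  ⟨w, by rintro rfl; simp at h, fun e => by simp [orth_h_self, e] at h⟩

theorem eq_t {η : U} (hη : A.h z η = 1) (e : ∀ y, A.h z y = 0 → c y x = 0) :
    x = t z (c η x) := sub_eq_zero.1 (N.nd.eq_zero' (N.ext (S.h.flip _).toAddMonoidHom.ker fun y w => by
  have := e (y - A.h y z • η) (by simp [hη, os y z])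
  simp only [map_sub, map_smul, LinearMap.sub_apply, LinearMap.smul_apply, sub_eq_zero] at this
  simp [N.hh, N.ct, this]))

theorem cfix (e : ∀ w, k.1 (t z w) = t z w) (x : V) : c z (k.1 x) = c z x :=
  N.ndW.ext_right fun w => by rw [← N.hh, ← N.hh, ← isom_h k _ x, e]

theorem conj (hf : TLv t c H v φ) (hg : g ∈ H)
    (e : ∀ w, g.1 (t v w) = t v (ρ w)) (hρ : Function.Surjective ρ) :
    TLv t c H v (ρ ∘ₗ φ ∘ₗ (g⁻¹.1 : V →ₗ[F] V)) := by
  obtain ⟨k, a, b, d⟩ := hf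
  refine ⟨g * k * g⁻¹, H.mul_mem (H.mul_mem hg a) (H.inv_mem hg), fun u => by
    obtain ⟨u, rfl⟩ := hρ u
    rw [← e]; simp [b], fun x hx => ?_⟩
  rw [isom_mul_apply, isom_mul_apply, d _ (N.ndW.eq_zero' fun w => by
    rw [← N.hh, ← isom_h_left, e, N.hh, hx, map_zero]), map_add, e, isom_apply_inv_self]
  rfl

theorem comp (hf : TLv t c H v φ) (hg : g ∈ H) (e : ∀ w, g.1 (t v w) = t v w) :
    TLv t c H v (φ ∘ₗ (g.1 : V →ₗ[F] V)) :=
  N.conj hf (H.inv_mem hg) (ρ := .id) (fun u => g.1.injective (by simp [e])) Function.surjective_id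

theorem hE (he : A.q e = 0) (hy : A.h e y = 0) :
    ∃ g ∈ H, ∀ x, g.1 x = x + t y (c e x) - t e (c y x + A.q y • c e x) := by
  obtain ⟨g, hg, a⟩ := N.hU _ (A.eich_mem_E e y (A.q y))
  refine ⟨g, hg, N.lext (f := (g.1 : V →ₗ[F] V)) (g := .id + t y ∘ₗ c e - t e ∘ₗ (c y + A.q y • c e))
    fun u w => ?_⟩
  simp [a, oe he hy, N.ct, smul_smul, add_smul]

theorem lv_id (he : A.q e = 0) (h : A.h e y = 0) : TLv t c H e (c y) := by
  obtain ⟨g, hg, a⟩ := N.hE (y := -y) he (by simp [h])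
  exact ⟨g, hg, fun w => by simp [a, N.ct, orth_h_self, he, os e y, h], fun x hx => by simp [a, hx]⟩

theorem lv0 (hf : TLv t c H e φ) (h0 : e ≠ 0) (he : A.q e = 0) (w : W) : φ (t e w) = 0 := by
  obtain ⟨k, -, b, d⟩ := hf
  have := d (t e w) (by simp [N.ct, orth_h_self, he])
  rw [b, left_eq_add] at this
  exact N.inj h0 this

theorem xext {M : Type*} [AddCommGroup M] [Module F M] {f g : V →ₗ[F] M} (h0 : e ≠ 0)
    (h : ∀ y w, A.h e y = 0 → f (t y w) = g (t y w)) (x : V) (hx : c e x = 0) : f x = g x := by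
  obtain ⟨η, hη⟩ := N.ndU.exists_h_eq_one h0
  simpa [hx] using N.lext (f := f ∘ₗ (.id - t η ∘ₗ c e)) (g := g ∘ₗ (.id - t η ∘ₗ c e)) (fun u w => by
    simpa [N.ct] using h (u - A.h e u • η) w (by simp [hη])) x

theorem cz (h : ∀ v, c v x = 0) : x = 0 :=
  N.nd.eq_zero' (N.ext (S.h.flip _).toAddMonoidHom.ker fun y w => by simp [N.hh, h])

theorem dec (h0 : e ≠ 0) {L : W →ₗ[F] V} (hρ : ρ w ≠ 0) (h1 : ∀ w, c e (L w) = 0)
    (h : ∀ v, A.h e v = 0 → ∃ s : F, ∀ w, c v (L w) = s • ρ w) :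
    ∃ y, A.h e y = 0 ∧ ∃ ψ : W →ₗ[F] W, ∀ w, L w = t y (ρ w) + t e (ψ w) := by
  obtain ⟨θ, hθ⟩ := ex_one' (F := F) hρ
  obtain ⟨y, hy⟩ := N.ndU.exists_h_eq (θ ∘ₗ c.flip (L w))
  obtain ⟨η, hη⟩ := N.ndU.exists_h_eq_one h0
  refine ⟨y, by simp [os y e, hy, h1], c η ∘ₗ (L - t y ∘ₗ ρ), fun a =>
    sub_eq_iff_eq_add'.1 (N.eq_t hη fun v hv => ?_)⟩
  obtain ⟨s, hs⟩ := h v hv
  simp [hs, N.ct, os y v, hy, hθ]

theorem dec2 {L : W →ₗ[F] V} (hρ : ρ w ≠ 0) (h : ∀ v, ∃ s : F, ∀ w, c v (L w) = s • ρ w) :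
    ∃ y, ∀ w, L w = t y (ρ w) := by
  obtain ⟨θ, hθ⟩ := ex_one' (F := F) hρ
  obtain ⟨y, hy⟩ := N.ndU.exists_h_eq (θ ∘ₗ c.flip (L w))
  refine ⟨y, fun a => sub_eq_zero.1 (N.cz fun v => ?_)⟩
  obtain ⟨s, hs⟩ := h v
  simp [hs, N.ct, os y v, hy, hθ]

theorem surj (h0 : e ≠ 0) (h : ∀ w, k.1 (t e w) = t e' (ρ w)) : Function.Surjective ρ :=
  LinearMap.injective_iff_surjective.1 ((injective_iff_map_eq_zero ρ).2 fun w hw =>
    N.inj h0 (k.1.injective (by rw [h, hw]; simp)))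

variable (hN : NL A t H)
include hN

theorem comm (h0 : e ≠ 0) (he : A.q e = 0) (hf : TLv t c H e φ) (hf' : TLv t c H e φ') {x x' : V}
    (h1 : c e x = 0) (h2 : c e x' = 0) (h3 : ∀ d, T.h w (φ d) = S.h x d)
    (h4 : ∀ d, T.h w (φ' d) = S.h x' d) : φ x' = φ' x := by
  obtain ⟨k, hk, b, d⟩ := hf
  obtain ⟨l, hl, b', d'⟩ := hf'
  have e0 : ∀ {k : S.Isom} {φ : V →ₗ[F] W}, (∀ w, k.1 (t e w) = t e w) →
      (∀ x, c e x = 0 → k.1 x = x + t e (φ x)) → ∀ x v, c e v = 0 →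
      S.h v (k.1 x - x) = -T.h (φ v) (c e x) := fun {k φ} b d x v hv => by
    have := isom_h k v x
    rw [d v hv, map_add, LinearMap.add_apply, N.hh, N.cfix b] at this
    rw [map_sub]
    linear_combination this
  have e1 : ∀ x, ((l * k)⁻¹ * (k * l)).1 x = x + t e (φ (l.1 x - x) - φ' (k.1 x - x)) := fun x =>
    (l * k).1.injective (by
      have a1 := d (l.1 x - x) (by simp [N.cfix b'])
      have a2 := d' (k.1 x - x) (by simp [N.cfix b])
      rw [← isom_mul_apply, mul_inv_cancel_left, map_add]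
      simp only [isom_mul_apply, b, b', map_sub (t e), map_sub k.1, map_sub l.1] at a1 a2 ⊢
      linear_combination (norm := module) a1 - a2)
  have hs := hN e h0 he _ (H.mul_mem (H.inv_mem (H.mul_mem hl hk)) (H.mul_mem hk hl))
    fun x => ⟨_, e1 x⟩
  obtain ⟨η, hη⟩ := N.ndU.exists_h_eq_one h0
  refine N.ndW.ext_left fun a => ?_
  have := congrArg (T.h w) (N.inj h0 (left_eq_add.1 ((hs _).symm.trans (e1 (t η a)))))
  rw [map_sub, h3, h4, e0 b' d' _ _ h1, e0 b d _ _ h2] at this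
  simp only [N.ct, hη, one_smul, map_zero] at this
  linear_combination this

theorem sa (h0 : e ≠ 0) (he : A.q e = 0) (hf : TLv t c H e φ) (hy : A.h e y = 0) (a w : W) :
    T.h a (φ (t y w)) = T.h w (φ (t y a)) := by
  obtain ⟨x, hx⟩ := N.nd.exists_h_eq (T.h w ∘ₗ φ)
  rw [N.comm hN h0 he hf (N.lv_id he hy) (x := x) (w := w) (N.ndW.eq_zero' fun b => by
    rw [← N.hh, os, hx]; simp [N.lv0 hf h0 he]) (by simp [N.ct, hy]) (fun d => by simp [hx])
    fun d => (N.hh _ _ _).symm, ← N.hh, os x, hx]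
  rfl

theorem lvR (h0 : e ≠ 0) (he : A.q e = 0) (hf : TLv t c H e φ) (hy : A.h e y = 0) :
    ∃ s : F, ∀ w, φ (t y w) = s • w := by
  refine sym_scal N.two N.ndW N.hb (.inl N.hq) (σ := φ ∘ₗ t y) (fun a b => N.sa hN h0 he hf hy a b)
    fun f hq => by_contra fun h => ?_
  have f0 : f ≠ 0 := by rintro rfl; simp at h
  obtain ⟨f', hf', h1⟩ := hyp N.ndW hq f0
  obtain ⟨x, hx, a1, a2⟩ := ex_ns2 N.ndW N.hb hq hf' h1
  have cj : ∀ {φ : V →ₗ[F] W}, TLv t c H e φ → ∀ r ∈ T.E, ∃ ψ, TLv t c H e ψ ∧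
      ∀ v w, ψ (t v w) = r.1 (φ (t v (r⁻¹.1 w))) := fun hf r hr => by
    obtain ⟨k, hk, b⟩ := N.hW r hr
    exact ⟨_, N.conj hf hk (ρ := (r.1 : W →ₗ[F] W)) (b e) r.1.surjective, fun v w => by
      have : k⁻¹.1 (t v w) = t v (r⁻¹.1 w) := k.1.injective (by simp [b])
      rw [← this]; rfl⟩
  obtain ⟨B, e1⟩ : ∃ B : U → W → W, ∀ s : F, ∃ ψ, TLv t c H e ψ ∧ ∀ v w, A.h e v = 0 → ψ (t v w) =
      s ^ 4 • (2 * T.q x ^ 2 * T.h f (φ (t v f)) * T.h f w) • f + s ^ 2 • B v w := by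
    refine ⟨fun v w => (-2 : F) • (T.q x • (T.h f (φ (t v w)) • f + T.h f w • φ (t v f)) +
      wd T f x (φ (t v (wd T f x w)))), fun s => ?_⟩
    have hz : T.h f (s • x) = 0 := by simp [a1]
    obtain ⟨ψ, p1, p2⟩ := cj hf _ (T.eich_mem_E f (s • x) (T.q (s • x)))
    obtain ⟨χ, q1, q2⟩ := cj hf _ (T.E.inv_mem (T.eich_mem_E f (s • x) (T.q (s • x))))
    refine ⟨_, ((p1.add q1).sub hf).sub hf, fun v w _ => ?_⟩
    simp only [LinearMap.sub_apply, LinearMap.add_apply, p2, q2, inv_inv, oe hq hz, oe' hq hz]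
    simp only [wd_apply, map_add, map_sub, map_smul, smul_eq_mul, orth_q_smul, LinearMap.smul_apply,
      RingHom.id_apply]
    module
  obtain ⟨s, s0, s1⟩ := N.hq
  obtain ⟨ψ₁, p1, q1⟩ := e1 (2 * s)
  obtain ⟨ψ₂, p2, q2⟩ := e1 s
  obtain ⟨ψ₃, p3, q3⟩ := e1 (1 + s ^ 2)
  obtain ⟨ψ₄, p4, q4⟩ := e1 1
  obtain ⟨ψ₅, p5, q5⟩ := e1 (s ^ 2)
  obtain ⟨u, hu⟩ := N.ndU.exists_h_eq ((-8 * s ^ 2 * (s ^ 2 - 1) ^ 2 * T.q x ^ 2) •
    (T.h f ∘ₗ φ ∘ₗ t.flip f))
  have u1 : A.h e u = 0 := by simp [os u e, hu, N.lv0 hf h0 he]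
  have u0 : A.q u ≠ 0 := fun u0 => by
    obtain ⟨a, rfl⟩ := Submodule.mem_span_singleton.1 (N.mn e u he u0 u1 h0)
    have h8 : (8 : F) ≠ 0 := by rw [show (8 : F) = 2 ^ 3 by norm_num]; exact pow_ne_zero _ N.two
    simpa [hy, h8, s0, sub_ne_zero.2 s1, hx, show T.h f (φ (t y f)) ≠ 0 from h] using
      LinearMap.congr_fun hu y
  have l1 : TLv t c H e ((T.h f).smulRight f ∘ₗ c u) :=
    (((((p1.sub p2).sub p2).sub p3).add p4).add p5).congr (N.xext h0 fun v w hv => by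
      simp only [LinearMap.sub_apply, LinearMap.add_apply, q1 _ _ hv, q2 _ _ hv, q3 _ _ hv, q4 _ _ hv,
        q5 _ _ hv, LinearMap.comp_apply, N.ct, hu, LinearMap.smul_apply, LinearMap.flip_apply,
        LinearMap.smulRight_apply, map_smul, smul_eq_mul]
      module)
  obtain ⟨ψ, p, q⟩ := cj l1 _ (T.eich_mem_E f' x (T.q x))
  obtain ⟨g, eg⟩ : ∃ g, g = (T.eich f' x (T.q x)).1 f := ⟨_, rfl⟩
  have l2 : TLv t c H e ((T.h g).smulRight g ∘ₗ c u) := p.congr (N.xext h0 fun v w _ => by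
    simp only [q, LinearMap.comp_apply, N.ct, LinearMap.smulRight_apply, map_smul, eg, isom_h_left])
  have b : T.h f g = -T.q x := by simp [eg, oe hf' a2, orth_h_self, hq, a1, h1, os f f', os f x]
  have := N.comm hN h0 he l1 l2 (w := f) (x := 0) (x' := t u (T.h f g • g)) (by simp) (by simp [N.ct, u1])
    (fun d => by simp [orth_h_self, hq]) fun d => by simp [N.hh, mul_comm]
  simp [N.ct, orth_h_self, b, hx, u0, f0, N.two] at this

theorem lvR' (h0 : e ≠ 0) (he : A.q e = 0) (hk : k ∈ H) (h1 : ∀ w, k.1 (t e w) = t e w)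
    (h2 : ∀ x, c e x = 0 → ∃ a, k.1 x = x + t e a) (hy : A.h e y = 0) :
    ∃ s : F, ∀ w, k.1 (t y w) = t y w + s • t e w := by
  obtain ⟨η, hη⟩ := N.ndU.exists_h_eq_one h0
  have a : ∀ x, c e x = 0 → k.1 x = x + t e ((c η ∘ₗ ((k.1 : V →ₗ[F] V) - .id)) x) := fun x hx => by
    obtain ⟨a, ha⟩ := h2 x hx
    simp [ha, N.ct, os e η, hη]
  obtain ⟨s, hs⟩ := N.lvR hN h0 he ⟨k, hk, h1, a⟩ hy
  exact ⟨s, fun w => by rw [a _ (by simp [N.ct, hy]), hs, map_smul]⟩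

theorem sim (hu : A.q u ≠ 0) (h : ∀ w, k.1 (t u w) = t v (ρ w) + t e (σ w)) (h1 : A.h e v = 0)
    (he : A.q e = 0) : ∃ α : F, α * A.q v = A.q u ∧ ∀ a b, T.h (ρ a) (ρ b) = α * T.h a b := by
  have a1 : ∀ a b, A.q v * T.h (ρ a) (ρ b) = A.q u * T.h a b := fun a b => mul_left_cancel₀ N.two (by
    have := isom_h k (t u a) (t u b)
    simp only [h, map_add, LinearMap.add_apply, N.tt, A.orth_h_self, he, h1, os e v] at this
    linear_combination this)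
  obtain ⟨w, hw⟩ := H20.Tp.ex_ns0 N.two N.ndW N.hb
  have a2 : A.q v ≠ 0 := fun e => by simpa [e, hu, hw] using a1 w w
  exact ⟨A.q u / A.q v, div_mul_cancel₀ _ a2, fun a b => by field_simp; linear_combination a1 a b⟩

theorem f1a (h0 : e ≠ 0) (he : A.q e = 0) (hk : k ∈ H) (h : ∀ w, k.1 (t e w) = t e (ρ w))
    (hy : A.h e y = 0) : ∃ y', ∀ w, k.1 (t y w) = t y' (ρ w) := by
  have r2 := N.surj h0 h
  have r1 : Function.Injective ρ := LinearMap.injective_iff_surjective.2 r2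
  let r := LinearEquiv.ofInjectiveEndo ρ r1
  obtain ⟨w₀, w0, w1⟩ := N.exW
  have a0 : ∀ x, c e x = 0 → c e (k.1 x) = 0 := fun x hx => N.ndW.eq_zero' fun w => by
    obtain ⟨w, rfl⟩ := r2 w
    rw [← N.hh, ← h, isom_h, N.hh, hx, map_zero]
  have a1 : ∀ y, A.h e y = 0 → ∃ y₁, A.h e y₁ = 0 ∧ ∃ ψ : W →ₗ[F] W,
      ∀ w, k.1 (t y w) = t y₁ (ρ w) + t e (ψ w) := fun y hy =>
    N.dec h0 (L := (k.1 : V →ₗ[F] V) ∘ₗ t y) (w := w₀) (fun e => w0 (r1 (by simp [e])))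
      (fun w => a0 _ (by simp [N.ct, hy])) fun v hv => by
        obtain ⟨s, hs⟩ := N.lvR hN h0 he (N.conj (N.lv_id he hv) (H.inv_mem hk)
          (ρ := (r.symm : W →ₗ[F] W)) (fun w => k.1.injective (by
            rw [isom_apply_inv_self, h]; exact congrArg _ (r.apply_symm_apply w).symm))
          r.symm.surjective) hy
        exact ⟨s, fun w => by
          have := congrArg r (hs w)
          simp only [LinearMap.comp_apply, LinearEquiv.coe_coe, inv_inv, r.apply_symm_apply, map_smul] at this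
          exact this⟩
  obtain ⟨η, Hy⟩ := N.ndU.exists_isHyp ((A.orth_sing _).2 he) h0
  have hη := Hy.h_ef
  suffices ∀ y, A.h e y = 0 → A.h η y = 0 → ∃ y', ∀ w, k.1 (t y w) = t y' (ρ w) by
    obtain ⟨y', b⟩ := this (y - A.h η y • e) (by simp [hy, orth_h_self, he]) (by simp [os e η, hη])
    exact ⟨y' + A.h η y • e, fun w => by simpa [h, sub_eq_iff_eq_add] using b w⟩
  intro y hy hy'
  obtain ⟨s, s0, s1⟩ := N.hq
  obtain ⟨u, u0, u1, u2⟩ := N.exU e η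
  obtain ⟨g, hg, b⟩ := N.hU _ (Hy.orth_tor_sq_mem_E (A.mem_perp_pair.2 ⟨u1, u2⟩) u0 (Units.mk0 s s0))
  have b1 : ∀ x, c e x = 0 → g.1 x = x + (s ^ 2 - 1) • t e (c η x) :=
    N.xext (f := (g.1 : V →ₗ[F] V)) (g := .id + (s ^ 2 - 1) • t e ∘ₗ c η) h0 fun v w hv => by
      have := Hy.tor_perp (Units.mk0 s s0 ^ 2) (w := v - A.h η v • e) (A.mem_perp_pair.2
        ⟨by simp [hv, orth_h_self, he], by simp [os e η, hη]⟩)
      rw [map_sub, map_smul, Hy.tor_e, sub_eq_iff_eq_add] at this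
      simp only [LinearEquiv.coe_coe, b, this, N.ct, map_add, map_sub, map_smul, LinearMap.add_apply,
        LinearMap.sub_apply, LinearMap.smul_apply, LinearMap.id_apply, LinearMap.comp_apply,
        Units.val_pow_eq_pow_val, Units.val_mk0]
      module
  have ce : ∀ w, c e (t e w) = 0 := fun w => by simp [N.ct, orth_h_self, he]
  have b2 : ∀ w, g.1 (t e w) = s ^ 2 • t e w := fun w => by
    rw [b1 _ (ce w)]; simp [N.ct, os e η, hη, sub_smul]
  have b3 : ∀ x, c e x = 0 → g⁻¹.1 x = x + ((s ^ 2)⁻¹ - 1) • t e (c η x) := fun x hx => g.1.injective (by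
    rw [isom_apply_inv_self, map_add, map_smul, b2, b1 x hx]
    match_scalars <;> field_simp <;> ring)
  have a2 : ∀ x, c e x = 0 → c e (k⁻¹.1 x) = 0 := fun x hx => N.ndW.eq_zero' fun w => by
    rw [← N.hh, ← isom_h_left, h, N.hh, hx, map_zero]
  obtain ⟨y₁, c1, ψ, c2⟩ := a1 y hy
  have m1 : ∀ w, (g⁻¹ * (k * g * k⁻¹)).1 (t e w) = t e w := fun w => g.1.injective (by
    obtain ⟨w, rfl⟩ := r2 w
    rw [isom_mul_apply, isom_apply_inv_self, isom_mul_apply, isom_mul_apply, b2]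
    conv_lhs => rw [← h]
    rw [isom_inv_apply_self, b2, map_smul, h])
  obtain ⟨a, ha⟩ := N.lvR' hN h0 he (H.mul_mem (H.inv_mem hg) (H.mul_mem (H.mul_mem hk hg)
    (H.inv_mem hk))) m1 (fun x hx => ⟨((s ^ 2)⁻¹ - 1) • c η x + (s ^ 2)⁻¹ • (s ^ 2 - 1) • ρ (c η (k⁻¹.1 x)), by
      simp only [isom_mul_apply, b1 _ (a2 x hx), map_add, map_smul, isom_apply_inv_self, h, b3 x hx,
        b3 _ (ce _), N.ct, os e η, hη]
      module⟩) c1
  have s2 : (s ^ 2)⁻¹ - 1 ≠ 0 := sub_ne_zero.2 (by simpa using s1)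
  refine ⟨y₁ + (a / ((s ^ 2)⁻¹ - 1) - A.h η y₁) • e, fun w => ?_⟩
  have d1 : (g⁻¹ * (k * g * k⁻¹)).1 (k.1 (t y w)) = g⁻¹.1 (k.1 (t y w)) := by
    simp [b1 (t y w) (by simp [N.ct, hy]), N.ct, hy']
  rw [b3 _ (a0 _ (by simp [N.ct, hy])), c2, map_add, ha, m1] at d1
  simp only [map_add, N.ct, os e η, hη, one_smul, map_smul] at d1
  have d2 : t e (ψ w) = (a / ((s ^ 2)⁻¹ - 1) - A.h η y₁) • t e (ρ w) := smul_right_injective _ s2 (by
    simp only
    rw [smul_smul, mul_sub, mul_div_cancel₀ _ s2]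
    linear_combination (norm := module) -d1)
  rw [c2, d2]
  simp

theorem f1b (h0 : e ≠ 0) (he : A.q e = 0) (hk : k ∈ H) (h : ∀ w, k.1 (t e w) = t e (ρ w)) (u : U) :
    ∃ y', ∀ w, k.1 (t u w) = t y' (ρ w) := by
  have r2 := N.surj h0 h
  have r1 : Function.Injective ρ := LinearMap.injective_iff_surjective.2 r2
  let r := LinearEquiv.ofInjectiveEndo ρ r1
  have r3 : ∀ w, ρ (r.symm w) = w := r.apply_symm_apply
  obtain ⟨w₀, w0, w1⟩ := N.exW
  obtain ⟨η, hη⟩ := N.ndU.exists_h_eq_one h0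
  obtain ⟨y, y0, y1, -⟩ := N.exU e e
  obtain ⟨y', b⟩ := N.f1a hN h0 he hk h y1
  have b0 : A.h e y' = 0 := by
    obtain ⟨w, rfl⟩ := r2 w₀
    simpa [h, b, N.tt, y1, orth_h_self, w1, N.two] using isom_h k (t e w) (t y w)
  obtain ⟨α, d1, d2⟩ := N.sim hN (σ := 0) y0 (by simpa using b) b0 he
  have α0 : α ≠ 0 := by rintro rfl; exact y0 (by simpa using d1.symm)
  have d3 : ∀ w, T.q (ρ w) = α * T.q w := fun w => mul_left_cancel₀ N.two (by
    rw [← orth_h_self, d2, orth_h_self]; ring)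
  refine N.dec2 (L := (k.1 : V →ₗ[F] V) ∘ₗ t u) (w := w₀) (fun e => w0 (r1 (by simp [e]))) fun v => ?_
  refine (sing_scal (σ := (r.symm : W →ₗ[F] W) ∘ₗ c v ∘ₗ (k.1 : V →ₗ[F] V) ∘ₗ t u) N.two N.ndW
    N.hb fun f f0 hf => ?_).imp fun s hs w => by simpa [r3] using congrArg ρ (hs w)
  obtain ⟨ξ, eξ⟩ : ∃ ξ, ξ = c v (k.1 (t u f)) := ⟨_, rfl⟩
  have hf1 : T.q (ρ f) = 0 := by simp [d3, hf]
  have key : ∀ z, T.h f z = 0 → T.h (ρ f) ξ • ρ z =
      (T.h (ρ z) ξ + T.q (ρ z) * T.h (ρ f) ξ) • ρ f := fun z hz => by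
    have z1 : T.h f (α • z) = 0 := by simp [hz]
    have z2 : T.h (ρ f) (ρ z) = 0 := by simp [d2, hz]
    obtain ⟨a, ha, ea⟩ := N.hW _ (T.eich_mem_E f (α • z) (T.q (α • z)))
    obtain ⟨b, hb, eb⟩ := N.hW _ (T.eich_mem_E (ρ f) (ρ z) (T.q (ρ z)))
    have m1 : ∀ x, c e x = 0 → (b⁻¹ * k * a * k⁻¹).1 x = x := fun x hx => b.1.injective (by
      have := N.xext (f := (k.1 : V →ₗ[F] V) ∘ₗ (a.1 : V →ₗ[F] V)) (g := (b.1 : V →ₗ[F] V) ∘ₗ k.1) h0
        (fun y w hy => by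
          obtain ⟨y', p⟩ := N.f1a hN h0 he hk h hy
          simp only [LinearMap.comp_apply, LinearEquiv.coe_coe, ea, p, eb, oe hf z1, oe hf1 z2]
          simp only [map_add, map_sub, map_smul, d2, d3, orth_q_smul, LinearMap.smul_apply, smul_eq_mul,
            RingHom.id_apply]
          module) (k⁻¹.1 x) (N.ndW.eq_zero' fun w => by
            rw [← N.hh, ← isom_h_left, h, N.hh, hx, map_zero])
      simpa using this)
    have m2 := hN e h0 he _ (H.mul_mem (H.mul_mem (H.mul_mem (H.inv_mem hb) hk) ha) (H.inv_mem hk))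
      (fun x => ⟨_, sub_eq_iff_eq_add'.1 (N.eq_t hη fun y hy => N.ndW.eq_zero' fun w => by
        rw [← N.hh, map_sub, ← m1 (t y w) (by simp [N.ct, hy]), isom_h, m1 _ (by simp [N.ct, hy]),
          sub_self])⟩) (k.1 (t u f))
    have m3 := congrArg (fun x => c v (b.1 x)) m2
    simp only [isom_mul_apply, isom_apply_inv_self, isom_inv_apply_self, ea, N.cW eb, ← eξ, oe hf z1,
      oe hf1 z2, orth_h_self, hf, os f, z1] at m3
    simp only [mul_zero, zero_smul, add_zero, sub_zero, ← eξ] at m3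
    linear_combination (norm := module) -m3
  obtain ⟨f', hf', h1⟩ := hyp N.ndW hf f0
  obtain ⟨x, hx, a1, -⟩ := ex_ns2 N.ndW N.hb hf hf' h1
  have k1 : T.h (ρ f) ξ = 0 := by
    simpa [d2, os f x, a1, orth_h_self, hx, α0, N.two] using congrArg (T.h (ρ x)) (key x a1)
  have f1 : ρ f ≠ 0 := fun e => f0 (r1 (by simp [e]))
  have k2 : ξ ∈ F ∙ ρ f := by_contra fun m => by
    obtain ⟨z, z1, z2⟩ := N.ndW.exists_perp_of_notMem' m 1
    obtain ⟨z, rfl⟩ := r2 z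
    rw [mem_perp_singleton, d2] at z1
    exact f1 (by simpa [k1, os ξ, z2] using (key z ((mul_eq_zero.1 z1).resolve_left α0)).symm)
  obtain ⟨a, ha⟩ := Submodule.mem_span_singleton.1 k2
  exact Submodule.mem_span_singleton.2 ⟨a, r1 (by simp [r3, ← eξ, ha])⟩

theorem f1 (h0 : e ≠ 0) (he : A.q e = 0) (he' : A.q e' = 0) (hk : k ∈ H)
    (h : ∀ w, k.1 (t e w) = t e' (ρ w)) (y : U) : ∃ y', ∀ w, k.1 (t y w) = t y' (ρ w) := by
  obtain ⟨w₀, w0, w1⟩ := N.exW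
  obtain ⟨γ, rfl, g, hg, a⟩ := N.mv h0 he (fun e0 => w0 (N.inj h0 (k.1.injective (by
    simp [h, e0])))) he'
  obtain ⟨y', b⟩ := N.f1b hN h0 he (H.mul_mem (H.inv_mem hg) hk) (ρ := ρ) (fun w => g.1.injective (by
    simp [h, a])) y
  exact ⟨γ.1 y', fun w => by rw [← a, ← b, isom_mul_apply, isom_apply_inv_self]⟩

theorem f2 (h0 : e ≠ 0) (he : A.q e = 0) (he' : A.q e' = 0) (hk : k ∈ H)
    (h : ∀ w, ∃ a, k.1 (t e w) = t e' a) : Ten t k := by
  obtain ⟨w₀, w0, -⟩ := N.exW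
  obtain ⟨η, hη⟩ := N.ndU.exists_h_eq_one (x := e') (by
    rintro rfl
    exact (h w₀).elim fun a ha => w0 (N.inj h0 (k.1.injective (by simp [ha]))))
  exact ⟨c η ∘ₗ (k.1 : V →ₗ[F] V) ∘ₗ t e, N.f1 hN h0 he he' hk fun w => by
    obtain ⟨a, ha⟩ := h w
    simp [ha, N.ct, os e' η, hη]⟩

end TQ

end H23.Tq
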