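import Cfsg.Agent.H18.BG1

/-! Two facts on finite groups: `gen_of_cent` (a subgroup normalised by a noncyclic elementary abelian
`p`-group without centralised `p`-elements is generated by centralisers) and `dih` (two involutions are
conjugate or centralised by an involution of the dihedral group they generate). -/

set_option autoImplicit false

namespace H23.Tq

open Subgroup H18

variable {G : Type*} [Group G] [Finite G]

theorem gen_of_cent {R K X : Subgroup G} {p : ℕ} (hp : p.Prime) (hR : ∀ x ∈ R, x ^ p = 1)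
    (hA : ∀ x ∈ R, ∀ y ∈ R, x * y = y * x) (hc : ¬ IsCyclic R)
    (hn : ∀ x ∈ R, ∀ k ∈ K, x * k * x⁻¹ ∈ K)
    (h1 : ∀ k ∈ K, k ^ p = 1 → (∀ x ∈ R, x * k = k * x) → k = 1)
    (h2 : ∀ x ∈ R, x ≠ 1 → ∀ k ∈ K, x * k = k * x → k ∈ X) : K ≤ X := by
  have pR : PiGrp {p} R := piGrp_of_elt fun x hx => piElt_of_pow_eq_one hp (hR x hx)
  have nR : R ≤ N(K) := fun x hx => mem_normalizer_iff.2 fun k =>
    ⟨hn x hx k, fun h => by simpa [mul_assoc] using hn _ (R.inv_mem hx) _ h⟩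
  have hK : PiGrp {p}ᶜ K := fun r hr hd e => by
    obtain rfl : r = p := e
    obtain ⟨P, hP, RP⟩ := exists_sylow_le hr pR (le_sup_left (b := K))
    have a := hP.pi.nil.meet_cent inf_le_left RP (le_trans (le_inf (RP.trans le_N) nR)
      (inf_normalizer_le_normalizer_inf)) ((hP.inf_nml (nml_sup_right nR)).ne_bot_p hr hd)
    obtain ⟨x, hx, e⟩ := cauchy hr ((hP.pi.of_le (inf_le_left.trans inf_le_left)).dvd_card a)
    have := h1 x hx.1.2 (e ▸ pow_orderOf_eq_one x) fun y hy => hx.2 y hy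
    exact hr.ne_one (by rw [← e, this, orderOf_one])
  exact coprime_abelian_gen_cent1 (fun x hx y hy => hA y hy x hx) hc nR (pR.coprime hK)
    fun a ha a1 k hk => h2 a ha a1 k hk.1 (hk.2 a rfl)

theorem dih {K : Subgroup G} {s t : G} (hs : s ∈ K) (ht : t ∈ K) (s2 : s * s = 1) (t2 : t * t = 1) :
    (∃ c ∈ K, c * s * c⁻¹ = t) ∨ ∃ z ∈ K, z ≠ 1 ∧ z * z = 1 ∧ s * z = z * s ∧ t * z = z * t ∧
      ∃ c ∈ K, c * s * c⁻¹ = s * z ∨ c * t * c⁻¹ = s * z := by
  obtain ⟨r, er⟩ : ∃ r, r = s * t := ⟨_, rfl⟩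
  have hr : r ∈ K := er ▸ K.mul_mem hs ht
  have si : s⁻¹ = s := inv_eq_of_mul_eq_one_right s2
  have et : t = s * r := by rw [er, ← mul_assoc, s2, one_mul]
  have a0 : s * r * s⁻¹ = r⁻¹ := by
    rw [← et, er, mul_inv_rev, inv_eq_of_mul_eq_one_right t2]
  have a1 : ∀ i : ℕ, (r ^ i)⁻¹ * s = s * r ^ i := fun i => by
    rw [← inv_pow, ← a0, conj_pow, inv_mul_cancel_right]
  have a2 : ∀ i : ℕ, (r ^ i)⁻¹ * s * (r ^ i)⁻¹⁻¹ = s * r ^ (2 * i) := fun i => by
    rw [a1, inv_inv, mul_assoc, ← pow_add, two_mul]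
  have a3 : ∀ i : ℕ, (r ^ i)⁻¹ * t * (r ^ i)⁻¹⁻¹ = s * r ^ (2 * i + 1) := fun i => by
    rw [et, ← mul_assoc, a1, inv_inv, mul_assoc, mul_assoc, ← pow_succ', ← pow_add]
    congr 2
    ring
  have m := fun i : ℕ => K.inv_mem (K.pow_mem hr i)
  have h0 := orderOf_pos r
  obtain ⟨n, e | e⟩ := Nat.even_or_odd' (orderOf r)
  · have z2 : r ^ n * r ^ n = 1 := by rw [← pow_add, ← two_mul, ← e, pow_orderOf_eq_one]
    have c1 : s * r ^ n = r ^ n * s := by rw [← a1, inv_eq_of_mul_eq_one_right z2]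
    refine .inr ⟨r ^ n, K.pow_mem hr n, pow_ne_one_of_lt_orderOf (by omega) (by omega), z2, c1,
      by rw [et, mul_assoc, ← pow_succ', ← mul_assoc, ← c1, mul_assoc, ← pow_succ], ?_⟩
    obtain ⟨i, rfl | rfl⟩ := Nat.even_or_odd' n
    · exact ⟨_, m i, .inl (a2 i)⟩
    · exact ⟨_, m i, .inr (a3 i)⟩
  · refine .inl ⟨_, m (n + 1), ?_⟩
    rw [a2, show 2 * (n + 1) = orderOf r + 1 by omega, pow_succ, pow_orderOf_eq_one, one_mul, et]

end H23.Tq
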