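import Cfsg.Agent.H23.TQ2
import Cfsg.Agent.H23.TQG

/-! Overgroups of `SO₃(q) ⊗ Ω₄⁻(q)` in `Ω₁₂⁻(q)`, part 3: with trivial long level, elements mapping
`U ⊗ w` to `U ⊗ w'` (`w` non-singular) preserve the tensor structure (`TQ.mw`, coprime action of a
root group). -/

set_option autoImplicit false
set_option linter.unusedSectionVars false

namespace H23.Tq

open Module H11 H11.PForm H29 H20.Pl H20.To

variable {F U W V : Type*} [Field F] [AddCommGroup U] [Module F U] [AddCommGroup W] [Module F W]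
  [AddCommGroup V] [Module F V] [FiniteDimensional F U] [FiniteDimensional F W]
  [FiniteDimensional F V] {A : PForm (orthP F) U} {T : PForm (orthP F) W} {S : PForm (orthP F) V}
  {H : Subgroup S.Isom} {t : U →ₗ[F] W →ₗ[F] V} {c : U →ₗ[F] V →ₗ[F] W} {e e' u v y y' z : U}
  {w w' f s : W} {σ ρ : W →ₗ[F] W} {g g' k : S.Isom} {x : V}

attribute [local simp] orth_q_zero

theorem fr_pl (f0 : f ≠ 0) (h : s ∉ F ∙ f) : finrank F (pl F f s) = 2 := by
  have := finrank_span_eq_card ((LinearIndependent.pair_iff' f0).2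
    fun a e => h (Submodule.mem_span_singleton.2 ⟨a, e⟩))
  rwa [Matrix.range_cons_cons_empty] at this

theorem perp2 (hT : T.Nondeg) (h3 : finrank F W = 3) (f0 : f ≠ 0) (h : s ∉ F ∙ f) (w0 : w ≠ 0)
    (a1 : T.h f w = 0) (a2 : T.h s w = 0) (b1 : T.h f w' = 0) (b2 : T.h s w' = 0) : w' ∈ F ∙ w := by
  have := hT.finrank_perp (pl F f s)
  rw [fr_pl f0 h] at this
  exact (Submodule.eq_of_le_of_finrank_le ((Submodule.span_singleton_le_iff_mem _ _).2
    (T.mem_perp_pair.2 ⟨a1, a2⟩)) (by rw [finrank_span_singleton w0]; unfold pl at this; omega)).ge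
    (T.mem_perp_pair.2 ⟨b1, b2⟩)

theorem unip (h2 : (2 : F) ≠ 0) (hT : T.Nondeg) (h3 : finrank F W = 3) {p : ℕ} [Fact p.Prime]
    [CharP F p] (hw : T.q w ≠ 0) (h1 : ρ w = w) (hi : ∀ a b, T.h (ρ a) (ρ b) = T.h a b)
    (hp : ρ ^ p = 1) : ρ = 1 := by
  haveI : Nontrivial W := ⟨⟨w, 0, by rintro rfl; simp at hw⟩⟩
  haveI : CharP (End F W) p := charP_of_injective_algebraMap (algebraMap F (End F W)).injective p
  have n0 : (ρ - 1) ^ p = 0 := by rw [sub_pow_char_of_commute p (Commute.one_right ρ), hp]; simp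
  by_contra hne
  obtain ⟨x, x1, x2⟩ : ∃ x, (ρ - 1) x ≠ 0 ∧ (ρ - 1) ((ρ - 1) x) = 0 := by
    by_contra! h
    have : ∀ (n : ℕ) x, ((ρ - 1 : End F W) ^ (n + 1)) x = 0 → (ρ - 1) x = 0 := fun n => by
      induction n with
      | zero => simp
      | succ n ih => exact fun x hx => by_contra fun e => h x e (ih _ (by rwa [pow_succ] at hx))
    exact hne (sub_eq_zero.1 (LinearMap.ext fun x => this p x (by rw [pow_succ', End.mul_apply, n0]; simp)))
  obtain ⟨y, ey⟩ : ∃ y, y = (ρ - 1) x := ⟨_, rfl⟩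
  rw [← ey] at x1 x2
  have e1 : ρ y = y := sub_eq_zero.1 x2
  have e2 : ρ x = x + y := by rw [ey]; simp
  have c1 : T.h y y = 0 := by simpa [e1, e2] using hi y x
  have c2 : T.h w y = 0 := by simpa [h1, e2] using hi w x
  have c3 : T.h y x = 0 := mul_left_cancel₀ h2 (by
    have := hi x x
    simp only [e2, map_add, LinearMap.add_apply, c1, os y x] at this
    linear_combination this)
  obtain ⟨a, ha⟩ := Submodule.mem_span_singleton.1 (perp2 hT h3 (f := w) (s := y)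
    (by rintro rfl; simp at hw) (fun m => by
      obtain ⟨a, rfl⟩ := Submodule.mem_span_singleton.1 m
      simp [orth_h_self, h2, hw] at c2
      simp [c2] at x1) x1 c2 c1 (w' := x - (T.h w x / (2 * T.q w)) • w)
    (by simp [orth_h_self, h2, hw]) (by simp [c3, os w y, c2]))
  have := congrArg ρ ha
  rw [map_smul, e1, ha, map_sub, map_smul, h1, e2] at this
  exact x1 (by linear_combination (norm := module) -this)

/-- `g` is the root element `1 ⊗ eich e y` -/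
def Ue (A : PForm (orthP F) U) (t : U →ₗ[F] W →ₗ[F] V) (c : U →ₗ[F] V →ₗ[F] W) (e y : U)
    (g : S.Isom) : Prop := ∀ x, g.1 x = x + t y (c e x) - t e (c y x + A.q y • c e x)

/-- the elements preserving the tensor structure -/
def TenG [Finite F] (S : PForm (orthP F) V) (t : U →ₗ[F] W →ₗ[F] V) : Subgroup S.Isom where
  carrier := {g | Ten t g}
  mul_mem' := Ten.mul
  one_mem' := ⟨.id, fun y => ⟨y, by simp⟩⟩
  inv_mem' := Ten.inv

namespace TQ
variable [Finite F] (N : TQ A T t c H)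
include N

theorem ue_mul (he : A.q e = 0) (hy : A.h e y = 0) (hz : A.h e z = 0) (h : Ue A t c e y g)
    (h' : Ue A t c e z g') : Ue A t c e (y + z) (g * g') := fun x => by
  simp only [isom_mul_apply, h _, h' x, map_add, map_sub, map_smul, N.ct, orth_h_self, he, hz, os e y, hy,
    orth_q_add, LinearMap.add_apply]
  module

theorem ue_pow (he : A.q e = 0) (hy : A.h e y = 0) (h : Ue A t c e y g) (n : ℕ) :
    Ue A t c e ((n : F) • y) (g ^ n) := by
  induction n with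
  | zero => intro x; simp
  | succ n ih => simpa [pow_succ, add_smul] using N.ue_mul he (by simp [hy]) hy ih h

theorem ue_t (h : Ue A t c e y g) (u : U) (w : W) :
    g.1 (t u w) = t (u + A.h e u • y - (A.h y u + A.q y * A.h e u) • e) w := by
  simp only [h _, N.ct, map_add, map_sub, map_smul, LinearMap.add_apply, LinearMap.sub_apply,
    LinearMap.smul_apply]
  module

theorem ue_char {p : ℕ} [CharP F p] (he : A.q e = 0) (hy : A.h e y = 0) (h : Ue A t c e y g) :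
    g ^ p = 1 := isom_ext fun x => by simpa using N.ue_pow he hy h p x

/-- the root group -/
def RG (he : A.q e = 0) : Subgroup S.Isom where
  carrier := {g | ∃ y, A.h e y = 0 ∧ Ue A t c e y g}
  mul_mem' := fun ⟨y, a, b⟩ ⟨z, a', b'⟩ => ⟨y + z, by simp [a, a'], N.ue_mul he a a' b b'⟩
  one_mem' := ⟨0, by simp, fun x => by simp⟩
  inv_mem' := fun ⟨y, a, b⟩ => by
    obtain ⟨k, -, hk⟩ := N.hE (y := -y) he (by simp [a])
    have := N.ue_mul he a (by simp [a]) b hk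
    exact ⟨-y, by simp [a], (inv_eq_of_mul_eq_one_right (isom_ext fun x => by
      simpa using this x)).symm ▸ hk⟩

theorem lin (hw : w ≠ 0) (hw' : w' ≠ 0) (h : ∀ u, ∃ u', k.1 (t u w) = t u' w') :
    ∃ γ : U →ₗ[F] U, Function.Surjective γ ∧ ∀ u, k.1 (t u w) = t (γ u) w' := by
  choose f hf using h
  have a : ∀ {u u'}, t u w' = t u' w' → u = u' := fun e =>
    sub_eq_zero.1 (N.inj2 hw' (by simp [e]))
  exact ⟨⟨⟨f, fun x y => a (by simp [← hf])⟩, fun s x => a (by simp [← hf])⟩,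
    LinearMap.injective_iff_surjective.1 ((injective_iff_map_eq_zero _).2 fun u hu =>
      N.inj2 hw (k.1.injective (by rw [hf]; simp [show f u = 0 from hu]))), hf⟩

theorem nrm (h : Ten t k) (hw : w ≠ 0) (hw' : w' ≠ 0) (h1 : ∀ u, ∃ u', k.1 (t u w) = t u' w') :
    ∃ (γ : U →ₗ[F] U) (ρ : W →ₗ[F] W), Function.Surjective γ ∧ ρ w = w' ∧
      ∀ u a, k.1 (t u a) = t (γ u) (ρ a) := by
  obtain ⟨γ, a1, a2⟩ := N.lin hw hw' h1
  obtain ⟨ρ, h⟩ := h
  obtain ⟨θ, hθ⟩ := ex_one' (F := F) hw'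
  have b1 : ∀ u, ∃ u', γ u = θ (ρ w) • u' ∧ ∀ a, k.1 (t u a) = t u' (ρ a) := fun u =>
    (h u).imp fun u' b => ⟨N.ndU.ext_right fun v => by
      simpa [N.ct, hθ, mul_comm] using congrArg (fun x => θ (c v x)) ((a2 u).symm.trans (b w)), b⟩
  obtain ⟨e, e0, -⟩ := ex_sing (T := A) (by have := N.four; omega)
  obtain ⟨e, rfl⟩ := a1 e
  have s0 : θ (ρ w) ≠ 0 := fun s0 => (b1 e).elim fun _ b => e0 (by simp [b.1, s0])
  have b2 : ∀ u a, k.1 (t u a) = t (γ u) (((θ (ρ w))⁻¹ • ρ) a) := fun u a =>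
    (b1 u).elim fun u' b => by simp [b.1, b.2, smul_smul, s0]
  exact ⟨γ, _, a1, N.inj' e0 ((b2 e w).symm.trans (a2 e)), b2⟩

theorem fixw (h : Ten t k) (hw : w ≠ 0) (h1 : ∀ u, k.1 (t u w) = t u w) : ∃ ρ : W →ₗ[F] W, ρ w = w ∧
    (∀ a b, T.h (ρ a) (ρ b) = T.h a b) ∧ ∀ u a, k.1 (t u a) = t u (ρ a) := by
  obtain ⟨γ, ρ, -, a2, a3⟩ := N.nrm h hw hw fun u => ⟨u, h1 u⟩
  have b : ∀ u, γ u = u := fun u => sub_eq_zero.1 (N.inj2 hw (by
    rw [map_sub, LinearMap.sub_apply, ← h1 u, a3, a2, sub_self]))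
  simp only [b] at a3
  obtain ⟨y, y0, -⟩ := N.exU 0 0
  exact ⟨ρ, a2, fun a b => by
    simpa [a3, N.tt, orth_h_self, y0, N.two] using isom_h k (t y a) (t y b), a3⟩

theorem fix_one {p : ℕ} [Fact p.Prime] [CharP F p] (h : Ten t k) (hw : T.q w ≠ 0)
    (h1 : ∀ u, k.1 (t u w) = t u w) (hp : k ^ p = 1) : k = 1 := by
  obtain ⟨ρ, a1, a2, a3⟩ := N.fixw h (by rintro rfl; simp at hw) h1
  have b : ∀ (n : ℕ) u a, (k ^ n).1 (t u a) = t u ((ρ ^ n) a) := fun n => by
    induction n with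
    | zero => simp
    | succ n ih => intro u a; rw [pow_succ, pow_succ, isom_mul_apply, a3, ih, End.mul_apply]
  obtain ⟨y, y0, -⟩ := N.exU 0 0
  obtain rfl := unip N.two N.ndW N.three hw a1 a2 (p := p) (LinearMap.ext fun a =>
    N.inj' (v := y) (by rintro rfl; simp at y0) (by rw [← b, hp]; simp))
  exact isom_ext (N.lext (f := (k.1 : V →ₗ[F] V)) (g := .id) fun u a => by simpa using a3 u a)

variable (hN : NL A t H)
include hN

theorem cjR (h0 : e ≠ 0) (he : A.q e = 0) (he' : A.q e' = 0) (hy : A.h e y = 0) (hy' : A.h e' y' = 0)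
    (y0 : A.q y ≠ 0) (h : Ue A t c e y g) (h' : Ue A t c e' y' g') (hk : k ∈ H) (a : k * g = g' * k) :
    Ten t k := by
  have b : ∀ {e y : U} {g : S.Isom}, A.q e = 0 → A.h e y = 0 → Ue A t c e y g → ∀ x,
      g.1 (g.1 x) - (2 : F) • g.1 x + x = t e ((-2 * A.q y) • c e x) := fun he hy h x => by
    simp only [h _, map_add, map_sub, map_smul, N.ct, orth_h_self, he, hy, A.h_swap_zero hy]
    module
  have a' : ∀ x, k.1 (g.1 x) = g'.1 (k.1 x) := fun x => congrArg (fun g : S.Isom => g.1 x) a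
  obtain ⟨η, hη⟩ := N.ndU.exists_h_eq_one h0
  refine N.f2 hN h0 he he' hk fun w => ⟨_, Eq.trans ?_ (b he' hy' h' (k.1 (t η ((-2 * A.q y)⁻¹ • w))))⟩
  rw [← a', ← a', ← map_smul, ← map_sub, ← map_add, b he hy h]
  rw [N.ct, hη, one_smul, smul_smul, mul_inv_cancel₀ (by simp [y0, N.two]), one_smul]

theorem fix_ten (hw : T.q w ≠ 0) (hk : k ∈ H) (h1 : ∀ u, k.1 (t u w) = t u w) : Ten t k := by
  haveI : Finite V := Module.finite_of_finite F
  haveI : Finite S.Isom := Finite.of_injective (fun g : S.Isom => (g.1 : V → V))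
    fun _ _ e => isom_ext (congrFun e)
  obtain ⟨p, _⟩ := CharP.exists F
  haveI := Fact.mk (CharP.char_is_prime F p)
  obtain ⟨e, h0, he⟩ := ex_sing (T := A) (by have := N.four; omega)
  let K : Subgroup S.Isom :=
    { carrier := {k | k ∈ H ∧ ∀ u, k.1 (t u w) = t u w}
      mul_mem' := fun a b => ⟨H.mul_mem a.1 b.1, fun u => by simp [a.2, b.2]⟩
      one_mem' := ⟨H.one_mem, by simp⟩
      inv_mem' := fun {k} a => ⟨H.inv_mem a.1, fun u => k.1.injective (by simp [a.2])⟩ }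
  have a1 : ∀ y, A.h e y = 0 → ∃ g ∈ N.RG he, Ue A t c e y g := fun y hy =>
    let ⟨g, _, b⟩ := N.hE he hy; ⟨g, ⟨y, hy, b⟩, b⟩
  have a2 : ∀ g ∈ N.RG he, g ∈ H := fun g ⟨y, a, b⟩ =>
    let ⟨k, hk, b'⟩ := N.hE he a; (isom_ext fun x => (b' x).trans (b x).symm : k = g) ▸ hk
  have a3 : ∀ g ∈ N.RG he, g ≠ 1 → ∀ k ∈ K, g * k = k * g → Ten t k := fun g ⟨y, a, b⟩ g1 k hk e =>
    N.cjR hN h0 he he a a (fun y0 => g1 (isom_ext fun x => by
      obtain ⟨s, rfl⟩ := Submodule.mem_span_singleton.1 (N.mn _ y he y0 a h0)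
      simp [b x, y0])) b b hk.1 e.symm
  refine gen_of_cent (R := N.RG he) (K := K) (X := TenG S t) (p := p) Fact.out
    (fun g ⟨y, a, b⟩ => N.ue_char he a b) (fun g ⟨y, a, b⟩ g' ⟨z, a', b'⟩ => isom_ext fun x =>
      (N.ue_mul he a a' b b' x).trans (by rw [add_comm y z]; exact (N.ue_mul he a' a b' b x).symm))
    (fun ⟨⟨g, y, a, b⟩, hg⟩ => ?_) (fun g hg k hk => ⟨H.mul_mem (H.mul_mem (a2 g hg) hk.1)
      (H.inv_mem (a2 g hg)), fun u => ?_⟩) (fun k hk kp h => ?_) a3 ⟨hk, h1⟩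
  · obtain ⟨z, z0, z1, z2⟩ := N.exU e y
    obtain ⟨g', hg', b'⟩ := a1 z z1
    obtain ⟨n, hn⟩ := mem_powers_iff_mem_zpowers.2 (hg ⟨g', hg'⟩)
    have := N.ue_pow he a b n
    rw [show g ^ n = g' from congrArg Subtype.val hn] at this
    obtain ⟨η, hη⟩ := N.ndU.exists_h_eq_one h0
    obtain ⟨w₀, w0, -⟩ := N.exW
    simpa [N.ct, hη, os e z, z1, os y z, z2, orth_h_self, w0, z0, N.two] using
      congrArg (c z) ((b' (t η w₀)).symm.trans (this _))
  · obtain ⟨y, -, b⟩ := (N.RG he).inv_mem hg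
    rw [isom_mul_apply, isom_mul_apply, N.ue_t b, hk.2, ← N.ue_t b, isom_apply_inv_self]
  · obtain ⟨y, y0, y1, -⟩ := N.exU e e
    obtain ⟨g, hg, b⟩ := a1 y y1
    exact N.fix_one (N.cjR hN h0 he he y1 y1 y0 b b hk.1 (h g hg).symm) hw hk.2 kp

theorem mw (hw : T.q w ≠ 0) (hk : k ∈ H) (h : ∀ u, ∃ u', k.1 (t u w) = t u' w') : Ten t k := by
  obtain ⟨p, _⟩ := CharP.exists F
  haveI := Fact.mk (CharP.char_is_prime F p)
  obtain ⟨e, h0, he⟩ := ex_sing (T := A) (by have := N.four; omega)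
  obtain ⟨y, y0, y1, -⟩ := N.exU e e
  have hw' : T.q w' ≠ 0 := fun e => (h y).elim fun u' b => by
    simpa [b, N.tq, e, hw, y0, N.two] using orth_isom_q k (t y w)
  obtain ⟨γ, a1, a2⟩ := N.lin (by rintro rfl; simp at hw) (by rintro rfl; simp at hw') h
  obtain ⟨β, hβ⟩ : ∃ β, β = T.q w' / T.q w := ⟨_, rfl⟩
  have b1 : ∀ u v, A.h u v = β * A.h (γ u) (γ v) := fun u v => by
    have := isom_h k (t u w) (t v w)
    simp only [a2, N.tt, orth_h_self] at this
    refine mul_left_cancel₀ (mul_ne_zero N.two hw) ?_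
    have e := mul_div_cancel₀ (T.q w') hw
    rw [← hβ] at e
    linear_combination -this - 2 * A.h (γ u) (γ v) * e
  have b2 : ∀ u, A.q u = β * A.q (γ u) := fun u => mul_left_cancel₀ N.two (by
    rw [← orth_h_self, b1, orth_h_self]; ring)
  have β0 : β ≠ 0 := by rintro rfl; exact y0 (by simpa using b2 y)
  have he' : A.q (γ e) = 0 := by simpa [he, β0] using b2 e
  have y1' : A.h (γ e) (β • γ y) = 0 := by rw [map_smul, smul_eq_mul, ← b1, y1]
  obtain ⟨g, hg, c1⟩ := N.hE he y1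
  obtain ⟨g', hg', c2⟩ := N.hE he' y1'
  have d1 : ∀ u, (g'⁻¹ * (k * g * k⁻¹)).1 (t u w') = t u w' := fun u => g'.1.injective (by
    obtain ⟨u, rfl⟩ := a1 u
    rw [isom_mul_apply, isom_apply_inv_self, N.ue_t c2, ← a2, isom_mul_apply, isom_inv_apply_self,
      isom_mul_apply, N.ue_t c1, a2]
    congr 2
    simp only [map_add, map_sub, map_smul, LinearMap.smul_apply, smul_eq_mul, orth_q_smul, b1 e u, b1 y u,
      b2 y, RingHom.id_apply]
    module)
  have d2 := N.fix_ten hN hw' (H.mul_mem (H.inv_mem hg') (H.mul_mem (H.mul_mem hk hg) (H.inv_mem hk))) d1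
  obtain ⟨n, en⟩ : ∃ n, n = g'⁻¹ * (k * g * k⁻¹) := ⟨_, rfl⟩
  rw [← en] at d1 d2
  obtain ⟨ρ, -, -, d3⟩ := N.fixw d2 (by rintro rfl; simp at hw') d1
  have d4 : Commute g' n := isom_ext (N.lext (f := ((g' * n).1 : V →ₗ[F] V)) (g := (n * g').1)
    fun u a => by simp only [LinearEquiv.coe_coe, isom_mul_apply, d3, N.ue_t c2])
  have d5 : g' * n = k * g * k⁻¹ := by rw [en, mul_inv_cancel_left]
  have d6 := N.fix_one (p := p) d2 hw' d1 (by
    have := d4.mul_pow p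
    rwa [d5, conj_pow, N.ue_char he y1 c1, N.ue_char he' y1' c2, mul_one, mul_inv_cancel, one_mul,
      eq_comm] at this)
  exact N.cjR hN h0 he he' y1 y1' y0 c1 c2 hk (by rw [d6, mul_one] at d5; rw [d5]; simp)

end TQ

end H23.Tq
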