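import Cfsg.Agent.H23.TQ3
import Cfsg.Agent.H20.To4

/-! Maximality of `SO₃(q) ⊗ Ω₄⁻(q)` in `Ω₁₂⁻(q)`, `q ≥ 5` odd (`oo_ten4`): the involutions `1 ⊗ (-r_w)`
fall into two classes whose centralisers and fusion lie in the tensor group; the dihedral argument. -/

set_option autoImplicit false
set_option linter.unusedSectionVars false

namespace H23.Tq

open Module H11 H11.PForm H29 H20.Pl H20.To

section
variable {F U W V : Type*} [Field F] [AddCommGroup U] [Module F U] [AddCommGroup W] [Module F W]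
  [AddCommGroup V] [Module F V] [FiniteDimensional F U] [FiniteDimensional F W]
  [FiniteDimensional F V] {A : PForm (orthP F) U} {T : PForm (orthP F) W} {S : PForm (orthP F) V}
  {H : Subgroup S.Isom} {t : U →ₗ[F] W →ₗ[F] V} {c : U →ₗ[F] V →ₗ[F] W} {u v : U}
  {w w' w₀ m n n' : W} {σ ρ : W →ₗ[F] W} {g g' k j s d τ : S.Isom} {x : V}

attribute [local simp] orth_q_zero

/-- `g` is the involution `1 ⊗ (-r_w)` -/
def Iv (T : PForm (orthP F) W) (t : U →ₗ[F] W →ₗ[F] V) (w : W) (g : S.Isom) : Prop :=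
  T.q w ≠ 0 ∧ ∀ u a, g.1 (t u a) = t u (((T.q w)⁻¹ * T.h w a) • w - a)

theorem Iv.ne (h : Iv T t w g) : w ≠ 0 := by rintro rfl; simpa using h.1

theorem Iv.fix (h : Iv T t w g) (u : U) : g.1 (t u w) = t u w := by
  rw [h.2, orth_h_self, mul_left_comm, inv_mul_cancel₀ h.1, mul_one, two_smul, add_sub_cancel_right]

theorem Iv.ten (h : Iv T t w g) : Ten t g :=
  ⟨((T.q w)⁻¹ • T.h w).smulRight w - .id, fun u => ⟨u, fun a => by simpa using h.2 u a⟩⟩

theorem inv3 (hT : T.Nondeg) (h2 : (2 : F) ≠ 0) (h3 : finrank F W = 3)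
    (hi : ∀ a b, T.h (σ a) (σ b) = T.h a b) (m0 : m ≠ 0) (hm : σ m = m) (n0 : n ≠ 0) (h : n' ∉ F ∙ n)
    (hn : σ n = -n) (hn' : σ n' = -n') : T.q m ≠ 0 ∧ ∀ a, σ a = ((T.q m)⁻¹ * T.h m a) • m - a := by
  have a1 : ∀ n, σ n = -n → ∀ a, T.h n (a + σ a) = 0 := fun n hn a => by
    have := hi n a
    rw [hn, map_neg, LinearMap.neg_apply] at this
    rw [map_add, ← this, neg_add_cancel]
  have a2 : ∀ n, σ n = -n → T.h n m = 0 := fun n hn => mul_left_cancel₀ h2 (by
    simpa [hm, two_mul] using a1 n hn m)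
  have a3 : ∀ a, ∃ r : F, σ a = r • m - a ∧ r * T.q m = T.h m a := fun a => by
    obtain ⟨r, hr⟩ := Submodule.mem_span_singleton.1 (perp2 hT h3 n0 h m0 (a2 n hn) (a2 n' hn')
      (a1 n hn a) (a1 n' hn' a))
    have b := congrArg (T.h m) hr
    have b' := hi m a
    rw [hm] at b'
    rw [map_smul, map_add, b', orth_h_self, smul_eq_mul] at b
    exact ⟨r, by rw [hr]; abel, mul_left_cancel₀ h2 (by linear_combination b)⟩
  have a4 : T.q m ≠ 0 := fun e => by
    obtain ⟨a, ha⟩ := hT.exists_h_eq_one m0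
    obtain ⟨r, -, b⟩ := a3 a
    simp [e, ha] at b
  exact ⟨a4, fun a => let ⟨r, b, b'⟩ := a3 a; by rw [b, ← b', mul_comm r, inv_mul_cancel_left₀ a4]⟩

theorem fr_le {M : Type*} [AddCommGroup M] [Module F M] {X : Submodule F V} {p : V → Prop}
    (h : ∀ x, x ∈ X ↔ p x) (L : M →ₗ[F] V) (l1 : ∀ a, L a = 0 → a = 0) (l2 : ∀ a, p (L a)) :
    finrank F M ≤ finrank F X := by
  rw [← LinearMap.finrank_range_of_inj ((injective_iff_map_eq_zero L).2 l1)]
  exact Submodule.finrank_mono (by rintro _ ⟨a, rfl⟩; exact (h _).2 (l2 a))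

namespace TQ
variable [Finite F] (N : TQ A T t c H)
include N

theorem iext (h : ∀ u a, g.1 (t u a) = k.1 (t u a)) : g = k :=
  isom_ext (N.lext (f := (g.1 : V →ₗ[F] V)) (g := k.1) h)

theorem iv_sq (h : Iv T t w g) : g * g = 1 := N.iext fun u a => by
  rw [isom_mul_apply, h.2, map_sub, map_smul, map_sub, map_smul, h.fix, h.2]; simp

theorem iv_fix (h : Iv T t w g) (hx : g.1 x = x) : ∃ u, x = t u w := by
  obtain ⟨θ, hθ⟩ := ex_one' (F := F) h.ne
  obtain ⟨u, a⟩ := N.dec2 (L := θ.smulRight x) (ρ := θ.smulRight w) (w := w) (by simp [hθ, h.ne])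
    fun v => ⟨2⁻¹ * ((T.q w)⁻¹ * T.h w (c v x)), fun a => by
      have := N.lext (f := c v ∘ₗ (g.1 : V →ₗ[F] V))
        (g := (((T.q w)⁻¹ • T.h w).smulRight w - .id) ∘ₗ c v) (fun u a => by
          simp [h.2, N.ct, smul_sub, smul_smul, mul_left_comm, mul_comm]) x
      simp only [LinearMap.comp_apply, LinearEquiv.coe_coe, hx, LinearMap.sub_apply, LinearMap.id_apply,
        LinearMap.smulRight_apply, LinearMap.smul_apply, smul_eq_mul] at this
      refine smul_right_injective _ N.two ?_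
      simp only [LinearMap.smulRight_apply, map_smul, smul_smul, mul_assoc, mul_inv_cancel_left₀ N.two]
      linear_combination (norm := module) θ a • this⟩
  exact ⟨u, by simpa [hθ] using a w⟩

theorem exW2 (hw : T.q w ≠ 0) : ∃ a b, T.q a ≠ 0 ∧ T.q b ≠ 0 ∧ T.h w a = 0 ∧ T.h w b = 0 ∧
    T.h a b = 0 := by
  have two := N.two
  obtain ⟨a, a0, a1⟩ := ex_perp N.ndW [w] (by simp [N.three]) fun x =>
    ⟨x - (T.h w x / (2 * T.q w)) • w, by simp [orth_h_self, two, hw], by simp +contextual⟩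
  replace a1 : T.h w a = 0 := by simpa using a1
  obtain ⟨b, b0, b1⟩ := ex_perp N.ndW [w, a] (by simp [N.three]) fun x =>
    ⟨x - (T.h w x / (2 * T.q w)) • w - (T.h a x / (2 * T.q a)) • a, by
      simp [orth_h_self, two, hw, a0, a1, os w a], by simp +contextual⟩
  exact ⟨a, b, a0, b0, a1, by simpa using b1⟩

theorem ex_iv (hw : T.q w ≠ 0) : ∃ g ∈ H, Iv T t w g := by
  haveI := invertibleOfNonzero N.two
  obtain ⟨β, hβ⟩ := LinearMap.BilinForm.exists_orthogonal_basis (B := A.h) ⟨fun x y => os y x⟩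
  let b := β.reindex (finCongr N.four)
  have b1 : ∀ i j, i ≠ j → A.h (b i) (b j) = 0 := fun i j h => by
    simpa [b] using hβ (i := (finCongr N.four).symm i) (j := (finCongr N.four).symm j) (by simpa using h)
  have b2 : ∀ i, A.q (b i) ≠ 0 := fun i h => b.ne_zero i (N.ndU _ fun y => by
    have : A.h (b i) = 0 := b.ext fun j => by
      by_cases e : i = j
      · simp [← e, orth_h_self, h]
      · simp [b1 i j e]
    simp [this])
  have r : ∀ a, T.q a ≠ 0 → ∃ k : S.Isom, (∀ u x, k.1 (t u x) = t u ((T.refl a).1 x)) ∧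
      N.nd.dick k = 1 ∧ N.nd.spin k = sqSign (2 * A.q (b 0)) * sqSign (2 * A.q (b 1)) *
        sqSign (2 * A.q (b 2)) * sqSign (2 * A.q (b 3)) := fun a ha => by
    have q0 : ∀ i, S.q (t (b i) a) ≠ 0 := fun i => by simp [N.tq, ha, b2, N.two]
    have r1 : ∀ i j x, (S.refl (t (b i) a)).1 (t (b j) x) =
        t (b j) (if i = j then (T.refl a).1 x else x) := fun i j x => by
      split_ifs with e
      · have := N.two
        have := b2 i
        simp only [← e, refl_apply, N.tq, N.tt, orth_h_self, map_sub, map_smul]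
        congr 2
        field_simp
      · simp [refl_apply, N.tt, b1 i j e]
    refine ⟨S.refl (t (b 0) a) * S.refl (t (b 1) a) * S.refl (t (b 2) a) * S.refl (t (b 3) a),
      fun u x => LinearMap.congr_fun (b.ext (f₁ := (S.refl (t (b 0) a) * S.refl (t (b 1) a) *
        S.refl (t (b 2) a) * S.refl (t (b 3) a)).1.toLinearMap ∘ₗ t.flip x)
        (f₂ := t.flip ((T.refl a).1 x)) fun i => ?_) u, by simp [N.nd.dick_refl (q0 _)], ?_⟩
    · fin_cases i <;> simp [r1]
    simp only [map_mul, N.nd.spin_refl (q0 _), N.tq, sqSign_mul (mul_ne_zero N.two (b2 _)) ha]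
    rcases Int.units_eq_one_or (sqSign (T.q a)) with e | e <;> simp [e]
  obtain ⟨a, a', a0, a0', c1, c2, c3⟩ := N.exW2 hw
  obtain ⟨k, k1, k2, k3⟩ := r a a0
  obtain ⟨l, l1, l2, l3⟩ := r a' a0'
  obtain ⟨y, y0, -⟩ := N.exU 0 0
  obtain ⟨f, f0, hf⟩ := ex_sing (T := T) N.hb
  obtain ⟨f', Hy⟩ := N.nd.exists_isHyp ((S.orth_sing (t y f)).2 (by simp [N.tq, hf])) fun e =>
    f0 (N.inj (by rintro rfl; simp at y0) e)
  have d := LinearMap.finrank_le_finrank_of_injective (N.inj' (v := y) (by rintro rfl; simp at y0))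
  have e1 : ∀ u x, (k * l).1 (t u x) = t u ((T.refl a * T.refl a').1 x) := fun u x => by simp [k1, l1]
  have e2 := inv3 (σ := ((T.refl a * T.refl a').1 : W →ₗ[F] W)) N.ndW N.two N.three (isom_h _) (m := w)
    (by rintro rfl; simp at hw) (by simp [refl_apply_of_perp, os w, c1, c2]) (n := a)
    (by rintro rfl; simp at a0) (n' := a') (fun m => by
      obtain ⟨s, rfl⟩ := Submodule.mem_span_singleton.1 m
      simp [orth_h_self, a0, N.two] at c3
      simp [c3] at a0')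
    (by simp [refl_apply_of_perp, os a, c3, refl_apply_self a0])
    (by simp [refl_apply_of_perp, c3, refl_apply_self a0'])
  exact ⟨k * l, N.hR _ ((N.nd.mem_E_iff (N.hb.trans d) Hy _).2
    (by simp [k2, l2, k3, l3, Int.units_mul_self])) _ e1, hw, fun u x => by rw [e1, ← e2.2]; rfl⟩

variable (hN : NL A t H)
include hN

theorem c1 (h : Iv T t w g) (h' : Iv T t w' g') (hk : k ∈ H) (e : k * g = g' * k) : Ten t k :=
  N.mw hN h.1 hk fun u => N.iv_fix h' (by rw [← isom_mul_apply, ← e, isom_mul_apply, h.fix])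

theorem typ (h : Iv T t w g) (h' : Iv T t w' g') (hk : k ∈ H) (e : k * g = g' * k) {f : W} (f0 : f ≠ 0)
    (hf : T.q f = 0) (h1 : T.h w f = 0) : ∃ f, f ≠ 0 ∧ T.q f = 0 ∧ T.h w' f = 0 := by
  obtain ⟨γ, ρ, a1, a2, a3⟩ := N.nrm (N.c1 hN h h' hk e) h.ne h'.ne fun u =>
    N.iv_fix h' (by rw [← isom_mul_apply, ← e, isom_mul_apply, h.fix])
  obtain ⟨y, y0, -⟩ := N.exU 0 0
  obtain ⟨y, rfl⟩ := a1 y
  refine ⟨ρ f, fun b => f0 (N.inj (v := y) (by rintro rfl; simp at y0) (k.1.injective (by simp [a3, b]))),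
    by simpa [a3, N.tq, hf, y0, N.two] using orth_isom_q k (t y f), ?_⟩
  simpa [a3, a2, N.tt, h1, orth_h_self, y0, N.two] using isom_h k (t y w) (t y f)

theorem cl (h : Iv T t w s) (h' : Iv T t w₀ τ) (hj : j ∈ H) (e : j * s = s * j) (e' : j = d * τ * d⁻¹) :
    ∃ m, Iv T t m j := by
  have two := N.two
  obtain ⟨γ, ρ, -, a2, a3⟩ := N.nrm (N.c1 hN h h hj e) h.ne h.ne fun u =>
    N.iv_fix h (by rw [← isom_mul_apply, ← e, isom_mul_apply, h.fix])
  have j2 : ∀ x, j.1 (j.1 x) = x := fun x => by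
    rw [← isom_mul_apply, e', conj_mul, N.iv_sq h']; simp
  have g2 : ∀ u, γ (γ u) = u := fun u => sub_eq_zero.1 (N.inj2 h.ne (by
    simpa [a3, a2, sub_eq_zero] using j2 (t u w)))
  obtain ⟨y, y0, -⟩ := N.exU 0 0
  have y1 : y ≠ 0 := by rintro rfl; simp at y0
  have r2 : ∀ a, ρ (ρ a) = a := fun a => N.inj' y1 (by simpa [a3, g2] using j2 (t y a))
  have gy : A.q (γ y) = A.q y := by simpa [a3, a2, N.tq, h.1, two] using orth_isom_q j (t y w)
  have ri : ∀ a b, T.h (ρ a) (ρ b) = T.h a b := fun a b => by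
    simpa [a3, N.tt, orth_h_self, gy, y0, two] using isom_h j (t y a) (t y b)
  let X := LinearMap.range ((d.1 : V →ₗ[F] V) ∘ₗ t.flip w₀)
  have x1 : finrank F X = 4 := by
    rw [LinearMap.finrank_range_of_inj ((injective_iff_map_eq_zero _).2 fun u hu =>
      N.inj2 h'.ne (d.1.injective (by simpa using hu))), N.four]
  have x2 : ∀ x, x ∈ X ↔ j.1 x = x := fun x => ⟨by rintro ⟨u, rfl⟩; simp [e', h'.fix], fun hx => by
    obtain ⟨u, hu⟩ := N.iv_fix h' (x := d⁻¹.1 x) (d.1.injective (by simpa [e'] using hx))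
    exact ⟨u, by simp [← hu]⟩⟩
  obtain ⟨b, b0, hb⟩ : ∃ b, b ≠ 0 ∧ ρ b = -b := by
    by_contra! hb
    have r1 : ∀ a, ρ a = a := fun a => by_contra fun e =>
      hb (ρ a - a) (sub_ne_zero.2 e) (by simp [r2])
    obtain ⟨u, hu⟩ : ∃ u, γ u = u ∧ ∀ v, γ v = v → v ∈ F ∙ u := by
      by_contra! hu
      obtain ⟨u, u1, u2⟩ := hu 0 (by simp)
      obtain ⟨v, v1, v2⟩ := hu u u1
      obtain ⟨p, p1, p2⟩ := N.ndU.exists_perp_of_notMem' v2 1
      obtain ⟨z, hz⟩ := N.ndU.exists_h_eq_one (x := u) (by simpa using u2)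
      rw [mem_perp_singleton] at p1
      have := fr_le x2 ((t u).coprod (t v)) (fun a ha => by
        have b := congrArg (c p) ha
        simp [N.ct, os u p, os v p, p1, p2] at b
        exact Prod.ext (N.inj (v := u) (by simpa using u2) (by simpa [b] using ha)) b)
        fun a => by simp [a3, u1, v1, r1]
      simp [N.three, x1] at this
    have : X ≤ LinearMap.range (t u) := fun x hx => by
      have := N.ext ((LinearMap.range (t u)).comap (.id + (j.1 : V →ₗ[F] V))).toAddSubgroup (fun v a => by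
        obtain ⟨r, hr⟩ := Submodule.mem_span_singleton.1 (hu.2 (v + γ v) (by simp [g2, add_comm]))
        exact ⟨r • a, by simpa [a3, r1] using congrArg (t · a) hr⟩) x
      refine (Submodule.smul_mem_iff _ two).1 ?_
      simpa [(x2 x).1 hx, two_smul] using this
    have := (Submodule.finrank_mono this).trans (LinearMap.finrank_range_le _)
    have := N.three
    omega
  have wb : T.h w b = 0 := mul_left_cancel₀ two (by
    have := ri w b
    rw [a2, hb, map_neg] at this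
    linear_combination -this)
  have bw : b ∉ F ∙ w := fun m => by
    obtain ⟨r, rfl⟩ := Submodule.mem_span_singleton.1 m
    simp [orth_h_self, two, h.1] at wb
    simp [wb] at b0
  obtain ⟨a, ε, ε1, ha, ha'⟩ : ∃ (a : W) (ε : F), (ε = 1 ∨ ε = -1) ∧ a ∉ pl F w b ∧ ρ a = ε • a := by
    obtain ⟨a, ha⟩ := exists_notMem_of_ne_top (W := pl F w b) fun e => by
      have := fr_pl h.ne bw
      rw [e, finrank_top, N.three] at this
      omega
    by_cases m : a + ρ a ∈ pl F w b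
    · exact ⟨a - ρ a, -1, .inr rfl, fun m' => ha ((Submodule.smul_mem_iff _ two).1 (by
        simpa [two_smul] using add_mem m m')), by simp [r2]⟩
    · exact ⟨a + ρ a, 1, .inl rfl, m, by simp [r2, add_comm]⟩
  have ε2 : ε * ε = 1 := by rcases ε1 with rfl | rfl <;> simp
  have gm : ∀ u, γ u = -ε • u := fun u => by
    by_contra hu
    obtain ⟨v, ev⟩ : ∃ v, v = γ u + ε • u := ⟨_, rfl⟩
    have v0 : v ≠ 0 := fun e => hu (by rw [neg_smul, eq_neg_iff_add_eq_zero, ← ev, e])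
    have v1 : γ v = ε • v := by simp [ev, g2, smul_smul, ε2, add_comm]
    obtain ⟨p, p1, p2⟩ := N.ndW.exists_perp_of_notMem' ha 1
    rw [mem_perp_pair] at p1
    obtain ⟨p', p3, p4⟩ := N.ndW.exists_perp_of_notMem' bw 1
    rw [mem_perp_singleton] at p3
    have := fr_le x2 (M := U × F) ((t.flip w ∘ₗ (LinearMap.id + γ) + t.flip b ∘ₗ (LinearMap.id - γ)).coprod
      (LinearMap.toSpanSingleton F V (t v a)))
      (fun ⟨u, r⟩ hu => by
        obtain ⟨z, hz⟩ := N.ndU.exists_h_eq_one v0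
        have c1 := congrArg (fun x => T.h p (c z x)) hu
        simp [N.ct, os w p, os b p, os a p, p1, p2, os v z, hz] at c1
        subst c1
        have c2 : u - γ u = 0 := N.ndU.eq_zero' fun z => by
          simpa [N.ct, os w p', os b p', p3, p4] using congrArg (fun x => T.h p' (c z x)) hu
        have c3 : u + γ u = 0 := N.inj2 h.ne (by simpa [← sub_eq_zero.1 c2] using hu)
        have : u = 0 := smul_right_injective _ two (by simpa [two_smul] using congrArg₂ (· + ·) c2 c3)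
        simp [this])
      fun ⟨u, r⟩ => by
        simp [a3, a2, hb, ha', g2, v1, smul_smul, ε2]
        abel
    simp [N.four, x1] at this
  have fin : ∀ {m n n'}, m ≠ 0 → (-ε • ρ) m = m → n ≠ 0 → n' ∉ F ∙ n → (-ε • ρ) n = -n →
      (-ε • ρ) n' = -n' → ∃ m, Iv T t m j := fun {m n n'} m0 h1 n0 h2 h3 h4 =>
    let ⟨p, q⟩ := inv3 N.ndW two N.three (fun a b => by simp [ri, ← mul_assoc, ε2]) m0 h1 n0 h2 h3 h4
    ⟨m, p, fun u x => by rw [a3, gm, ← q]; simp⟩
  have sb : ∀ x, x ∈ pl F w b → a ∉ F ∙ x := fun x hx m =>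
    ha ((Submodule.span_singleton_le_iff_mem _ _).2 hx m)
  rcases ε1 with rfl | rfl
  · exact fin b0 (by simp [hb]) h.ne (sb w (Submodule.subset_span (by simp))) (by simp [a2]) (by simp [ha'])
  · exact fin h.ne (by simp [a2]) b0 (sb b (Submodule.subset_span (by simp))) (by simp [hb]) (by simp [ha'])

theorem all_ten (hg : g ∈ H) : Ten t g := by
  haveI : Finite V := Module.finite_of_finite F
  haveI : Finite S.Isom := Finite.of_injective (fun g : S.Isom => (g.1 : V → V))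
    fun _ _ e => isom_ext (congrFun e)
  have two := N.two
  obtain ⟨f, f0, hf⟩ := ex_sing (T := T) N.hb
  obtain ⟨f', hf', h1⟩ := hyp N.ndW hf f0
  obtain ⟨w, hw, a1, a2⟩ := ex_ns2 N.ndW N.hb hf hf' h1
  obtain ⟨ε, ε0, hε⟩ := exists_not_isSquare two
  have q0 : T.q (f + (ε * T.q w) • f') = ε * T.q w := by simp [orth_q_add, orth_q_smul, hf, hf', h1]
  obtain ⟨s, hs, is⟩ := N.ex_iv hw
  obtain ⟨τ, hτ, iτ⟩ := N.ex_iv (w := f + (ε * T.q w) • f') (by simp [q0, ε0, hw])
  have m := H.mul_mem (H.mul_mem hg hτ) (H.inv_mem hg)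
  obtain ⟨d, hd, e⟩ | ⟨z, hz, z1, z2, z3, z4, d, hd, e⟩ := dih hs m (N.iv_sq is)
    (by rw [conj_mul, N.iv_sq iτ]; simp)
  · obtain ⟨p, p0, p1, p2⟩ := N.typ hN is iτ (H.mul_mem (H.inv_mem hg) hd) (by
      rw [mul_assoc, eq_mul_of_mul_inv_eq e]; simp [mul_assoc]) f0 hf (by rw [os, a1])
    obtain ⟨r, hr⟩ := Submodule.mem_span_singleton.1 (perp2 N.ndW N.three f0 (s := f') (fun m => by
      obtain ⟨a, rfl⟩ := Submodule.mem_span_singleton.1 m
      simp [orth_h_self, hf] at h1) (w := w) (by rintro rfl; simp at hw) a1 a2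
      (w' := p - T.h f' p • f - T.h f p • f') (by simp [orth_h_self, hf, h1])
      (by simp [orth_h_self, hf', h1, os f f']))
    simp only [map_add, map_smul, LinearMap.add_apply, LinearMap.smul_apply, smul_eq_mul,
      RingHom.id_apply] at p2
    generalize T.h f' p = α, T.h f p = β at hr p2
    obtain rfl : p = r • w + α • f + β • f' := by rw [hr]; abel
    simp only [orth_q_add, orth_q_smul, hf, hf', map_add, map_smul, LinearMap.add_apply,
      LinearMap.smul_apply, smul_eq_mul, RingHom.id_apply, os f w, os f' w, a1, a2, h1] at p1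
    have b : r ^ 2 = ε * α ^ 2 := mul_left_cancel₀ hw (by linear_combination p1 - α * p2)
    by_cases α0 : α = 0
    · simp [α0] at b p2
      simp [α0, b, p2] at p0
    · exact absurd ⟨r / α, by field_simp; linear_combination -b⟩ hε
  have j1 : s * z * s = s * (s * z) := by rw [mul_assoc, ← z3]
  obtain ⟨n, hn⟩ : ∃ n, Iv T t n (s * z) := by
    rcases e with e | e
    · exact N.cl hN is is (H.mul_mem hs hz) j1 e.symm
    · exact N.cl hN is iτ (H.mul_mem hs hz) j1 (d := d * g) (by rw [← e]; simp [mul_assoc])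
  have ez : z = s * (s * z) := by rw [← mul_assoc, N.iv_sq is, one_mul]
  have nw : n ∉ F ∙ w := fun m => z1 (by
    obtain ⟨r, rfl⟩ := Submodule.mem_span_singleton.1 m
    have r0 : r ≠ 0 := by rintro rfl; simpa using hn.ne
    rw [ez, show s * z = s from N.iext fun u a => by
      rw [hn.2, is.2]
      simp only [orth_q_smul, map_smul, LinearMap.smul_apply, smul_eq_mul, RingHom.id_apply, smul_smul]
      congr 3
      field_simp, N.iv_sq is])
  obtain ⟨y, y0, -⟩ := N.exU 0 0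
  have y1 : y ≠ 0 := by rintro rfl; simp at y0
  have wn : T.h w n = 0 := by
    have b : (s * z).1 (s.1 (t y n)) = s.1 (t y n) := by
      rw [← isom_mul_apply, j1, isom_mul_apply, hn.fix]
    rw [is.2, hn.2] at b
    replace b := N.inj' y1 b
    generalize (T.q n)⁻¹ * T.h n _ = κ at b
    obtain ⟨p, p1, p2⟩ := N.ndW.exists_perp_of_notMem' nw 1
    rw [mem_perp_singleton] at p1
    have b1 := congrArg (T.h p) b
    simp only [map_sub, map_smul, os w p, os n p, p1, p2, smul_eq_mul] at b1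
    obtain rfl : κ = -2 := by linear_combination b1
    simpa [two, hw, is.ne] using
      (by linear_combination (norm := module) -b : (2 * ((T.q w)⁻¹ * T.h w n)) • w = 0)
  obtain ⟨m, m1, m0⟩ := Submodule.exists_mem_ne_zero_of_ne_bot (p := T.perp (pl F w n)) fun e => by
    have := N.ndW.finrank_perp (pl F w n)
    rw [e, fr_pl is.ne nw, N.three] at this
    simp at this
  rw [mem_perp_pair] at m1
  let ι : W → W →ₗ[F] W := fun w => ((T.q w)⁻¹ • T.h w).smulRight w - .id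
  have ez' : ∀ u a, z.1 (t u a) = t u ((ι w ∘ₗ ι n) a) := fun u a => by
    rw [ez, isom_mul_apply, hn.2, is.2]; simp [ι]
  obtain ⟨p, q⟩ := inv3 (σ := ι w ∘ₗ ι n) N.ndW two N.three (fun a b => by
    simpa [ez', N.tt, orth_h_self, y0, two] using isom_h z (t y a) (t y b)) m0 (by simp [ι, m1]) is.ne nw
    (by simp [ι, os w n, wn, orth_h_self, mul_left_comm, hw, two_smul])
    (by simp [ι, wn, orth_h_self, mul_left_comm, hn.1, two_smul])
  have iz : Iv T t m z := ⟨p, fun u a => by rw [ez', q]⟩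
  obtain ⟨m', hm'⟩ := N.cl hN iz iτ ‹g * τ * g⁻¹ ∈ H› z4 rfl
  exact N.c1 hN iτ hm' hg (by simp)

omit hN in
theorem dich : S.E ≤ H ∨ ∀ g ∈ H, ∀ u, ∃ u', ∀ x, (∃ w, t u w = x) ↔ ∃ w, t u' w = g.1 x :=
  N.nl_or.imp_right fun hN g hg u => by
    obtain ⟨e, h0, -⟩ := ex_sing (T := A) (by have := N.four; omega)
    obtain ⟨ρ, h⟩ := N.all_ten hN hg
    obtain ⟨u', a⟩ := h u
    obtain ⟨e', b⟩ := h e
    refine ⟨u', fun x => ⟨by rintro ⟨w, rfl⟩; exact ⟨_, (a w).symm⟩, fun ⟨w, h⟩ => ?_⟩⟩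
    obtain ⟨w, rfl⟩ := N.surj h0 b w
    exact ⟨w, g.1.injective ((a w).trans h)⟩

end TQ
end

open Matrix Cfsg.Geo
open scoped Kronecker

theorem oo_kr4 {F : Type*} [Field F] [Fintype F] {ι κ μ : Type} [Fintype ι] [DecidableEq ι] [Fintype κ]
    [DecidableEq κ] [Fintype μ] [DecidableEq μ] (hq : Odd (Fintype.card F)) {S : PForm (orthP F) (ι → F)}
    {A : PForm (orthP F) (μ → F)} {B : PForm (orthP F) (κ → F)} (hS : S.Nondeg) (hA : A.Nondeg)
    (hB : B.Nondeg) (T : (κ × μ → F) ≃ₗ[F] (ι → F))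
    (b3 : ∀ u w u' w', S.h (T (tp u w)) (T (tp u' w')) = A.h u u' * B.h w w')
    (h5 : Fintype.card μ = 4) (h3 : Fintype.card κ = 3) (hex : Fintype.card F ≠ 3) (h4 : ¬ A.HasTS 2)
    (H : Subgroup S.Isom) (hH : ∀ g ∈ S.E, (∃ a b, toGL S g = ΦU T (kronU a b)) → g ∈ H) :
    S.E ≤ H ∨ Kr (H.map (toGL S)) T := by
  haveI : Nonempty κ := Fintype.card_pos_iff.1 (by omega)
  haveI : Nonempty μ := Fintype.card_pos_iff.1 (by omega)
  have h2 := two_ne_zero_of_odd hq
  let t : (μ → F) →ₗ[F] (κ → F) →ₗ[F] (ι → F) := tp.compr₂ T.toLinearMap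
  let c : (μ → F) →ₗ[F] (ι → F) →ₗ[F] (κ → F) := (ct ∘ₗ A.h).compl₂ T.symm.toLinearMap
  have ht : ∀ u w, t u w = T (tp u w) := fun _ _ => rfl
  replace b3 : ∀ u w u' w', S.h (t u w) (t u' w') = A.h u u' * B.h w w' := b3
  have b1 : ∀ v u w, c v (t u w) = A.h v u • w := fun z w u => by simp [c, ht]
  have b2 : ∀ M : AddSubgroup _, (∀ u w, t u w ∈ M) → ∀ x, x ∈ M := fun M hM x => by
    obtain ⟨x, rfl⟩ := T.surjective x
    rw [← Finset.univ_sum_single x, map_sum]
    refine sum_mem fun p _ => ?_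
    have := hM (Pi.single p.2 1) (x p • Pi.single p.1 1)
    rwa [ht, map_smul, tp_single, ← Pi.single_smul, smul_eq_mul, mul_one] at this
  have b4 : ∀ u w x, S.h (t u w) x = B.h w (c u x) := fun u w x => sub_eq_zero.1
    (b2 (S.h (t u w) - B.h w ∘ₗ c u).toAddMonoidHom.ker (fun w' u' => by simp [b1, b3]) x)
  have hn : 3 ≤ finrank F (ι → F) := by
    rw [← T.finrank_eq, finrank_fintype_fun_eq_card, Fintype.card_prod]; nlinarith
  obtain ⟨e, e0, he⟩ := ex_sing (T := S) hn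
  obtain ⟨f, Hy⟩ := hS.exists_isHyp ((S.orth_sing _).2 he) e0
  have key0 : ∀ (γ : A.Isom) (ρ : B.Isom), ∃ g : S.Isom, toGL S g = ΦU T (kronU (toGL B ρ) (toGL A γ)) ∧
      ∀ u w, g.1 (t u w) = t (γ.1 u) (ρ.1 w) := by
    intro γ ρ
    let g := glEquiv (ΦU T (kronU (toGL B ρ) (toGL A γ)))
    have a3 : ∀ u w, g (t u w) = t (γ.1 u) (ρ.1 w) := fun u w =>
      (Φ_mulVec _ _ _).trans (congrArg _ ((kron_mulVec_tp _ _ _ _).trans (by
        rw [toGL_mulVec, toGL_mulVec])))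
    have a4 : ∀ x y, S.h (g x) (g y) = S.h x y := fun x y => sub_eq_zero.1
      (b2 (S.h (g x) ∘ₗ g.toLinearMap - S.h x).toAddMonoidHom.ker (fun u' w' => b2
        (S.h.flip (g (t u' w')) ∘ₗ g.toLinearMap - S.h.flip (t u' w')).toAddMonoidHom.ker (fun y x => by
          change S.h (g _) (g _) - S.h _ _ = 0
          rw [a3, a3, b3, b3, isom_h, isom_h, sub_self]) x) y)
    let k : S.Isom := ⟨g, orth_isIsom (f := g.toLinearMap) fun x => mul_left_cancel₀ h2 (by
      rw [← orth_h_self, ← orth_h_self]; exact a4 x x)⟩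
    exact ⟨k, Units.ext (ext_mulVec fun x => toGL_mulVec _ _ _), a3⟩
  have key : ∀ (γ : A.Isom) (ρ : B.Isom), ∃ g : S.Isom, g * g ∈ H ∧
      ∀ u w, g.1 (t u w) = t (γ.1 u) (ρ.1 w) := by
    intro γ ρ
    obtain ⟨k, a5, a3⟩ := key0 γ ρ
    exact ⟨k, hH _ ((hS.mem_E_iff hn Hy _).2 (by simp [Int.units_mul_self])) ⟨toGL B ρ * toGL B ρ,
      toGL A γ * toGL A γ, by
        rw [map_mul, a5, ← map_mul]
        exact congrArg _ (Units.ext (mul_kronecker_mul _ _ _ _).symm)⟩, a3⟩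
  refine (TQ.dich (A := A) (T := B) (t := t) (c := c) ⟨h2, hS, hA, hB, b1, b2, b4,
    lift_E h2 (fun u w => t u w) fun γ => key γ 1, fun ρ hρ =>
      (lift_E h2 (fun w u => t u w) (fun ρ => (key 1 ρ).imp fun _ h => ⟨h.1, fun w u => h.2 u w⟩) ρ
        hρ).imp fun _ h => ⟨h.1, fun u w => h.2 w u⟩, fun g hg ρ h => ?_, by simpa, by simpa, ?_,
    fun f s a1 a2 a3 a4 => by_contra fun a5 => ?_, h4_of hB (.inr fun h' => ?_)⟩).imp_right fun h => ?_
  · obtain ⟨k, a5, a3⟩ := key0 1 ρ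
    obtain rfl : g = k := isom_ext fun x => sub_eq_zero.1 (b2 ((g.1 : (ι → F) →ₗ[F] (ι → F)) -
      k.1).toAddMonoidHom.ker (fun u w => sub_eq_zero.2 ((h u w).trans (a3 u w).symm)) x)
    exact hH _ hg ⟨_, _, a5⟩
  · exact exists_sq_ne_one (by
      have := Fintype.one_lt_card (α := F)
      obtain ⟨r, hr⟩ := hq
      rw [Nat.card_eq_fintype_card]
      omega)
  · refine h4 ⟨pl F f s, orth_ts fun x hx => ?_, fr_pl a4 a5⟩
    obtain ⟨a, b, rfl⟩ := mem_pl.1 hx
    simp [orth_q_add, orth_q_smul, a1, a2, a3]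
  · have := h'.two_mul_le hB
    simp only [finrank_fintype_fun_eq_card] at this
    omega
  rintro _ ⟨k, hk, rfl⟩
  obtain ⟨g, eg⟩ := (ΦU T).surjective (toGL S k)
  have c1 : ∀ x, T ((g⁻¹ : GL _ F).1 *ᵥ x) = k⁻¹.1 (T x) := fun x => by
    rw [← Φ_mulVec, ← coe_ΦU, map_inv, eg, ← map_inv, toGL_mulVec]
  obtain ⟨α, β, e⟩ := nml_kron (g := g) fun X => eq_kron_of_pure fun w u => by
    obtain ⟨w', h3⟩ := h _ (H.inv_mem hk) w
    obtain ⟨v, hv⟩ := (h3 _).1 ⟨u, rfl⟩
    rw [ht, ht, ← c1, T.injective.eq_iff] at hv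
    obtain ⟨y, hy⟩ := (h3 (T (cjA g (X ⊗ₖ 1) *ᵥ tp w u))).2 ⟨X *ᵥ v, by
      rw [← c1, ← mulVec_inv_mulVec g (tp w u), cjA_mulVec, inv_mulVec_mulVec, ← hv, kron_mulVec_tp,
        one_mulVec, ht]⟩
    exact ⟨y, T.injective hy⟩
  exact ⟨α, β, eg ▸ congrArg _ (Units.ext e)⟩

theorem oo_ten4 {F : Type*} [Field F] [Fintype F] {ι : Type} [Fintype ι] [DecidableEq ι]
    (hq : Odd (Fintype.card F)) {Q : (ι → F) → F} (hQ : IsNondegenerateQuadraticForm Q) {a b : ℕ}
    (ha : a = 3) (hb : b = 4) (hex : Fintype.card F ≠ 3) (e : ι ≃ Fin a × Fin b) (P : GL ι F)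
    {f₁ : (Fin a → F) → (Fin a → F) → F} {f₂ : (Fin b → F) → (Fin b → F) → F}
    (h₁ : IsSymmetricForm f₁) (h₂ : IsSymmetricForm f₂)
    (hm : ¬ IsPlusTypeOn (fun v => f₂ v v) ⊤)
    (hT : IsTensorFormStructure id (QuadraticMap.polar Q) f₁ f₂ e P) :
    IsMaximalIn (omegaGL Q) (tensorProductSubgroup a b e P ⊓ omegaGL Q) := by
  have hc : Fintype.card ι = a * b := by simp [Fintype.card_congr e]
  have hn : 7 ≤ Fintype.card ι := by nlinarith
  have h1 : ¬ omegaGL Q ≤ tensorProductSubgroup a b e P := fun hle => (big_omega hQ hn).not_kr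
    (T := coordT e P) (by omega) (by omega) (by nlinarith) fun g hg => kr_self e P g (hle hg)
  have hS := quadOf_nondeg hQ
  have e1 := omegaGL_eq _ hS hn
  rw [coe_quadOf] at e1
  rw [e1] at h1 ⊢
  have h2 := two_ne_zero_of_odd hq
  obtain ⟨s, s0, hs⟩ := hT
  let A := symmS h2 (s • bilinOf h₁.bilinear) ⟨fun x y => by simp [h₁.symm x y]⟩
  let B := symmS h2 (bilinOf h₂.bilinear) ⟨fun x y => by simp [h₂.symm x y]⟩
  have hA : A.Nondeg := fun x hx => by_contra fun h0 => (h₁.nondegenerate x h0).2.elim fun y hy => hy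
    ((mul_eq_zero.1 (hx y)).resolve_left s0)
  have hB : B.Nondeg := fun x hx => by_contra fun h0 => (h₂.nondegenerate x h0).2.elim fun y hy =>
    hy (hx y)
  have b3 : ∀ w u w' u', (orthS (quadOf hQ)).h (coordT e P (tp w u)) (coordT e P (tp w' u')) =
      A.h u u' * B.h w w' := fun w u w' u' => by
    refine (hs (tp w u) (tp w' u')).trans ((congrArg _ (fm_kron (σ := RingHom.id F) _ _ u u' w w')).trans ?_)
    rw [← eq_fm_of_bilin h₁.bilinear, ← eq_fm_of_bilin h₂.bilinear, ← mul_assoc]; rfl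
  refine isMaximalIn_of_not_le _ h1 fun H hH => ?_
  generalize orthS (quadOf hQ) = S at *
  refine (oo_kr4 hq hS hB hA (coordT e P) (fun u w u' w' => (b3 u w u' w').trans (mul_comm _ _))
    (by simpa) (by simpa) hex (fun ⟨X, h3, h4⟩ => ?_) H fun g hg ⟨α, β, h⟩ =>
      hH g hg (mem_tensorProductSubgroup.2 ⟨α, β, congrArg Units.val h⟩)).imp_right Kr.le
  refine hm ⟨X, le_top, fun x hx => ?_, by simp [h4, hb]⟩
  simpa [B, symmS, h2] using orth_ts_iff.1 h3 x hx

end H23.Tq
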