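import Cfsg.Agent.H29.NM2
import Cfsg.Agent.H29.ExtO

/-! Tensor-wreath stabilisers `Sp_k ≀ S_t` (`k ≤ 4`, characteristic two) in `Ω⁺` are not maximal:
they normalise the span of the "Clifford generators" on the factors (`H23.TW.between_wr`). -/

set_option autoImplicit false
set_option linter.unusedSectionVars false

namespace H23.TW

open H29 Matrix Cfsg.Geo Module H11 H11.PForm

variable {F : Type*} [Field F] [Fintype F] {ι κ : Type} [Fintype ι] [DecidableEq ι]
  [Fintype κ] [DecidableEq κ] {t : ℕ} {G : Matrix ι ι F} {Q : (ι → F) → F}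
  {T : ((Fin t → κ) → F) ≃ₗ[F] (ι → F)} {G₀ : Matrix κ κ F} {c : F}

local notation "ρ" => RingHom.id _

/-- pure tensors -/
def pv (T : ((Fin t → κ) → F) ≃ₗ[F] (ι → F)) (u : Fin t → κ → F) : ι → F :=
  T fun y => ∏ i, u i (y i)

/-- operators on one factor -/
noncomputable def fa (T : ((Fin t → κ) → F) ≃ₗ[F] (ι → F)) (i : Fin t) (y : Matrix κ κ F) :
    Matrix ι ι F := Φ T (ten (Pi.mulSingle i y))

theorem ten_pv (X : Fin t → Matrix κ κ F) (u : Fin t → κ → F) :
    ten X *ᵥ (fun y : Fin t → κ => ∏ i, u i (y i)) =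
      fun y : Fin t → κ => ∏ i, (X i *ᵥ u i) (y i) := by
  ext y
  simp only [mulVec, dotProduct, ten_apply, Finset.prod_univ_sum, Fintype.piFinset_univ,
    Finset.prod_mul_distrib]

theorem fa_pv (i : Fin t) (y : Matrix κ κ F) (u : Fin t → κ → F) :
    fa T i y *ᵥ pv T u = pv T (Function.update u i (y *ᵥ u i)) := by
  rw [fa, pv, Φ_mulVec, ten_pv, pv]
  congr 1
  ext x
  refine Finset.prod_congr rfl fun j _ => ?_
  obtain rfl | h := eq_or_ne j i
  · simp
  · simp [h]

theorem fm_pv (hG : gT ρ G T = c • ten fun _ => G₀) (u v : Fin t → κ → F) :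
    fm ρ G (pv T u) (pv T v) = c * ∏ i, fm ρ G₀ (u i) (v i) := by
  rw [pv, pv, ← fm_gT, hG, fm_smul, fm_ten]

theorem single_pv (p : Fin t → κ) : T (Pi.single p 1) = pv T fun i => Pi.single (p i) 1 := by
  rw [pv]
  congr 1
  ext z
  simp [Pi.single_apply, Finset.prod_boole, funext_iff]

theorem pv_ind {p : (ι → F) → Prop} (h1 : ∀ u, p (pv T u)) (h0 : p 0)
    (ha : ∀ x y, p x → p y → p (x + y)) (hs : ∀ (c : F) x, p x → p (c • x)) (v : ι → F) : p v := by
  have hv : v ∈ Submodule.span F (Set.range ((Pi.basisFun F (Fin t → κ)).map T)) := by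
    rw [Basis.span_eq]; trivial
  induction hv using Submodule.span_induction with
  | mem x hx => obtain ⟨p, rfl⟩ := hx; simpa [single_pv] using h1 _
  | zero => exact h0
  | add x y _ _ h h' => exact ha _ _ h h'
  | smul c x _ h => exact hs _ _ h

theorem ext_pv {a b : Matrix ι ι F} (h : ∀ u, a *ᵥ pv T u = b *ᵥ pv T u) : a = b :=
  ext_mulVec (pv_ind (T := T) h (by simp) (fun x y hx hy => by rw [mulVec_add, mulVec_add, hx, hy])
    fun c x hx => by rw [mulVec_smul, mulVec_smul, hx])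

theorem pv_add (u : Fin t → κ → F) (i : Fin t) (a b : κ → F) :
    pv T (Function.update u i (a + b)) =
      pv T (Function.update u i a) + pv T (Function.update u i b) := by
  rw [pv, pv, pv, ← map_add]
  congr 1
  ext y
  simp only [Pi.add_apply, ← Finset.mul_prod_erase _ _ (Finset.mem_univ i), Function.update_self,
    add_mul]
  congr 2 <;> exact Finset.prod_congr rfl fun j hj => by simp [Finset.ne_of_mem_erase hj]

theorem pv_smul (u : Fin t → κ → F) (i : Fin t) (d : F) (a : κ → F) :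
    pv T (Function.update u i (d • a)) = d • pv T (Function.update u i a) := by
  rw [pv, pv, ← map_smul]
  congr 1
  ext y
  simp only [Pi.smul_apply, ← Finset.mul_prod_erase _ _ (Finset.mem_univ i), Function.update_self,
    smul_eq_mul, mul_assoc]
  congr 2
  exact Finset.prod_congr rfl fun j hj => by simp [Finset.ne_of_mem_erase hj]

theorem fa_mul (i : Fin t) (y z : Matrix κ κ F) : fa T i y * fa T i z = fa T i (y * z) :=
  ext_pv (T := T) fun u => by rw [← mulVec_mulVec, fa_pv, fa_pv, fa_pv]; simp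

theorem fa_add (i : Fin t) (y z : Matrix κ κ F) : fa T i (y + z) = fa T i y + fa T i z :=
  ext_pv (T := T) fun u => by rw [add_mulVec, fa_pv, fa_pv, fa_pv, add_mulVec, pv_add]

theorem fa_sc (i : Fin t) (d : F) : fa T i (d • 1) = d • 1 :=
  ext_pv (T := T) fun u => by rw [fa_pv, smul_mulVec, smul_mulVec, pv_smul]; simp

theorem fa_one (i : Fin t) : fa T i 1 = 1 := by simpa using fa_sc (T := T) i 1

theorem fa_zero (i : Fin t) : fa T i 0 = 0 := by simpa using fa_sc (T := T) i 0

theorem fa_comm {i j : Fin t} (h : i ≠ j) (y z : Matrix κ κ F) :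
    fa T i y * fa T j z = fa T j z * fa T i y :=
  ext_pv (T := T) fun u => by
    rw [← mulVec_mulVec, ← mulVec_mulVec, fa_pv, fa_pv, fa_pv, fa_pv, Function.update_of_ne h,
      Function.update_of_ne h.symm, Function.update_comm h]

theorem fa_adj (hG : gT ρ G T = c • ten fun _ => G₀) (i : Fin t) {z : Matrix κ κ F}
    (hz : ∀ a b, fm ρ G₀ (z *ᵥ a) b = fm ρ G₀ a (z *ᵥ b)) (x y : ι → F) :
    fm ρ G (fa T i z *ᵥ x) y = fm ρ G x (fa T i z *ᵥ y) := by
  induction x using pv_ind (T := T) with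
  | h0 => simp
  | ha x x' h h' => rw [mulVec_add, fm_add_left, fm_add_left, h, h']
  | hs d x h => rw [mulVec_smul, fm_smul_left, fm_smul_left, h]
  | h1 u =>
    induction y using pv_ind (T := T) with
    | h0 => simp
    | ha x x' h h' => rw [mulVec_add, fm_add_right, fm_add_right, h, h']
    | hs d x h => rw [mulVec_smul, fm_smul_right, fm_smul_right, h]
    | h1 v =>
      rw [fa_pv, fa_pv, fm_pv hG, fm_pv hG]
      congr 1
      refine Finset.prod_congr rfl fun j _ => ?_
      obtain rfl | h := eq_or_ne j i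
      · simp [hz]
      · simp [h]

theorem cjA_fa (d : Fˣ) (π : Equiv.Perm (Fin t)) (a : Fin t → GL κ F) (i : Fin t)
    (y : Matrix κ κ F) : cjA (scU d * ΦU T (pmU F κ π * tenU a)) (fa T i y) =
      fa T (π i) (cjA (a i) y) := by
  rw [cjA_mul, cjA_scU, fa, ← Φ_cjA, cjA_ten, fa]

theorem wr_pv (d : Fˣ) (π : Equiv.Perm (Fin t)) (a : Fin t → GL κ F) (u : Fin t → κ → F) :
    ∃ u', (scU d * ΦU T (pmU F κ π * tenU a) : GL ι F).1 *ᵥ pv T u = (d : F) • pv T u' :=
  ⟨fun i => (a (π.symm i) : Matrix κ κ F) *ᵥ u (π.symm i), by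
    rw [Units.val_mul, ← mulVec_mulVec, coe_ΦU, pv, Φ_mulVec, ten_mulVec,
      coe_scU, smul_mulVec, one_mulVec]; rfl⟩

theorem fm_up2 (hG : gT ρ G T = c • ten fun _ => G₀) {i j : Fin t} (h : i ≠ j)
    (r r' : Fin t → κ → F) (α β α' β' : κ → F) :
    fm ρ G (pv T (Function.update (Function.update r j β) i α))
      (pv T (Function.update (Function.update r' j β') i α')) =
      c * (fm ρ G₀ α α' * (fm ρ G₀ β β' *
        ∏ l ∈ (Finset.univ.erase i).erase j, fm ρ G₀ (r l) (r' l))) := by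
  rw [fm_pv hG, ← Finset.mul_prod_erase _ _ (Finset.mem_univ i),
    ← Finset.mul_prod_erase _ _ (Finset.mem_erase.2 ⟨h.symm, Finset.mem_univ j⟩)]
  simp only [Function.update_self, Function.update_of_ne h.symm]
  congr 3
  refine Finset.prod_congr rfl fun l hl => ?_
  have h1 := Finset.ne_of_mem_erase hl
  have h2 := Finset.ne_of_mem_erase (Finset.mem_of_mem_erase hl)
  simp [h1, h2]

theorem mem_omega (h : QInv G (Cfsg.isometryGroup F Q) Q) (hn : 7 ≤ Fintype.card ι) {g : GL ι F}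
    (hg : g ∈ Cfsg.isometryGroup F Q) {N : Matrix ι ι F} (h1 : g.1 = 1 + N)
    (h2 : ∀ x, Q (N *ᵥ x) = 0) : g ∈ omegaGL Q := by
  have := (isometryGroup_eq (quadOf h.1)) ▸ hg
  obtain ⟨k, rfl⟩ := this
  rw [h.omega_eq hn]
  refine ⟨k, cent_mem h.nondeg (LinearMap.range (toLin' N)) ?_ (fun _ _ _ _ => eich_mem_E _ _ _ _)
    fun x => ⟨x, ?_⟩, rfl⟩
  · rintro _ ⟨x, rfl⟩
    exact h2 x
  · rw [← toGL_mulVec, h1, add_mulVec, one_mulVec]
    simp

theorem between_wr (h : QInv G (Cfsg.isometryGroup F Q) Q) (hn : 7 ≤ Fintype.card ι)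
    (h2 : (2 : F) = 0) {M : Subgroup (GL ι F)} (hM : Wr M T) (hc : c ≠ 0)
    (hG : gT ρ G T = c • ten fun _ => G₀) {ε : F} (h0 : HF ρ ε G₀)
    (ha : ∀ w, fm ρ G₀ w w = 0) (hp : ∀ u, Q (pv T u) = 0) (Pz : Matrix κ κ F → Prop)
    (P1 : ∀ a ∈ Sim ρ G₀, ∀ y, Pz y → Pz (cjA a y))
    (P2 : ∀ y z, Pz y → Pz z → Sc (z * y + y * z)) {z : Matrix κ κ F} (z1 : Pz z) (z2 : z * z = 0)
    (z3 : ∀ a b, fm ρ G₀ (z *ᵥ a) b = fm ρ G₀ a (z *ᵥ b)) {w : κ → F} (z4 : z *ᵥ w ≠ 0)
    {i j : Fin t} (ij : i ≠ j)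
    (z5 : (∃ l, l ≠ i ∧ l ≠ j) ∨ (∀ a, fm ρ G₀ a (z *ᵥ a) = 0) ∧ 3 ≤ Fintype.card κ) :
    ∃ K, M ⊓ omegaGL Q < K ∧ K < omegaGL Q := by
  have w0 : w ≠ 0 := by rintro rfl; simp at z4
  haveI : Nonempty κ := not_isEmpty_iff.1 fun _ => w0 (Subsingleton.elim _ _)
  have w1 : z *ᵥ w ∉ F ∙ w := fun e => by
    obtain ⟨d, e⟩ := Submodule.mem_span_singleton.1 e
    have := congrArg (z *ᵥ ·) e
    simp only [mulVec_smul, mulVec_mulVec, z2, zero_mulVec, smul_eq_zero, z4, or_false] at this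
    exact z4 (by rw [← e, this, zero_smul])
  have w2 : w ∉ F ∙ (z *ᵥ w) := fun e => by
    obtain ⟨d, e⟩ := Submodule.mem_span_singleton.1 e
    exact z4 (by rw [← e, mulVec_smul, mulVec_mulVec, z2, zero_mulVec, smul_zero])
  obtain ⟨w', w3⟩ : ∃ w', fm ρ G₀ w' w ≠ 0 := not_forall.1 fun e => w0 (h0.right e)
  obtain ⟨α, a1, a2⟩ := h0.exists_sep1 w2
  obtain ⟨α', a3, a4⟩ := h0.exists_sep1 w1
  have hneg : ∀ x : Matrix ι ι F, x + x = 0 := fun x => by rw [← two_smul F, h2, zero_smul]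
  let L : Submodule F (Matrix ι ι F) := Submodule.span F {x | ∃ l y, Pz y ∧ x = fa T l y}
  have hL : ∀ g : GL ι F, (∀ l y, Pz y → cjA g (fa T l y) ∈ L) → ∀ x ∈ L, cjA g x ∈ L :=
    fun g hg x hx => by
      induction hx using Submodule.span_induction with
      | mem x hx => obtain ⟨l, y, hy, rfl⟩ := hx; exact hg l y hy
      | zero => simp
      | add x y _ _ h h' => rw [map_add]; exact add_mem h h'
      | smul c x _ h => rw [map_smul]; exact L.smul_mem _ h
  have hLz : ∀ l y, Pz y → fa T l y ∈ L := fun l y hy => Submodule.subset_span ⟨l, y, hy, rfl⟩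
  refine between_pred (fun g => ∀ x ∈ L, cjA g x ∈ L) (by simp)
    (fun a b h1 h2 x hx => by rw [cjA_mul]; exact h1 _ (h2 x hx)) (fun g g1 g2 => ?_) ?_ ?_
  · have : Wr (M ⊓ omegaGL Q) T := fun g hg => hM g hg.1
    obtain ⟨d, π, a, b1, rfl⟩ := this.sim (fun g hg => Iso_le_Sim (h.iso (omegaGL_le hg.2))) hc hG
      h0.ne_zero g ⟨g1, g2⟩
    exact hL _ fun l y hy => by rw [cjA_fa]; exact hLz _ _ (P1 _ (b1 l) y hy)
  · obtain ⟨l, p, p', l1, p1, p2, p3⟩ : ∃ l p p', l ≠ i ∧ fm ρ G₀ p' w = 0 ∧ fm ρ G₀ p' p ≠ 0 ∧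
        (l = j → fm ρ G₀ p w = 0) := by
      rcases z5 with ⟨l, l1, l2⟩ | ⟨-, e⟩
      · exact ⟨l, w', w, l1, ha w, fun e => w3 (h0.eq_zero_comm e), fun e => absurd e l2⟩
      · obtain ⟨p, p1, p2⟩ := exists_perp_notMem h0 e w
        obtain ⟨p', p3, p4⟩ := h0.exists_sep1 p1
        exact ⟨j, p, p', ij.symm, p3, p4, fun _ => h0.eq_zero_comm p2⟩
    set v := pv T fun _ => w
    set y := pv T (Function.update (fun _ => w) l p)
    set a := pv T (Function.update (fun _ => w') l p')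
    have y1 : ∀ m X, fm ρ G y (fa T m X *ᵥ v) = 0 := fun m X => by
      rw [fa_pv, fm_pv hG]
      obtain rfl | e := eq_or_ne m i
      · rw [Finset.prod_eq_zero (Finset.mem_univ j), mul_zero]
        rw [Function.update_of_ne ij.symm]
        obtain rfl | e := eq_or_ne l j
        · simpa using p3 rfl
        · simpa [e.symm] using ha w
      · rw [Finset.prod_eq_zero (Finset.mem_univ i), mul_zero]
        simpa [e.symm, l1.symm] using ha w
    have y2 : ∀ x ∈ L, fm ρ G y (x *ᵥ v) = 0 := fun x hx => by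
      induction hx using Submodule.span_induction with
      | mem x hx => obtain ⟨l, y, hy, rfl⟩ := hx; exact y1 _ _
      | zero => simp
      | add x y _ _ h h' => rw [add_mulVec, fm_add_right, h, h', add_zero]
      | smul c x _ h => rw [smul_mulVec, fm_smul_right, h, mul_zero]
    have y3 : fm ρ G y v = 0 := by simpa [fa_one] using y1 i 1
    have b1 : ∀ X, fm ρ G a (fa T i X *ᵥ v) = 0 := fun X => by
      rw [fa_pv, fm_pv hG, Finset.prod_eq_zero (Finset.mem_univ l), mul_zero]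
      simpa [l1] using p1
    have b2 : fm ρ G a v = 0 := by simpa [fa_one] using b1 1
    have b3 : fm ρ G y a ≠ 0 := fun e => by
      have := h.hf.eq_zero_comm e
      rw [fm_pv hG] at this
      refine mul_ne_zero hc (Finset.prod_ne_zero_iff.2 fun m _ => ?_) this
      obtain rfl | e := eq_or_ne m l
      · simpa using p2
      · simpa [e] using w3
    obtain ⟨b, b4, b5, b6⟩ := h.hf.exists_sep2 (u := a) (u' := v) (w := fa T i z *ᵥ v) fun e => by
      obtain ⟨c₁, c₂, e⟩ := Submodule.mem_span_pair.1 e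
      have e1 := congrArg (fm ρ G y) e
      rw [y1, fm_add_right, fm_smul_right, fm_smul_right, y3] at e1
      obtain rfl : c₁ = 0 := by simpa [b3] using e1
      have e2 := congrArg (fm ρ G (pv T (Function.update (fun _ => w') i α'))) e
      rw [zero_smul, zero_add, fm_smul_right, fa_pv, fm_pv hG, fm_pv hG,
        Finset.prod_eq_zero (Finset.mem_univ i) (by simpa using a3), mul_zero, mul_zero] at e2
      refine mul_ne_zero hc (Finset.prod_ne_zero_iff.2 fun m _ => ?_) e2.symm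
      obtain rfl | e := eq_or_ne m i
      · simpa using a4
      · simpa [e] using w3
    obtain ⟨g, g1, g2⟩ := h.exists_eich hn (u := a) (hp _) (h.hf.eq_zero_comm b4)
    refine ⟨g, g1, fun e => ?_⟩
    have e1 := y2 _ (e _ (hLz i z z1))
    have e2 : g.1 *ᵥ v = v := by simp [g2, b2, b5]
    conv_lhs at e1 => rw [← e2]
    rw [cjA_mulVec, g2, b1] at e1
    simp [fm_sub_right, fm_smul_right, y1, b6, b3] at e1
  · set N := fa T i z * fa T j z with hN
    have n0 : ∀ l, fa T l z * fa T l z = 0 := fun l => by rw [fa_mul, z2, fa_zero]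
    have n1 : N * N = 0 := by
      rw [hN, mul_assoc, ← mul_assoc (fa T j z), ← fa_comm ij, mul_assoc, n0, mul_zero, mul_zero]
    have n2 : (1 + N) * (1 + N) = 1 := by
      rw [add_mul, mul_add, mul_add, n1, one_mul, one_mul, mul_one, add_zero, add_assoc, hneg,
        add_zero]
    have n3 : ∀ x y, fm ρ G (N *ᵥ x) y = fm ρ G x (N *ᵥ y) := fun x y => by
      rw [hN, ← mulVec_mulVec, fa_adj hG _ z3, fa_adj hG _ z3, mulVec_mulVec, fa_comm ij]
    have n4 : ∀ u, N *ᵥ pv T u =
        pv T (Function.update (Function.update u j (z *ᵥ u j)) i (z *ᵥ u i)) := fun u => by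
      rw [hN, ← mulVec_mulVec, fa_pv, fa_pv, Function.update_of_ne ij]
    have n5 : ∀ x, Q (N *ᵥ x) = 0 := pv_ind (T := T) (fun u => by rw [n4, hp])
      (by rw [mulVec_zero, h.zero])
      (fun x y hx hy => by rw [mulVec_add, h.add, hx, hy, n3, mulVec_mulVec, n1]; simp)
      fun c x hx => by rw [mulVec_smul, h.1.smul, hx, mul_zero]
    have n6 : ∀ x, fm ρ G x (N *ᵥ x) = 0 := pv_ind (T := T) (fun u => by
        rw [n4, fm_pv hG]
        rcases z5 with ⟨l, l1, l2⟩ | ⟨e, -⟩
        · rw [Finset.prod_eq_zero (Finset.mem_univ l), mul_zero]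
          simpa [l1, l2] using ha _
        · rw [Finset.prod_eq_zero (Finset.mem_univ i), mul_zero]
          simpa using e _) (by simp)
      (fun x y hx hy => by
        rw [mulVec_add, fm_add_left, fm_add_right, fm_add_right, hx, hy, ← n3 y, h.symm (N *ᵥ y)]
        linear_combination fm ρ G x (N *ᵥ y) * h2)
      fun c x hx => by rw [mulVec_smul, fm_smul_left, fm_smul_right, hx]; simp
    let g : GL ι F := ⟨1 + N, 1 + N, n2, n2⟩
    have g1 : ∀ x, g.1 *ᵥ x = x + N *ᵥ x := fun x => by simp [g, add_mulVec]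
    have key : ∀ {i j : Fin t}, i ≠ j → N = fa T i z * fa T j z → ∀ y, Pz y →
        cjA g (fa T i y) ∈ L := fun {i j} ij hN y hy => by
      obtain ⟨d, e⟩ := P2 y z hy z1
      have : cjA g (fa T i y) = fa T i y + d • fa T j z := cjA_eq_iff.2 (by
        have e1 := congrArg (fa T i) e
        rw [fa_add, fa_sc, ← fa_mul, ← fa_mul] at e1
        have e2 : fa T j z * N = 0 := by
          rw [hN, fa_comm ij, ← mul_assoc, n0, zero_mul]
        have e3 : N * fa T i y + fa T i y * N = d • fa T j z := by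
          rw [hN, mul_assoc, ← fa_comm ij, ← mul_assoc, ← mul_assoc, ← add_mul, e1]; simp
        change (1 + N) * _ = _ * (1 + N)
        rw [add_mul, add_mul, mul_add, mul_add, smul_mul_assoc, smul_mul_assoc, e2, mul_one,
          mul_one, ← e3, one_mul, smul_zero, add_zero]
        linear_combination (norm := abel) -hneg (fa T i y * N))
      rw [this]
      exact add_mem (hLz _ _ hy) (L.smul_mem _ (hLz _ _ z1))
    refine ⟨g, mem_omega h hn (fun x _ => ?_) rfl n5, hL g fun l y hy => ?_, fun e => ?_⟩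
    · change Q (g.1 *ᵥ x) = Q x
      rw [g1, h.add, n5, n6, add_zero, add_zero]
    · obtain rfl | e1 := eq_or_ne l i
      · exact key ij hN y hy
      obtain rfl | e2 := eq_or_ne l j
      · exact key ij.symm (hN.trans (fa_comm ij _ _)) y hy
      have : cjA g (fa T l y) = fa T l y := cjA_eq_iff.2 (by
        change (1 + N) * _ = _ * (1 + N)
        rw [add_mul, mul_add, hN, mul_assoc, fa_comm e2.symm, ← mul_assoc, fa_comm e1.symm,
          mul_assoc, one_mul, mul_one])
      rw [this]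
      exact hLz _ _ hy
    · obtain ⟨d, π, a, e⟩ := hM g e
      obtain ⟨u, e1⟩ := wr_pv (T := T) d π a fun _ => w
      rw [← e, g1, n4] at e1
      have e2 : ∀ α β, c * (fm ρ G₀ α w * (fm ρ G₀ β w *
          ∏ _ ∈ (Finset.univ.erase i).erase j, fm ρ G₀ w' w)) +
          c * (fm ρ G₀ α (z *ᵥ w) * (fm ρ G₀ β (z *ᵥ w) *
          ∏ _ ∈ (Finset.univ.erase i).erase j, fm ρ G₀ w' w)) =
          d * (c * (fm ρ G₀ α (u i) * (fm ρ G₀ β (u j) *
          ∏ l ∈ (Finset.univ.erase i).erase j, fm ρ G₀ w' (u l)))) := fun α β => by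
        have := congrArg (fm ρ G (pv T (Function.update (Function.update (fun _ => w') j β) i α))) e1
        have e3 : ∀ u : Fin t → κ → F,
          u = Function.update (Function.update u j (u j)) i (u i) := fun u => by simp
        rw [fm_add_right, fm_smul_right, fm_up2 hG ij] at this
        conv_lhs at this => rw [e3 fun _ => w]
        conv_rhs at this => rw [e3 u]
        rw [fm_up2 hG ij, fm_up2 hG ij] at this
        exact this
      have e3 := e2 α α
      have e4 := e2 α' α'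
      have e5 := e2 α α'
      have e6 := e2 α' α
      have e7 : ∏ _ ∈ (Finset.univ.erase i).erase j, fm ρ G₀ w' w ≠ 0 :=
        Finset.prod_ne_zero_iff.2 fun _ _ => w3
      generalize ∏ _ ∈ (Finset.univ.erase i).erase j, fm ρ G₀ w' w = R at *
      generalize ∏ l ∈ (Finset.univ.erase i).erase j, fm ρ G₀ w' (u l) = R' at *
      rw [a1] at e3 e5 e6
      rw [a3] at e4 e5 e6
      refine mul_ne_zero (mul_ne_zero hc (mul_ne_zero a2 (mul_ne_zero a2 e7)))
        (mul_ne_zero hc (mul_ne_zero a4 (mul_ne_zero a4 e7))) ?_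
      simp only [mul_zero, zero_mul, add_zero, zero_add] at e3 e4 e5 e6
      rw [e3, e4]
      linear_combination -(d * (c * (fm ρ G₀ α' (u i) * (fm ρ G₀ α (u j) * R')))) * e5

/-- alternating matrices -/
def Al (A : Matrix κ κ F) : Prop := (∀ i, A i i = 0) ∧ ∀ i j, A j i = -A i j

theorem al_of {A : Matrix κ κ F} (h : ∀ x, fm ρ A x x = 0) : Al A := by
  have h1 : ∀ i, A i i = 0 := fun i => (fm_single i i).symm.trans (h _)
  refine ⟨h1, fun i j => ?_⟩
  have := h (Pi.single i 1 + Pi.single j 1)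
  simp only [fm_add_left, fm_add_right, fm_single, h1] at this
  linear_combination this

/-- Pfaffian adjugate -/
def hat (A : Matrix (Fin 4) (Fin 4) F) : Matrix (Fin 4) (Fin 4) F :=
  !![0, -A 2 3, A 1 3, -A 1 2; A 2 3, 0, -A 0 3, A 0 2; -A 1 3, A 0 3, 0, -A 0 1;
    A 1 2, -A 0 2, A 0 1, 0]

/-- Pfaffian -/
def pf (A : Matrix (Fin 4) (Fin 4) F) : F := A 0 1 * A 2 3 - A 0 2 * A 1 3 + A 0 3 * A 1 2

/-- polar form of the Pfaffian -/
def pol (A B : Matrix (Fin 4) (Fin 4) F) : F := A 0 1 * B 2 3 - A 0 2 * B 1 3 + A 0 3 * B 1 2 +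
  B 0 1 * A 2 3 - B 0 2 * A 1 3 + B 0 3 * A 1 2

theorem Al.eq {A : Matrix (Fin 4) (Fin 4) F} (h : Al A) : A = !![0, A 0 1, A 0 2, A 0 3;
    -A 0 1, 0, A 1 2, A 1 3; -A 0 2, -A 1 2, 0, A 2 3; -A 0 3, -A 1 3, -A 2 3, 0] := by
  ext i j
  fin_cases i <;> fin_cases j <;> first | rfl | exact h.1 _ | exact h.2 _ _

theorem hat_mul {A : Matrix (Fin 4) (Fin 4) F} (h : Al A) : hat A * A = pf A • 1 := by
  conv_lhs => rw [show hat A * A = hat A * _ from congrArg _ h.eq]
  ext i j
  fin_cases i <;> fin_cases j <;> simp [hat, pf, Matrix.mul_apply, Fin.sum_univ_four] <;> ring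

theorem hat_pol {A B : Matrix (Fin 4) (Fin 4) F} (h : Al A) (h' : Al B) :
    A * hat B + B * hat A = pol A B • 1 := by
  conv_lhs => rw [show A * hat B = _ * hat B from congrArg (· * _) h.eq,
    show B * hat A = _ * hat A from congrArg (· * _) h'.eq]
  ext i j
  fin_cases i <;> fin_cases j <;> simp [hat, pol, Matrix.mul_apply, Fin.sum_univ_four] <;> ring

theorem pf_sq {G y : Matrix (Fin 4) (Fin 4) F} (hu : IsUnit G) (h : Al G) (h' : Al (G * y)) :
    pf G • (y * y) + pf (G * y) • 1 = pol (G * y) G • y := hu.mul_left_cancel (by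
  have h1 : pf G • y = hat G * (G * y) := by rw [← mul_assoc, hat_mul h]; simp
  have h2 := congrArg (· * (G * y)) (hat_pol h' h)
  simp only [add_mul, mul_assoc (G * y), mul_assoc G (hat _), ← h1, hat_mul h'] at h2
  simpa [mul_add, mul_assoc] using h2)

theorem pf_ne {G : Matrix (Fin 4) (Fin 4) F} (hu : IsUnit G) (h : Al G) : pf G ≠ 0 := fun e => by
  have h1 := hat_mul h
  rw [e, zero_smul] at h1
  have h2 := fun i j => congrFun₂ (hu.mul_left_eq_zero.1 h1) i j
  have := h2 0 1; have := h2 0 2; have := h2 0 3; have := h2 1 2; have := h2 1 3; have := h2 2 3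
  refine hu.ne_zero ?_
  rw [h.eq]
  simp_all [hat]
  ext i j
  fin_cases i <;> fin_cases j <;> rfl

theorem anti4 {G y z : Matrix (Fin 4) (Fin 4) F} (hu : IsUnit G) (h : Al G) (h1 : Al (G * y))
    (h2 : Al (G * z)) (h3 : y * y = 0) (h4 : z * z = 0) : Sc (z * y + y * z) := by
  have key : ∀ y, Al (G * y) → y * y = 0 → pol (G * y) G = 0 := fun y h1 h3 => by
    have e := pf_sq hu h h1
    rw [h3, smul_zero, zero_add] at e
    have e1 := congrArg (· * y) e
    simp only [smul_mul_assoc, one_mul, h3, smul_zero, smul_eq_zero] at e1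
    by_contra e2
    have e3 : y = 0 := by
      rcases e1 with e1 | e1
      · rw [e1, zero_smul] at e
        exact (smul_eq_zero.1 e.symm).resolve_left e2
      · exact e1
    simp [e3, pol] at e2
  have h5 : Al (G * (y + z)) := by
    rw [mul_add]
    exact ⟨fun i => by simp [h1.1, h2.1], fun i j => by
      rw [Matrix.add_apply, Matrix.add_apply, h1.2, h2.2, neg_add]⟩
  have e := pf_sq hu h h5
  have e1 : pol (G * (y + z)) G = 0 := by
    have a := key y h1 h3
    have b := key z h2 h4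
    simp only [pol, mul_add G, Matrix.add_apply] at a b ⊢
    linear_combination a + b
  rw [e1, zero_smul, add_mul, mul_add, mul_add, h3, h4, zero_add, add_zero, add_comm (y * z),
    add_eq_zero_iff_eq_neg] at e
  refine ⟨-(pf G)⁻¹ * pf (G * (y + z)), ?_⟩
  rw [← inv_smul_smul₀ (pf_ne hu h) (z * y + y * z), e, smul_neg, smul_smul, neg_mul, neg_smul]

theorem anti2 {y z : Matrix (Fin 2) (Fin 2) F} (h1 : y.trace = 0) (h2 : z.trace = 0) :
    Sc (z * y + y * z) := by
  rw [trace_fin_two, add_eq_zero_iff_eq_neg] at h1 h2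
  refine ⟨2 * y 1 1 * z 1 1 + y 0 1 * z 1 0 + y 1 0 * z 0 1, ?_⟩
  ext i j
  fin_cases i <;> fin_cases j <;> simp [Matrix.mul_apply, h1, h2] <;> ring

theorem zz_mulVec (p q a : κ → F) : vecMulVec p (G₀ *ᵥ q) *ᵥ a = fm ρ G₀ a q • p := by
  ext i
  simp [fm_eq, vecMulVec_mulVec, dotProduct_comm, mul_comm]

end H23.TW
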