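import Cfsg.Agent.H23.Vn0

/-! Piece `PC` of S4805: in a Camina pair of odd `p`-groups an involution inverting the quotient centralizes the kernel. -/
set_option autoImplicit false
namespace H23.Vn
open Subgroup Cfsg H5
open scoped commutatorElement
universe u

theorem sqm {P : Type*} [Group P] {p : ℕ} (hp : p.Prime) (h2 : p ≠ 2) (hP : IsPGroup p P) (B : Subgroup P) {x : P}
    (h : x * x ∈ B) : x ∈ B := by
  obtain ⟨k, hk⟩ := hP x
  obtain ⟨m, hm⟩ := (hp.odd_of_ne_two h2).pow (n := k)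
  have : x = (x * x) ^ (m + 1) := by
    rw [← sq, ← pow_mul, show 2 * (m + 1) = p ^ k + 1 by omega, pow_succ, hk, one_mul]
  exact this ▸ pow_mem h _

theorem cnt {P : Type*} [Group P] [Finite P] {p : ℕ} [hp : Fact p.Prime] (hP : IsPGroup p P) {A : Subgroup P} [hA : A.Normal]
    (hT : A ≠ ⊤) (cam : ∀ x ∉ A, ∀ y ∈ A, IsConj x (x * y)) {z : P} (zA : z ∈ A) (oz : orderOf z = p)
    (ab : ∀ a ∈ A, ∀ b ∈ A, a * b = b * a) (cz : ∀ x, ∀ a ∈ A, x * a * x⁻¹ * a⁻¹ ∈ zpowers z)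
    (cc : ∀ x, (∀ a ∈ A, x * a * x⁻¹ = a) → x ∈ A) : False := by
  classical
  letI : CommGroup A := { (inferInstance : Group A) with mul_comm := fun a b => Subtype.ext (ab _ a.2 _ b.2) }
  have cZ : Nat.card (zpowers z) = p := by rw [Nat.card_zpowers, oz]
  have h1 : Nat.card A ≤ A.index := by
    obtain ⟨x, hx⟩ : ∃ x, x ∉ A := by
      by_contra! k
      exact hT ((eq_top_iff' A).2 k)
    have a1 : Nat.card A ≤ (centralizer ({x} : Set P)).index := by
      rw [← card_isConj]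
      exact Nat.card_le_card_of_injective (fun a : A => (⟨x * a, cam x hx a a.2⟩ : {y // IsConj x y}))
        fun a b e => Subtype.ext (mul_left_cancel (congrArg Subtype.val e))
    have a2 : Nat.card (centralizer ({x} : Set P)) ≤ A.index := by
      have e := (card_mul_index A).trans (card_mul_index (centralizer ({x} : Set P))).symm
      refine Nat.le_of_mul_le_mul_left ?_ (Nat.card_pos (α := A))
      rw [e, mul_comm]
      exact Nat.mul_le_mul_left _ a1
    let f : A →* P := A.subtype.comp ((MulAut.conjNormal x : MulAut A).toMonoidHom / MonoidHom.id A)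
    have hf : ∀ a : A, f a = x * a * x⁻¹ * (a : P)⁻¹ := fun a => by simp [f, div_eq_mul_inv]
    have a3 : f.ker.index ≤ p := by
      rw [index_ker, ← cZ]
      exact card_le_of_le (by rintro _ ⟨a, rfl⟩; rw [hf]; exact cz x a a.2)
    have a4 : f.ker.map A.subtype < centralizer ({x} : Set P) := by
      refine lt_of_le_of_ne ?_ fun e => hx (map_subtype_le _ (e.ge (mem_centralizer_singleton_iff.2 rfl)))
      rintro _ ⟨a, ha, rfl⟩
      have : x * a * x⁻¹ * (a : P)⁻¹ = 1 := hf a ▸ ha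
      rw [mul_inv_eq_one, mul_inv_eq_iff_eq_mul] at this
      exact mem_centralizer_singleton_iff.2 this.symm
    have a5 := H18.card_lt a4
    obtain ⟨i, hi⟩ := (hP.to_subgroup (f.ker.map A.subtype)).exists_card_eq
    obtain ⟨j, hj⟩ := (hP.to_subgroup (centralizer ({x} : Set P))).exists_card_eq
    rw [hi, hj, Nat.pow_lt_pow_iff_right hp.out.one_lt] at a5
    rw [card_subtype] at hi
    refine le_trans ?_ a2
    rw [← card_mul_index f.ker, hi, hj]
    exact (Nat.mul_le_mul_left _ a3).trans (pow_succ p i ▸ Nat.pow_le_pow_right hp.out.pos a5)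
  have z1 : (⟨z, zA⟩ : A) ≠ 1 := fun e => hp.out.ne_one (by rw [← oz, show z = 1 from congrArg Subtype.val e, orderOf_one])
  haveI : NeZero ((Monoid.exponent A : ℕ) : ℂ) := ⟨Nat.cast_ne_zero.2 Monoid.exponent_ne_zero_of_finite⟩
  obtain ⟨ψ, hψ⟩ := CommGroup.exists_apply_ne_one_of_hasEnoughRootsOfUnity A ℂ z1
  have cH := CommGroup.card_monoidHom_of_hasEnoughRootsOfUnity A ℂ
  haveI : Finite (A →* ℂˣ) := Nat.finite_of_card_ne_zero (cH ▸ Nat.card_pos.ne')
  have ki : ∀ w : A, (w : P) ∈ zpowers z → ψ w = 1 → w = 1 := fun w hw e => by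
    by_contra w1
    have := (zpowers w.1).eq_of_le_of_card_ge (zpowers_le.2 hw) (by
      rw [cZ, Nat.card_zpowers]
      refine ((Nat.dvd_prime hp.out).1 (oz ▸ orderOf_dvd_of_mem_zpowers hw)).elim (fun k => ?_) fun k => k.ge
      exact absurd (Subtype.ext (orderOf_eq_one_iff.1 k)) w1)
    obtain ⟨k, hk⟩ := this.ge (mem_zpowers z)
    exact hψ (by rw [show (⟨z, zA⟩ : A) = w ^ k from Subtype.ext hk.symm, map_zpow, e, one_zpow])
  let g : P ⧸ A → (A →* ℂˣ) := fun c => ψ.comp (MulAut.conjNormal c.out : MulAut A).toMonoidHom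
  have gi : Function.Injective g := fun c d e => by
    rw [← c.out_eq, ← d.out_eq, QuotientGroup.eq]
    have : d.out * c.out⁻¹ ∈ A := cc _ fun a ha => by
      have e1 := DFunLike.congr_fun e ⟨_, hA.conj_mem' a ha c.out⟩
      have := ki ⟨_, mul_mem (hA.conj_mem a ha (d.out * c.out⁻¹)) (inv_mem ha)⟩ (cz _ a ha) (by
        rw [← mul_inv_eq_one.2 e1.symm, ← map_inv]
        simp only [g, MonoidHom.comp_apply, ← map_inv ψ, ← map_mul]
        congr 1
        ext
        simp [mul_assoc])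
      exact mul_inv_eq_one.1 (congrArg Subtype.val this)
    simpa [mul_assoc] using hA.conj_mem' _ this c.out
  haveI := Fintype.ofFinite (P ⧸ A)
  haveI := Fintype.ofFinite (A →* ℂˣ)
  have := Fintype.card_lt_of_injective_of_notMem g gi (b := 1) (by
    rintro ⟨c, e⟩
    have := DFunLike.congr_fun e ((MulAut.conjNormal c.out : MulAut A).symm ⟨z, zA⟩)
    exact hψ (by simpa [g] using this))
  rw [← Nat.card_eq_fintype_card, ← Nat.card_eq_fintype_card, cH, ← index_eq_card] at this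
  exact this.not_ge h1

theorem pc_aux (n : ℕ) : ∀ (P : Type u) [Group P] [Finite P] (p : ℕ) (A : Subgroup P) [A.Normal] (τ : P →* P),
    Nat.card P = n → p.Prime → p ≠ 2 → IsPGroup p P → A ≠ ⊤ → (∀ x, τ (τ x) = x) → (∀ x, τ x * x ∈ A) →
    (∀ x ∉ A, ∀ y ∈ A, IsConj x (x * y)) → ∀ a ∈ A, τ a = a := by
  induction n using Nat.strong_induction_on with
  | _ n ih =>
  intro P _ _ p A hA τ e hp h2 hP hT tt inv cam
  haveI := Fact.mk hp
  have IH : ∀ N : Subgroup P, N.Normal → N ≠ ⊥ → N ≤ A → (∀ x ∈ N, τ x ∈ N) → ∀ a ∈ A, a⁻¹ * τ a ∈ N := by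
    intro N _ N0 NA hN' a ha
    have hN : N ≤ N.comap τ := hN'
    have sj := QuotientGroup.mk'_surjective N
    have cm : ∀ x : P, (x : P ⧸ N) ∈ A.map (QuotientGroup.mk' N) → x ∈ A := by
      rintro x ⟨y, hy, k⟩
      simpa using mul_mem hy (NA (QuotientGroup.eq.1 k))
    haveI := hA.map _ sj
    have := ih _ (e ▸ H8.card_quot_lt N0) (P ⧸ N) p (A.map (QuotientGroup.mk' N)) (QuotientGroup.map N N τ hN) rfl hp h2
      (hP.to_quotient N) (fun k => hT ((eq_top_iff' A).2 fun x => cm x (k.ge (mem_top _))))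
      (fun x => QuotientGroup.induction_on x fun x => by simp [tt])
      (fun x => QuotientGroup.induction_on x fun x => ⟨_, inv x, by simp⟩)
      (fun x => QuotientGroup.induction_on x fun x hx => by
        rintro _ ⟨y, hy, rfl⟩
        exact (QuotientGroup.mk' N).map_isConj (cam x (fun k => hx ⟨x, k, rfl⟩) y hy)) a ⟨a, ha, rfl⟩
    exact QuotientGroup.eq.1 (by simpa using this.symm)
  have s1 : ∀ {x : P}, x * x = 1 → x = 1 := fun h => mem_bot.1 (sqm hp h2 hP ⊥ (mem_bot.2 h))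
  have tA : ∀ a ∈ A, τ a ∈ A := fun a ha => (mul_mem_cancel_right ha).1 (inv a)
  by_contra! k
  obtain ⟨a0, ha0, k⟩ := k
  have d1 : a0⁻¹ * τ a0 ≠ 1 := fun e => k (inv_mul_eq_one.1 e).symm
  have td : τ (a0⁻¹ * τ a0) = (a0⁻¹ * τ a0)⁻¹ := by simp [tt]
  have dN : ∀ N : Subgroup P, N.Normal → N ≠ ⊥ → N ≤ A → (∀ x ∈ N, τ x ∈ N) → a0⁻¹ * τ a0 ∈ N :=
    fun N a b c d => IH N a b c d a0 ha0
  generalize a0⁻¹ * τ a0 = d at d1 td dN
  have nc : ∀ {B : Subgroup P}, B ≤ center P → B.Normal := fun l => ⟨fun b hb g => by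
    rwa [mem_center_iff.1 (l hb) g, mul_inv_cancel_right]⟩
  have hd : d ∈ A ⊓ center P := by
    obtain ⟨w, w1, w2, w3⟩ := H8.exists_central_of_normal hP (N := A) fun e => k (by
      rw [mem_bot.1 (e.le ha0), map_one])
    refine dN _ inferInstance (fun e => hp.ne_one ?_) inf_le_left fun x hx => ⟨tA x hx.1, mem_center_iff.2 fun y => ?_⟩
    · rw [← w3, mem_bot.1 (e.le ⟨w1, w2⟩), orderOf_one]
    · rw [← tt y, ← map_mul, ← map_mul, mem_center_iff.1 hx.2]
  haveI := nc (zpowers_le.2 hd.2)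
  obtain ⟨z, ⟨j, hj⟩, zc, oz⟩ := H8.exists_central_of_normal hP (N := zpowers d) (by simpa using d1)
  have tz : τ z = z⁻¹ := by rw [← hj]; simp only [map_zpow, td, inv_zpow]
  have zA : z ∈ A := hj ▸ A.zpow_mem hd.1 j
  have z1 : z ≠ 1 := fun e => hp.ne_one (by rw [← oz, e, orderOf_one])
  have Zc : zpowers z ≤ center P := zpowers_le.2 zc
  have hZ := IH (zpowers z) (nc Zc) (by simpa using z1) (zpowers_le.2 zA) (by
    rintro _ ⟨i, rfl⟩
    simp only [map_zpow, tz]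
    exact zpow_mem (inv_mem (mem_zpowers z)) i)
  have ab : ∀ a ∈ A, ∀ b ∈ A, a * b = b * a := by
    have l : ⁅A, A⁆ ≤ τ.eqLocus (MonoidHom.id P) := commutator_le.2 fun a ha b hb => by
      have e1 := mem_center_iff.1 (Zc (hZ a ha))
      have e2 := mem_center_iff.1 (Zc (hZ b hb))
      change τ ⁅a, b⁆ = ⁅a, b⁆
      rw [map_commutatorElement, ← mul_inv_cancel_left a (τ a), ← mul_inv_cancel_left b (τ b)]
      generalize a⁻¹ * τ a = v at e1
      generalize b⁻¹ * τ b = w at e2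
      simp only [commutatorElement_def, mul_inv_rev]
      calc a * v * (b * w) * (v⁻¹ * a⁻¹) * (w⁻¹ * b⁻¹) = a * ((b * w) * v) * v⁻¹ * (a⁻¹ * w⁻¹) * b⁻¹ := by
            rw [e1 (b * w)]; group
        _ = a * b * w * (w * a)⁻¹ * b⁻¹ := by group
        _ = _ := by rw [← e2]; group
    have : ⁅A, A⁆ = ⊥ := by_contra fun e => by
      have : τ d = d := l (dN _ inferInstance e (commutator_le_left A A) fun x hx => (show τ x = x from l hx).symm ▸ hx)
      exact d1 (s1 (by rw [td] at this; exact mul_eq_one_iff_eq_inv.2 this.symm))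
    exact fun a ha b hb => (commutator_eq_bot_iff_le_centralizer.1 this hb) a ha
  let C : Subgroup P :=
    { carrier := {x | ∀ a ∈ A, x * a * x⁻¹ * a⁻¹ ∈ zpowers z}
      one_mem' := fun a _ => by simp
      mul_mem' := fun {x y} hx hy a ha => by
        have := mul_mem (hx _ (hA.conj_mem a ha y)) (hy a ha)
        rwa [show x * (y * a * y⁻¹) * x⁻¹ * (y * a * y⁻¹)⁻¹ * (y * a * y⁻¹ * a⁻¹) = x * y * a * (x * y)⁻¹ * a⁻¹ by
          group] at this
      inv_mem' := fun {x} hx a ha => by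
        have := inv_mem (hx _ (hA.conj_mem' a ha x))
        rwa [show (x * (x⁻¹ * a * x) * x⁻¹ * (x⁻¹ * a * x)⁻¹)⁻¹ = x⁻¹ * a * x⁻¹⁻¹ * a⁻¹ by group] at this }
  refine cnt hP hT cam zA oz ab (fun x => sqm hp h2 hP C (x := x) fun a ha => ?_) fun x hx => ?_
  · have hb := hA.conj_mem a ha x
    have hc := hA.conj_mem _ hb x
    -- `τ c = τ x τ b τ x⁻¹`
    have e1 : τ (x * (x * a * x⁻¹) * x⁻¹) = x⁻¹ * τ (x * a * x⁻¹) * x := by
      rw [map_mul, map_mul _ x, map_inv]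
      have := ab _ (inv x) _ (hA.conj_mem' _ (tA _ hb) x)
      calc τ x * τ (x * a * x⁻¹) * (τ x)⁻¹ = τ x * x * (x⁻¹ * τ (x * a * x⁻¹) * x) * (τ x * x)⁻¹ := by group
        _ = _ := by rw [this]; group
    have e2 := hZ _ hc
    have e3 := (nc Zc).conj_mem' _ (hZ _ hb) x
    rw [e1] at e2
    have := (nc Zc).conj_mem _ (mul_mem e3 (inv_mem e2)) a
    rwa [show a * (x⁻¹ * ((x * a * x⁻¹)⁻¹ * τ (x * a * x⁻¹)) * x *
      ((x * (x * a * x⁻¹) * x⁻¹)⁻¹ * (x⁻¹ * τ (x * a * x⁻¹) * x))⁻¹) * a⁻¹ = x * x * a * (x * x)⁻¹ * a⁻¹ by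
        simp [mul_assoc]] at this
  · by_contra xA
    have c1 : ∀ a ∈ A, Commute (x⁻¹ * τ x) a := fun a ha => by
      refine Commute.mul_left (Commute.inv_left (mul_inv_eq_iff_eq_mul.1 (hx a ha))) ?_
      have := congrArg τ (mul_inv_eq_iff_eq_mul.1 (hx _ (tA a ha)))
      rwa [map_mul, map_mul, tt] at this
    have c2 : τ (x⁻¹ * τ x) = (x⁻¹ * τ x)⁻¹ := by simp [tt]
    have c3 : x⁻¹ * τ x ∉ A := fun h => xA (sqm hp h2 hP A (by
      have := mul_mem (inv_mem (hA.conj_mem _ h x)) (inv x)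
      rwa [show (x * (x⁻¹ * τ x) * x⁻¹)⁻¹ * (τ x * x) = x * x by group] at this))
    generalize x⁻¹ * τ x = y at c1 c2 c3
    obtain ⟨v, hv⟩ := isConj_iff.1 (cam y c3 z zA)
    have zc' := mem_center_iff.1 zc
    have e1 := congrArg τ hv
    rw [map_mul, map_mul, map_mul, map_inv, c2, tz] at e1
    have e2 : v⁻¹ * y⁻¹ * v = z * y⁻¹ := by
      have : y = v⁻¹ * y * v * z := by rw [mul_assoc, zc' v, ← mul_assoc, mul_assoc v⁻¹, ← hv]; group
      calc v⁻¹ * y⁻¹ * v = z * (v⁻¹ * y * v * z)⁻¹ := by group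
        _ = _ := by rw [← this]
    have e3 : τ v * y⁻¹ * (τ v)⁻¹ = z * y⁻¹ := by
      calc τ v * y⁻¹ * (τ v)⁻¹ = τ v * v * (v⁻¹ * y⁻¹ * v) * (τ v * v)⁻¹ := by group
        _ = _ := by
          rw [e2, ← mul_assoc, zc' (τ v * v), mul_assoc z, ← (c1 _ (inv v)).inv_left.eq]; group
    rw [e3, ← zc' y⁻¹] at e1
    exact z1 (s1 (mul_eq_one_iff_eq_inv.2 (mul_left_cancel e1)))

theorem pC : PC.{u} := fun P _ _ p A _ τ => pc_aux _ P p A τ rfl

end H23.Vn
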