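import Cfsg.Agent.H23.Wr2

/-! Simplicity of the `p`-fusion system of an alternating group (`simple_alt`). -/

set_option autoImplicit false
set_option linter.unusedSectionVars false

namespace H23.Wr

open Subgroup Equiv Equiv.Perm Sum H20 H23.FS Cfsg

variable {p : ℕ} [hp : Fact p.Prime] {α β γ : Type*} [Fintype α] [DecidableEq α] [Fintype β] [DecidableEq β]
  [Fintype γ] [DecidableEq γ]

theorem cent_el {g : Perm (α × ZMod p ⊕ β)} {x : α} (h : g * el β (sg x 1) = el β (sg x 1) * g) :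
    ∃ c, ∀ z, g (inl (x, z)) = inl (x, z + c) := by
  have e : g * el β (sg x 1) * g⁻¹ ∈ T p β ⊤ := by rw [h, mul_inv_cancel_right]; exact el_mem
  obtain ⟨y, a, b, h1⟩ := blk (x := x) (by simp) (by simp) (fun y hy => by simp [hy]) e e
  have h2 : (a : ZMod p) = sg x 1 y := by simpa [h1, add_comm] using DFunLike.congr_fun h (inl (x, 0))
  obtain rfl : y = x := by_contra fun h3 => a.ne_zero (by simp [h2, h3])
  exact ⟨b, fun z => by simp [h1, h2]⟩

theorem cen_E [Subsingleton β] (K : Subgroup (Perm (α × ZMod p ⊕ β))) : Cen p K (T p β ⊥) := fun g _ _ h => by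
  choose c hc using fun x : α => cent_el (h _ (el_mem (v := sg x 1)))
  exact mem_T_bot.2 ⟨c, ext_inl (fun ⟨x, z⟩ => by rw [hc, el_inl]) fun _ => rfl⟩

theorem mon_mem_N (σ : Perm α) (a : α → (ZMod p)ˣ) (b : α → ZMod p) :
    mon β σ a b ∈ normalizer ((T p β (⊥ : Subgroup (Perm α)) : Subgroup _) : Set (Perm (α × ZMod p ⊕ β))) :=
  mem_normalizer_of_conj fun x hx => by
    obtain ⟨v, rfl⟩ := mem_T_bot.1 hx
    rw [mon_conj_el]; exact el_mem

theorem alt_le_closure (h2 : p ≠ 2) (h : p ≤ Fintype.card α) :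
    alternatingGroup α ≤ Subgroup.closure {τ : Perm α | τ ^ p = 1} := by
  by_cases h3 : p = 3
  · subst h3
    rw [← closure_three_cycles_eq_alternating]
    exact closure_mono fun τ hτ => orderOf_dvd_iff_pow_eq_one.1 (IsThreeCycle.orderOf hτ).dvd
  obtain ⟨c, hc⟩ := exists_prime_orderOf_dvd_card' (G := Perm α) p (by
    rw [Nat.card_perm, Nat.card_eq_fintype_card]; exact hp.out.dvd_factorial.2 h)
  refine (alternatingGroup_le_of_normal (N := normalClosure {τ : Perm α | τ ^ p = 1}) (by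
    have := hp.out.five_le_of_ne_two_of_ne_three h2 h3; rw [Nat.card_eq_fintype_card]; omega)
    ((nontrivial_iff_exists_ne_one _).2 ⟨c, subset_normalClosure (orderOf_dvd_iff_pow_eq_one.1 hc.dvd), fun e =>
      hp.out.ne_one (by rw [← hc, e, orderOf_one])⟩)).trans (closure_mono fun τ hτ => ?_)
  obtain ⟨σ, h4, h5⟩ := Group.mem_conjugatesOfSet_iff.1 hτ
  obtain ⟨k, rfl⟩ := isConj_iff.1 h5
  rw [Set.mem_ofPred_eq, conj_pow, h4, mul_one, mul_inv_cancel]

section Grid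

variable (x0 : α)

variable (p β γ) in
/-- the `p × p` grid over `x0` -/
def ι : ZMod p × ZMod p ↪ (α × ZMod p ⊕ γ) × ZMod p ⊕ β :=
  ⟨fun q => inl (inl (x0, q.1), q.2), fun q r h => by simpa [Prod.ext_iff] using h⟩

theorem ι_apply (q : ZMod p × ZMod p) : ι p β γ x0 q = inl (inl (x0, q.1), q.2) := rfl

variable (β γ) in
/-- permutations of the grid -/
noncomputable def gr : Perm (ZMod p × ZMod p) →* Perm ((α × ZMod p ⊕ γ) × ZMod p ⊕ β) := viaEmbeddingHom (ι p β γ x0)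

theorem gr_ι (φ : Perm (ZMod p × ZMod p)) (q : ZMod p × ZMod p) : gr β γ x0 φ (ι p β γ x0 q) = ι p β γ x0 (φ q) :=
  viaEmbedding_apply _ _ _

theorem gr_out (φ : Perm (ZMod p × ZMod p)) {w : α × ZMod p ⊕ γ} (h : ∀ i, w ≠ inl (x0, i)) (z : ZMod p) :
    gr β γ x0 φ (inl (w, z)) = inl (w, z) :=
  viaEmbedding_apply_of_notMem _ _ _ fun ⟨q, e⟩ => h q.1 (by simp only [ι_apply, inl.injEq, Prod.mk.injEq] at e; exact e.1.symm)

theorem gr_inr (φ : Perm (ZMod p × ZMod p)) (c : β) : gr β γ x0 φ (inr c) = inr c :=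
  viaEmbedding_apply_of_notMem _ _ _ fun ⟨q, e⟩ => by simp [ι_apply] at e

theorem grid_ext {g h : Perm ((α × ZMod p ⊕ γ) × ZMod p ⊕ β)} (h1 : ∀ q, g (ι p β γ x0 q) = h (ι p β γ x0 q))
    (h2 : ∀ w, (∀ i, w ≠ inl (x0, i)) → ∀ z, g (inl (w, z)) = h (inl (w, z))) (h3 : ∀ c, g (inr c) = h (inr c)) :
    g = h := by
  ext (⟨w, z⟩ | c)
  · by_cases e : ∀ i, w ≠ inl (x0, i)
    · exact h2 w e z
    · push Not at e
      obtain ⟨i, rfl⟩ := e
      exact h1 (i, z)
  · exact h3 c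

theorem gr_comm_el (φ : Perm (ZMod p × ZMod p)) {v : α × ZMod p ⊕ γ → ZMod p} (h : ∀ i, v (inl (x0, i)) = 0) :
    gr β γ x0 φ * el β v = el β v * gr β γ x0 φ := by
  have e : ∀ q, el β v (ι p β γ x0 q) = ι p β γ x0 q := fun q => by simp [ι_apply, h]
  exact grid_ext x0 (fun q => by simp only [Perm.mul_apply, gr_ι, e]) (fun w hw z => by simp [gr_out x0 _ hw])
    fun c => by simp [gr_inr]

/-- a function which is `u` on the grid and `o` outside -/
def onG {M : Type*} (u o : M) : α × ZMod p ⊕ γ → M := Sum.elim (fun q => if q.1 = x0 then u else o) fun _ => o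

theorem onG_in {M : Type*} (u o : M) (i : ZMod p) : onG (γ := γ) x0 u o (inl (x0, i)) = u := by simp [onG]

theorem onG_out {M : Type*} (u o : M) {w : α × ZMod p ⊕ γ} (h : ∀ i, w ≠ inl (x0, i)) : onG x0 u o w = o := by
  rcases w with ⟨x, i⟩ | c
  · exact if_neg fun e => h i (by rw [← e])
  · rfl

theorem prod_onG (u : (ZMod p)ˣ) : ∏ w, onG (γ := γ) (p := p) x0 u 1 w = u := by
  rw [Fintype.prod_sum_type, Fintype.prod_prod_type, Finset.prod_eq_single x0 (fun y _ h => by simp [onG, h]) (by simp)]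
  simp only [onG, Sum.elim_inl, Sum.elim_inr, if_true, Finset.prod_const, Finset.card_univ, ZMod.card, one_pow, mul_one]
  exact Units.ext (by rw [Units.val_pow_eq_pow_val, ZMod.pow_card])

theorem gr_eq_mon {φ : Perm (ZMod p × ZMod p)} {u u' : (ZMod p)ˣ} {s t : ZMod p}
    (h : ∀ q, φ q = (u * q.1 + s, u' * q.2 + t)) :
    gr β γ x0 φ = mon β (mon γ 1 (Pi.mulSingle x0 u) (sg x0 s)) (onG x0 u' 1) (onG x0 t 0) :=
  grid_ext x0 (fun q => by rw [gr_ι, h]; simp [ι_apply, onG_in]) (fun w hw z => by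
    rw [gr_out x0 _ hw, mon_inl, onG_out x0 _ _ hw, onG_out x0 _ _ hw]
    rcases w with ⟨x, i⟩ | c
    · have : x ≠ x0 := fun e => hw i (by rw [e])
      simp [this]
    · simp) fun c => gr_inr x0 _ c

variable (p β γ) in
/-- translations of the grid together with the base group outside the grid -/
def Q : Subgroup (Perm ((α × ZMod p ⊕ γ) × ZMod p ⊕ β)) :=
  Subgroup.closure {g | (∃ t, g = gr β γ x0 (Equiv.addRight t)) ∨ ∃ v, (∀ i, v (inl (x0, i)) = 0) ∧ g = el β v}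

theorem Q_le (A : Subgroup (Perm α)) : Q p β γ x0 ≤ T p β (T p γ A) := (closure_le _).2 (by
  rintro _ (⟨t, rfl⟩ | ⟨v, -, rfl⟩)
  · exact ⟨_, el_mem (v := sg x0 t.1), onG x0 t.2 0, by
      rw [gr_eq_mon x0 (u := 1) (u' := 1) (s := t.1) (t := t.2) fun q => by simp [Prod.ext_iff], Pi.mulSingle_one]
      congr 1; funext w; rcases w with ⟨x, i⟩ | c <;> simp [onG]⟩
  · exact el_mem)

theorem gr_mem_N {φ : Perm (ZMod p × ZMod p)} (h : ∀ q t, φ (q + t) = φ q + φ t) :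
    gr β γ x0 φ ∈ normalizer (Q p β γ x0 : Set (Perm ((α × ZMod p ⊕ γ) × ZMod p ⊕ β))) :=
  mem_normalizer_of_conj fun x hx => ((closure_le ((Q p β γ x0).comap (MulAut.conj (gr β γ x0 φ)).toMonoidHom)).2 (by
    rintro _ (⟨t, rfl⟩ | ⟨v, hv, rfl⟩)
    · refine Subgroup.subset_closure (Or.inl ⟨φ t, ?_⟩)
      rw [MulEquiv.coe_toMonoidHom, MulAut.conj_apply, ← map_inv, ← map_mul, ← map_mul, mul_inv_eq_iff_eq_mul.2]
      exact Equiv.ext fun q => h q t
    · exact Subgroup.subset_closure (Or.inr ⟨v, hv, by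
        rw [MulEquiv.coe_toMonoidHom, MulAut.conj_apply, gr_comm_el x0 _ hv, mul_inv_cancel_right]⟩)) hx :)

theorem cen_Q [Subsingleton β] (K : Subgroup (Perm ((α × ZMod p ⊕ γ) × ZMod p ⊕ β))) : Cen p K (Q p β γ x0) :=
  fun g _ _ h => by
  have h1 : ∀ t, g (ι p β γ x0 t) = gr β γ x0 (Equiv.addRight t) (g (ι p β γ x0 0)) := fun t => by
    have := DFunLike.congr_fun (h _ (Subgroup.subset_closure (Or.inl ⟨t, rfl⟩))) (ι p β γ x0 0)
    simpa only [Perm.mul_apply, gr_ι, coe_addRight, zero_add] using this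
  obtain ⟨s, hs⟩ : g (ι p β γ x0 0) ∈ Set.range (ι p β γ x0) := by_contra fun hn => by
    have := (h1 1).trans (viaEmbedding_apply_of_notMem _ _ _ hn)
    exact one_ne_zero ((ι p β γ x0).injective (g.injective this))
  have h2 : ∀ w : α × ZMod p ⊕ γ, ∃ c, ((∀ i, w ≠ inl (x0, i)) → ∀ z, g (inl (w, z)) = inl (w, z + c)) ∧
      ∀ i, w = inl (x0, i) → c = 0 := fun w => by
    by_cases e : ∀ i, w ≠ inl (x0, i)
    · obtain ⟨c, hc⟩ := cent_el (h _ (Subgroup.subset_closure (Or.inr ⟨sg w 1, fun i => by simp [(e i).symm], rfl⟩)))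
      exact ⟨c, fun _ => hc, fun i h => absurd h (e i)⟩
    · exact ⟨0, fun h => absurd h e, fun _ _ => rfl⟩
  choose c hc hc' using h2
  have e : g = gr β γ x0 (Equiv.addRight s) * el β c := ext_inl (fun ⟨w, z⟩ => by
    by_cases e : ∀ i, w ≠ inl (x0, i)
    · rw [hc w e, Perm.mul_apply, el_inl, gr_out x0 _ e]
    · push Not at e
      obtain ⟨i, rfl⟩ := e
      rw [Perm.mul_apply, el_inl, hc' _ i rfl, add_zero]
      exact (h1 (i, z)).trans (by rw [← hs, gr_ι, ← ι_apply x0 (i, z), gr_ι]; simp [add_comm])) fun c => gr_inr x0 _ c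
  exact e ▸ mul_mem (Subgroup.subset_closure (Or.inl ⟨s, rfl⟩))
    (Subgroup.subset_closure (Or.inr ⟨c, fun i => hc' _ i rfl, rfl⟩))

/-- an upper unipotent matrix -/
def U (b : ZMod p) : Perm (ZMod p × ZMod p) :=
  ⟨fun q => (q.1 + b * q.2, q.2), fun q => (q.1 - b * q.2, q.2), fun q => by simp, fun q => by simp⟩

theorem U_apply (b : ZMod p) (q : ZMod p × ZMod p) : U b q = (q.1 + b * q.2, q.2) := rfl

theorem U_pow (b : ZMod p) (n : ℕ) : U b ^ n = U ((n : ZMod p) * b) := by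
  induction n with
  | zero => ext q <;> simp [U_apply]
  | succ n ih => rw [pow_succ, ih]; ext q <;> simp [U_apply]; ring

theorem U_pElt (b : ZMod p) : PElt p (U b) := ⟨1, by rw [pow_one, U_pow]; ext q <;> simp [U_apply]⟩

theorem gd_diag [Subsingleton β] (h2 : p ≠ 2) {S : Subgroup (Perm ((α × ZMod p ⊕ γ) × ZMod p ⊕ β))}
    (h1 : Q p β γ x0 ≤ S) (h3 : T p β ⊥ ≤ S) (u : (ZMod p)ˣ) :
    mon β (mon γ 1 (Pi.mulSingle x0 u) 0) (onG x0 u⁻¹ 1) 0 ∈ GdN p (alternatingGroup _) S (T p β ⊥) h3 := by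
  have k : ∀ φ, PElt p φ → (∀ q t, φ (q + t) = φ q + φ t) → gr β γ x0 φ ∈ GdN p (alternatingGroup _) S _ h1 :=
    fun φ ⟨n, h⟩ h' => by
      have : PElt p (gr β γ x0 φ) := ⟨n, by rw [← map_pow, h, map_one]⟩
      exact pelt_mem_GdN h1 (sign_of_pElt h2 this) (gr_mem_N x0 h') this
  have kU := fun b => k (U b) (U_pElt b) fun q t => by simp [U_apply]; ring
  have kL := fun b => k _ ((U_pElt b).conj (Equiv.prodComm _ _)) fun q t => by simp [U_apply]; ring
  have h4 := mul_mem (mul_mem (mul_mem (kU u) (kL (-(u⁻¹ : (ZMod p)ˣ)))) (kU u))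
    (mul_mem (mul_mem (kU (-1)) (kL 1)) (kU (-1)))
  simp only [← map_mul] at h4
  have h5 := (mem_GdN.1 h4).1
  rw [gr_eq_mon x0 (u := u) (u' := u⁻¹) (s := 0) (t := 0) fun q => by
    have h : ((u⁻¹ : (ZMod p)ˣ) : ZMod p) * u = 1 := u.inv_mul
    generalize ((u⁻¹ : (ZMod p)ˣ) : ZMod p) = u' at h
    simp only [U_apply, Perm.mul_apply, Perm.inv_def, prodComm_symm, prodComm_apply, Prod.fst_swap, Prod.snd_swap,
      Prod.swap_prod_mk, Prod.mk.injEq]
    exact ⟨by linear_combination (q.2 - u * q.1) * h, by linear_combination (-q.1) * h⟩, show sg x0 (0 : ZMod p) = 0 by simp,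
    show onG (γ := γ) x0 (0 : ZMod p) 0 = 0 by funext w; rcases w with ⟨x, i⟩ | c <;> simp [onG]] at h4 h5
  exact mem_GdN.2 ⟨mon_mem_N _ _ _, (Gd.up (cen_Q x0 _) (le_sup_left (b := T p β ⊥)) (sup_le h1 h3) (fun x hx => sup_le h1 h3
    (conj_mem_of_mem_normalizer (normalizer_inf_normalizer_le_normalizer_sup _ _ ⟨h5, mon_mem_N _ _ _⟩) hx))
      (mem_GdN.1 h4).2).down le_sup_right⟩

include x0 in
theorem gd_odd [Subsingleton β] (h2 : p ≠ 2) {A : Subgroup (Perm α)} {g : Perm ((α × ZMod p ⊕ γ) × ZMod p ⊕ β)}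
    (hA : IsPGroup p (T p β (T p γ A))) (hg : g ∈ alternatingGroup _)
    (hn : g ∈ normalizer ((T p β (T p γ A) ⊓ alternatingGroup _ : Subgroup _) : Set (Perm ((α × ZMod p ⊕ γ) × ZMod p ⊕ β)))) :
    Gd p (alternatingGroup _) (T p β (T p γ A) ⊓ alternatingGroup _) (T p β (T p γ A) ⊓ alternatingGroup _) g := by
  have hc : p ≤ Fintype.card (α × ZMod p ⊕ γ) := by
    have := Fintype.card_pos_iff.2 ⟨x0⟩
    rw [Fintype.card_sum, Fintype.card_prod, ZMod.card]; nlinarith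
  have h3 : 3 ≤ Fintype.card (α × ZMod p ⊕ γ) := by have := hp.out.two_le; omega
  obtain ⟨σ, a, b, rfl⟩ := norm_mon_alt h3 hn
  have e : T p β (T p γ A) ⊓ alternatingGroup _ = T p β (T p γ A) :=
    inf_eq_left.2 fun x hx => sign_of_pElt h2 (pElt_of_mem hA hx)
  rw [e] at hn ⊢
  have hE : T p β ⊥ ≤ T p β (T p γ A) := T_mono bot_le
  refine Gd.move (cen_E _) le_rfl hn (mon_mem_N _ _ _) (mem_GdN (hP := hE).1 ?_).2
  set N := GdN p (alternatingGroup _) (T p β (T p γ A)) (T p β ⊥) hE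
  have hN : ∀ x ∈ N, sign x = 1 := fun x hx => (mem_GdN.1 hx).2.mem
  have k1 : ∀ a τ, τ ∈ alternatingGroup _ → D β a * δ p β τ * (D β a)⁻¹ ∈ N := fun a τ hτ =>
    ((alt_le_closure h2 hc).trans ((closure_le (N.comap ((MulAut.conj (D β a)).toMonoidHom.comp (δ p β)))).2
      fun τ hτ => by
        have : PElt p (D β a * δ p β τ * (D β a)⁻¹) := PElt.conj ⟨1, by rw [pow_one, ← map_pow, hτ, map_one]⟩ _
        exact pelt_mem_GdN hE (sign_of_pElt h2 this)
          (mul_mem (mul_mem (mon_mem_N _ _ _) (mon_mem_N _ _ _)) (inv_mem (mon_mem_N _ _ _))) this) hτ :)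
  have k2 : ∀ τ, τ ∈ alternatingGroup _ → δ p β τ ∈ N := fun τ hτ => by simpa using k1 1 τ hτ
  have k3 : ∀ v, el β v ∈ N := fun v =>
    have : PElt p (el β v) := ⟨1, by rw [pow_one, el_pow_p]⟩
    pelt_mem_GdN hE (sign_of_pElt h2 this) (mon_mem_N _ _ _) this
  have k4 : ∀ a, ∏ x, a x = 1 → D β a ∈ N := fun a ha => by
    let x : α × ZMod p ⊕ γ := inl (x0, 0)
    rw [show a = ∏ y, (Pi.mulSingle y (a y) * (Pi.mulSingle x (a y))⁻¹) by
      rw [Finset.prod_mul_distrib, Finset.univ_prod_mulSingle, Finset.prod_inv_distrib, show ∏ y, (Pi.mulSingle x (a y) :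
        _ → (ZMod p)ˣ) = Pi.mulSingle x (∏ y, a y) from
          (map_prod (MonoidHom.mulSingle (fun _ => (ZMod p)ˣ) x) _ _).symm, ha]; simp]
    refine Finset.prod_induction _ (fun a => D β a ∈ N) (fun _ _ h h' => by rw [map_mul]; exact mul_mem h h')
      (by rw [map_one]; exact one_mem _) fun y _ => ?_
    by_cases e : y = x
    · rw [e, mul_inv_cancel, map_one]; exact one_mem _
    obtain ⟨z, h4, h5⟩ := exists_third h3 x y
    have hτ : swap x z * swap y z ∈ alternatingGroup _ := by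
      rw [mem_alternatingGroup, map_mul, sign_swap h4.symm, sign_swap h5.symm]; simp
    have := mul_mem (k1 (Pi.mulSingle y (a y)) _ hτ) (inv_mem (k2 _ hτ))
    rw [mul_assoc (D β _), mul_assoc (D β _), ← map_inv (D β), δ_conj_D, ← map_mul] at this
    convert this using 3
    funext w
    have : (swap x z * swap y z)⁻¹ w = y ↔ w = x := by rw [Perm.inv_eq_iff_eq]; simp
    simp only [Pi.inv_apply, Pi.mulSingle_apply, this]
  have k5 := gd_diag x0 h2 (Q_le x0 A) hE (∏ x, a x)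
  refine (mul_mem_cancel_right k5).1 ?_
  have k6 := mul_mem hg (hN _ k5)
  rw [mon_mul, mon_eq] at k6 ⊢
  have k7 := k4 (fun x => a (mon γ 1 (Pi.mulSingle x0 (∏ x, a x)) 0 x) * onG x0 (∏ x, a x)⁻¹ 1 x) (by
    rw [Finset.prod_mul_distrib, Equiv.prod_comp, prod_onG, mul_inv_cancel])
  refine mul_mem (mul_mem (k2 _ ?_) (k3 _)) k7
  rw [mem_alternatingGroup, map_mul, map_mul, hN _ k7, hN _ (k3 _), mul_one, mul_one, sign_δ] at k6
  rcases Int.units_eq_one_or (sign (σ * mon γ 1 (Pi.mulSingle x0 (∏ x, a x)) 0)) with h | h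
  · exact h
  · rw [h, (hp.out.odd_of_ne_two h2).neg_one_pow] at k6
    exact absurd k6 (by decide)

end Grid

theorem simple_alt {n : ℕ} (hn : 6 ≤ n) (hnp : p ^ 2 ≤ n) (hb : n % p ≤ 1) (S : Sylow p (alternatingGroup (Fin n))) :
    (groupFusionSystem (S : Subgroup (alternatingGroup (Fin n)))).IsSimple p := by
  have hm : p ≤ n / p := (Nat.le_div_iff_mul_le hp.out.pos).2 (by rw [← sq]; omega)
  obtain ⟨A, hA⟩ := exists_good p (n / p / p) (Fin (n / p / p)) (by simp)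
  have hA' := hA.T (β := Fin (n / p % p)) (by simpa using Nat.mod_lt _ hp.out.pos)
  have hβ : Fintype.card (Fin (n % p)) < p := by simpa using Nat.mod_lt _ hp.out.pos
  haveI : Subsingleton (Fin (n % p)) := Fintype.card_le_one_iff_subsingleton.1 (by simpa using hb)
  have h3 : 3 ≤ Fintype.card (Fin (n / p / p) × ZMod p ⊕ Fin (n / p % p)) := by
    rw [card_model]
    rcases hp.out.eq_two_or_odd' with rfl | h
    · omega
    · have := hp.out.two_le; obtain ⟨k, rfl⟩ := h; omega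
  let e : alternatingGroup ((Fin (n / p / p) × ZMod p ⊕ Fin (n / p % p)) × ZMod p ⊕ Fin (n % p)) ≃*
      alternatingGroup (Fin n) := (Fintype.equivOfCardEq (by
    rw [Fintype.card_sum, Fintype.card_prod, card_model]; simp [Nat.div_add_mod'])).altCongrHom
  refine simple_of_gd e.toMonoidHom e.surjective (fun x hx => ?_) (syl_alt hβ hA') (ne_bot_alt h3) (scl h3 hβ hA')
    (fun g hg hn => ?_) S
  · rw [show x = 1 from e.injective (hx.trans (map_one e).symm)]
    exact ⟨qElt_one, fun y _ => by simp⟩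
  · by_cases h2 : p = 2
    · exact Gd.pelt le_rfl hg hn (pElt_of_mem (hA'.T hβ).syl.pgroup (selfnorm_alt h2 h3 hβ hA' hn))
    · exact gd_odd ⟨0, Nat.div_pos hm hp.out.pos⟩ h2 (hA'.T hβ).syl.pgroup hg hn

end H23.Wr
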